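import Mathlib
import Cfsg.Agent.Base
import Cfsg.Agent.Lib.ClassMax.Decomp

/-!
Direct decompositions with their projections.
-/

set_option autoImplicit false
set_option linter.unusedSectionVars false

namespace H98

open Module Cfsg H28 H97

variable {F V : Type*} [Field F] [AddCommGroup V] [Module F V] {κ : Type*} [Fintype κ]
  [DecidableEq κ]

/-- The projections of a direct decomposition. -/
structure Dec (D : κ → Submodule F V) where
  π : κ → V →ₗ[F] V
  mem : ∀ i v, π i v ∈ D i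
  self : ∀ i, ∀ v ∈ D i, π i v = v
  other : ∀ i j, i ≠ j → ∀ v ∈ D j, π i v = 0
  sum : ∀ v, ∑ i, π i v = v

theorem nonempty_dec {D : κ → Submodule F V} (h : iSupIndep D) (ht : iSup D = ⊤) :
    Nonempty (Dec D) := by
  have hc : ∀ i, IsCompl (D i) (⨆ j ≠ i, D j) := fun i => ⟨h i, by
    rw [codisjoint_iff, eq_top_iff, ← ht]
    refine iSup_le fun j => ?_
    by_cases hj : j = i
    · rw [hj]; exact le_sup_left
    · exact le_sup_of_le_right (le_iSup₂_of_le (f := fun j (_ : j ≠ i) => D j) j hj le_rfl)⟩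
  let p : κ → V →ₗ[F] V := fun i => (D i).subtype ∘ₗ (D i).linearProjOfIsCompl _ (hc i)
  have h1 : ∀ i, ∀ v ∈ D i, p i v = v := fun i v hv => by
    have := Submodule.linearProjOfIsCompl_apply_left (hc i) ⟨v, hv⟩
    exact congrArg Subtype.val this
  have h2 : ∀ i j, i ≠ j → ∀ v ∈ D j, p i v = 0 := fun i j hij v hv => by
    have := Submodule.linearProjOfIsCompl_apply_right' (hc i)
      (le_iSup₂_of_le (f := fun j (_ : j ≠ i) => D j) j hij.symm le_rfl hv)
    exact congrArg Subtype.val this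
  refine ⟨⟨p, fun i v => ((D i).linearProjOfIsCompl _ (hc i) v).2, h1, h2, fun v => ?_⟩⟩
  have hv : v ∈ iSup D := ht ▸ Submodule.mem_top
  induction hv using Submodule.iSup_induction' with
  | mem j x hx =>
    rw [Finset.sum_eq_single j (fun i _ hi => h2 i j hi x hx) (by simp), h1 j x hx]
  | zero => simp
  | add x y _ _ hx hy => simp only [map_add, Finset.sum_add_distrib, hx, hy]

namespace Dec

variable {D : κ → Submodule F V} (X : Dec D)

theorem π_π (i : κ) (v : V) : X.π i (X.π i v) = X.π i v := X.self i _ (X.mem i v)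

theorem π_π_ne {i j : κ} (h : i ≠ j) (v : V) : X.π i (X.π j v) = 0 := X.other i j h _ (X.mem j v)

theorem ext_zero {v : V} (h : ∀ i, X.π i v = 0) : v = 0 := by
  rw [← X.sum v]; simp [h]

theorem mem_of {i : κ} {v : V} (h : ∀ j, j ≠ i → X.π j v = 0) : v ∈ D i := by
  rw [← X.sum v, Finset.sum_eq_single i (fun j _ hj => h j hj) (by simp)]
  exact X.mem i v

theorem exists_ne_of_notMem {i : κ} {v : V} (h : v ∉ D i) : ∃ j, j ≠ i ∧ X.π j v ≠ 0 := by
  by_contra hc
  push Not at hc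
  exact h (X.mem_of hc)

theorem notMem_of {i j : κ} (hij : j ≠ i) {v : V} (h : X.π j v ≠ 0) : v ∉ D i :=
  fun hv => h (X.other j i hij v hv)

include X in
theorem eq_zero_of_mem {i j : κ} (hij : i ≠ j) {v : V} (h : v ∈ D i) (h' : v ∈ D j) : v = 0 := by
  rw [← X.self i v h, X.other i j hij v h']

include X in
theorem injective (h0 : ∀ i, D i ≠ ⊥) : Function.Injective D := fun i j hij => by
  by_contra h
  obtain ⟨x, hx, hx0⟩ := (Submodule.ne_bot_iff _).1 (h0 i)
  exact hx0 (X.eq_zero_of_mem h hx (hij ▸ hx))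

/-- `v` has two non-zero components. -/
def Two (v : V) : Prop := ∃ a b, a ≠ b ∧ X.π a v ≠ 0 ∧ X.π b v ≠ 0

theorem two_of_notMem {v : V} (h : ∀ i, v ∉ D i) [Nonempty κ] : X.Two v := by
  obtain ⟨i⟩ := ‹Nonempty κ›
  obtain ⟨j, -, hj⟩ := X.exists_ne_of_notMem (h i)
  obtain ⟨l, hl, hl'⟩ := X.exists_ne_of_notMem (h j)
  exact ⟨l, j, hl, hl', hj⟩

theorem Two.notMem {X : Dec D} {v : V} (h : X.Two v) (i : κ) : v ∉ D i := by
  obtain ⟨a, b, hab, ha, hb⟩ := h
  by_cases hi : a = i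
  · exact X.notMem_of (hi ▸ hab.symm) hb
  · exact X.notMem_of hi ha

/-- A subspace covered by the members lies in one of them. -/
theorem le_of_cover {W : Submodule F V} [Nonempty κ] (h : ∀ x ∈ W, ¬ X.Two x) :
    ∃ j, ∀ x ∈ W, x ∈ D j := by
  have h1 : ∀ x ∈ W, ∃ j, x ∈ D j := fun x hx => by
    by_contra hc
    push Not at hc
    exact h x hx (X.two_of_notMem hc)
  by_cases h0 : ∀ x ∈ W, x = 0
  · obtain ⟨i⟩ := ‹Nonempty κ›
    exact ⟨i, fun x hx => by rw [h0 x hx]; exact (D i).zero_mem⟩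
  push Not at h0
  obtain ⟨y, hy, hy0⟩ := h0
  obtain ⟨j, hj⟩ := h1 y hy
  refine ⟨j, fun x hx => ?_⟩
  by_contra hxj
  obtain ⟨l, hl⟩ := h1 x hx
  have hlj : l ≠ j := by rintro rfl; exact hxj hl
  have hx0 : x ≠ 0 := by rintro rfl; exact hxj (D j).zero_mem
  refine h (x + y) (W.add_mem hx hy) ⟨l, j, hlj, ?_, ?_⟩
  · rwa [map_add, X.self l x hl, X.other l j hlj y hj, add_zero]
  · rwa [map_add, X.self j y hj, X.other j l hlj.symm x hl, zero_add]

variable [FiniteDimensional F V]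

theorem exists_two_of_notMem (h0 : ∀ i, D i ≠ ⊥) (hd : ∀ i j, finrank F (D i) = finrank F (D j))
    {g : V ≃ₗ[F] V} (hg : g ∉ dstab D) : ∃ i, ∃ x ∈ D i, X.Two (g x) := by
  by_contra hc
  push Not at hc
  refine hg (mem_dstab_of_maps (X.injective h0) hd fun i => ?_)
  haveI : Nonempty κ := ⟨i⟩
  obtain ⟨j, hj⟩ := X.le_of_cover (W := (D i).map (g : V →ₗ[F] V)) (by
    rintro _ ⟨x, hx, rfl⟩; exact hc i x hx)
  exact ⟨j, fun x hx => hj _ ⟨x, hx, rfl⟩⟩

omit [FiniteDimensional F V] in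
theorem not_two_of_mem {g : V ≃ₗ[F] V} (hg : g ∈ dstab D) {i : κ} {x : V} (hx : x ∈ D i) :
    ¬ X.Two (g x) := by
  obtain ⟨τ, hτ⟩ := hg
  exact fun h => h.notMem (τ i) (hτ i ▸ ⟨x, hx, rfl⟩)

omit [FiniteDimensional F V] in
theorem π_apply_of_map {g : V ≃ₗ[F] V} {τ : Equiv.Perm κ}
    (hτ : ∀ i, (D i).map (g : V →ₗ[F] V) = D (τ i)) (i : κ) (v : V) :
    X.π (τ i) (g v) = g (X.π i v) := by
  conv_lhs => rw [← X.sum v]
  rw [map_sum, map_sum, Finset.sum_eq_single i]
  · exact X.self _ _ (hτ i ▸ ⟨_, X.mem i v, rfl⟩)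
  · intro j _ hj
    exact X.other _ (τ j) (fun h => hj (τ.injective h).symm) _ (hτ j ▸ ⟨_, X.mem j v, rfl⟩)
  · simp

end Dec

variable [FiniteDimensional F V]

theorem mem_dstab_of_local {D : κ → Submodule F V} {g : V ≃ₗ[F] V}
    (h : ∀ i, ∀ x ∈ D i, g x ∈ D i) : g ∈ dstab D :=
  mem_dstab_of_stab fun i => mem_stab_of_maps (h i)

theorem mem_dstab_of_swap {D : κ → Submodule F V} {g : V ≃ₗ[F] V} {a b : κ}
    (hd : finrank F (D a) = finrank F (D b)) (ha : ∀ x ∈ D a, g x ∈ D b) (hb : ∀ x ∈ D b, g x ∈ D a)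
    (h : ∀ i, i ≠ a → i ≠ b → ∀ x ∈ D i, g x ∈ D i) : g ∈ dstab D := by
  refine ⟨Equiv.swap a b, fun i => ?_⟩
  by_cases h1 : i = a
  · rw [h1, Equiv.swap_apply_left]; exact map_eq_of_maps ha hd.ge
  by_cases h2 : i = b
  · rw [h2, Equiv.swap_apply_right]; exact map_eq_of_maps hb hd.le
  rw [Equiv.swap_apply_of_ne_of_ne h1 h2]
  exact map_eq_of_maps (h i h1 h2) le_rfl

omit [FiniteDimensional F V] in
/-- A rank one perturbation of the identity which is invertible. -/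
theorem exists_T {u : V} {φ : Dual F V} (h : 1 + φ u ≠ 0) :
    ∃ g : V ≃ₗ[F] V, ∀ x, g x = x + φ x • u := by
  refine ⟨LinearEquiv.ofLinear (LinearMap.id + φ.smulRight u)
    (LinearMap.id - ((1 + φ u)⁻¹ • φ).smulRight u) ?_ ?_, fun x => rfl⟩
  · ext x
    simp only [LinearMap.comp_apply, LinearMap.add_apply, LinearMap.sub_apply, LinearMap.id_apply,
      LinearMap.smulRight_apply, LinearMap.smul_apply, map_sub, map_smul, smul_eq_mul]
    match_scalars <;> field_simp <;> ring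
  · ext x
    simp only [LinearMap.comp_apply, LinearMap.add_apply, LinearMap.sub_apply, LinearMap.id_apply,
      LinearMap.smulRight_apply, LinearMap.smul_apply, map_add, map_smul, smul_eq_mul]
    match_scalars <;> field_simp <;> ring

/-- The determinant can be corrected by a homology. -/
theorem exists_fix_det {u : V} {φ : Dual F V} (h : φ u = 1) (g : V ≃ₗ[F] V) :
    ∃ (c : F) (r : V ≃ₗ[F] V), 1 + c ≠ 0 ∧ (∀ x, r x = x + (c * φ x) • u) ∧ g * r ∈ SLV F V := by
  set δ := LinearMap.det (g : V →ₗ[F] V) with hδ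
  have hδ0 : δ ≠ 0 := (LinearEquiv.isUnit_det' g).ne_zero
  have h1 : 1 + (δ⁻¹ - 1) ≠ 0 := by simpa using hδ0
  obtain ⟨r, hr⟩ := exists_T (u := u) (φ := (δ⁻¹ - 1) • φ) (by simpa [h] using hδ0)
  refine ⟨δ⁻¹ - 1, r, h1, hr, mem_SLV.2 ?_⟩
  rw [LinearEquiv.coe_toLinearMap_mul, map_mul, det_of_rank_one hr, ← hδ]
  simp [h, hδ0]

end H98
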