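import Mathlib
import Cfsg.Agent.Base
import Cfsg.Agent.Lib.Imprim.Basic

/-!
Quasi-reflections, the parameter groups `S_d`, and orthogonal decompositions.
-/

set_option autoImplicit false
set_option linter.unusedSectionVars false

namespace H98

open Module Cfsg H28 H97

variable {F V : Type*} [Field F] [AddCommGroup V] [Module F V] {σ : F →+* F} {P : PQ F V σ}
  {M : Subgroup (V ≃ₗ[F] V)}

variable (P) in
/-- The form parameter is the largest possible one. -/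
def LMax : Prop := ∀ a, a + P.ε * σ a = 0 → a ∈ P.Λ

theorem LMax.mem_iff (h : LMax P) {a : F} : a ∈ P.Λ ↔ a + P.ε * σ a = 0 := ⟨P.tr_mem a, h a⟩

theorem LMax.q_sub (h : LMax P) {x y : V} (e : P.B x x = P.B y y) : P.q x - P.q y ∈ P.Λ := by
  refine h _ ?_
  rw [P.self, P.self] at e
  rw [map_sub]; linear_combination e

theorem LMax.sing (h : LMax P) {x : V} (e : P.B x x = 0) : P.q x ∈ P.Λ :=
  h _ (by rw [← P.self, e])

theorem LMax.mem_isom (h : LMax P) {g : V ≃ₗ[F] V} (e : ∀ x y, P.B (g x) (g y) = P.B x y) :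
    g ∈ P.Isom := ⟨e, fun x => h.q_sub (e x x)⟩

theorem LMax.valid_iff (h : LMax P) {c : F} {u : V} :
    σ c * c * P.q u + P.ε * c ∈ P.Λ ↔ σ c * c * P.B u u + P.ε * c + σ c = 0 := by
  rw [h.mem_iff, P.self]
  simp only [map_add, map_mul, P.σσ, P.σε]
  constructor <;> intro e
  · linear_combination e - σ c * P.εε
  · linear_combination e + σ c * P.εε

variable (P M) in
/-- `M` contains all quasi-reflections with centre `u`. -/
def Rt (u : V) : Prop := ∀ c, σ c * c * P.q u + P.ε * c ∈ P.Λ → Has M (P.qrefl c u)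

theorem Rt.apply {u : V} (h : Rt P M u) {g : V ≃ₗ[F] V} (hg : g ∈ M) (hg' : g ∈ P.Isom) :
    Rt P M (g u) := fun c hc =>
  ((h c (by
    have := P.Λ.sub_mem hc (P.norm_mem c _ (hg'.2 u))
    convert this using 1; ring)).conj hg).congr (qrefl_conj hg' c u)

theorem Rt.mono {N : Subgroup (V ≃ₗ[F] V)} {u : V} (h : Rt P M u) (hMN : M ≤ N) : Rt P N u :=
  fun c hc => (h c hc).mono hMN

theorem Rt.smul {u : V} (h : Rt P M u) (a : F) : Rt P M (a • u) := fun c hc => by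
  by_cases ha : a = 0
  · exact has_id.congr fun x => by simp [PQ.qrefl_apply, ha]
  have hσ : σ a ≠ 0 := by simpa using ha
  refine (h (σ a * a * c) ?_).congr fun x => ?_
  · have := P.norm_mem a _ (P.Λ.sub_mem hc (P.norm_mem c _ (P.q_smul a u)))
    convert this using 1
    simp only [map_mul, P.σσ]; ring
  · simp only [PQ.qrefl_apply, B_smul_left, smul_smul]
    congr 2; ring

theorem Rt.eu {d : V} (h : Rt P M d) (hd : P.q d ∈ P.Λ) {l : F} (hl : l ∈ P.Λ) :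
    Has M (eu P d 0 l) := (h _ (qrefl_valid_of_sing hd hl)).congr fun x => (eu_eq_qrefl d l x).symm

theorem rt_of_eu {d : V} (hd : P.q d ∈ P.Λ) (h : ∀ l ∈ P.Λ, Has M (eu P d 0 l)) : Rt P M d := by
  intro c hc
  have h1 : P.ε * c ∈ P.Λ := by simpa using P.Λ.sub_mem hc (P.norm_mem c _ hd)
  refine (h _ (P.Λ.neg_mem h1)).congr fun x => ?_
  rw [eu_eq_qrefl]
  congr 2
  linear_combination c * P.εε

theorem valid_of_sing {d : V} (hd : P.q d ∈ P.Λ) {c : F} (hc : P.ε * c ∈ P.Λ) :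
    σ c * c * P.q d + P.ε * c ∈ P.Λ := P.Λ.add_mem (P.norm_mem _ _ hd) hc

/-- Applying a quasi-reflection of `M`. -/
theorem Rt.qrefl [FiniteDimensional F V] (hP : P.B.SeparatingLeft) {u v : V} (hu : Rt P M u)
    (hv : Rt P M v) {c : F} (hc : σ c * c * P.q v + P.ε * c ∈ P.Λ) :
    Rt P M (u + (c * P.B v u) • v) := by
  obtain ⟨g, hg, e⟩ := hv c hc
  have := hu.apply hg ((has_qrefl_isom hP hc).mem e)
  rwa [e, PQ.qrefl_apply] at this

theorem qrefl_q_sub {u v : V} {c : F} (hc : σ c * c * P.q v + P.ε * c ∈ P.Λ) :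
    P.q (u + (c * P.B v u) • v) - P.q u ∈ P.Λ := by
  have := P.qrefl_q hc u
  rwa [PQ.qrefl_apply] at this

/-- The quotient of two quasi-reflections whose centres differ by a singular vector. -/
theorem has_eu_of_qrefl {u d : V} {c : F} (hdu : P.B d u = 0)
    (hc : σ c * c * P.q u + P.ε * c ∈ P.Λ) (h1 : Has M (P.qrefl c u))
    (h2 : Has M (P.qrefl c (u + d))) : Has M (eu P d (-(P.ε * c) • u) (-(P.ε * c))) := by
  obtain ⟨g, hg, e⟩ := h1
  refine (h2.comp (has_of_mem (M.inv_mem hg))).congr fun x => ?_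
  conv_rhs => rw [← le_apply_inv g x, e]
  generalize g⁻¹ x = y
  have h3 := P.tr_mem _ hc
  have h4 := P.self u
  have h5 := P.εε
  simp only [map_add, map_mul, P.σσ, P.σε] at h3
  simp only [eu_apply, PQ.qrefl_apply, map_add, map_smul, B_smul_left, LinearMap.add_apply, hdu,
    smul_eq_mul, map_neg, map_mul, P.σε, smul_smul]
  match_scalars
  · ring
  · linear_combination (-c * P.B d y) * h5
  · linear_combination (P.ε * P.B u y) * h3 + (P.ε * σ c * c * P.B u y) * h4 -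
      (c * P.B d y + c * P.B u y + P.ε * σ c * P.B u y) * h5

theorem valid_diff {u : V} {c : F} (hc : σ c * c * P.q u + P.ε * c ∈ P.Λ) :
    -(P.ε * c) - P.q (-(P.ε * c) • u) ∈ P.Λ := by
  have := P.Λ.neg_mem (P.Λ.add_mem hc (P.q_smul (-(P.ε * c)) u))
  convert this using 1
  simp only [map_neg, map_mul, P.σε]
  linear_combination (-σ c * c * P.q u) * P.εε

variable [FiniteDimensional F V]

/-- The vector parameters of the elements of `X_d` lying in `M`. -/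
def Sd {d : V} (hd : P.q d ∈ P.Λ) (h : Rt P M d) : AddSubgroup V where
  carrier := {w | P.B d w = 0 ∧ Has M (eu P d w (P.q w))}
  zero_mem' := ⟨by simp, h.eu hd P.q_zero⟩
  add_mem' := by
    rintro w w' ⟨hw, h1⟩ ⟨hw', h2⟩
    refine ⟨by simp [hw, hw'], has_eu_valid hd (by simp [hw, hw']) (has_eu_add hd hw hw' h1 h2)
      (h.eu hd ?_)⟩
    have := P.q_add w w'
    convert this using 1; ring
  neg_mem' := by
    rintro w ⟨hw, h1⟩
    refine ⟨by simp [hw], has_eu_valid hd (by simp [hw]) (has_eu_neg hd hw h1) (h.eu hd ?_)⟩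
    have := P.Λ.neg_mem (valid_neg (P := P) (w := w) (c := P.q w) (by simp))
    convert this using 1; ring

section Sd

variable {d : V} {hd : P.q d ∈ P.Λ} {h : Rt P M d}

theorem mem_Sd {w : V} {c : F} (hw : P.B d w = 0) (hc : c - P.q w ∈ P.Λ) (h1 : Has M (eu P d w c)) :
    w ∈ Sd hd h :=
  ⟨hw, has_eu_valid hd hw h1 (h.eu hd (by simpa using P.Λ.neg_mem hc))⟩

theorem Sd_has {w : V} (hw : w ∈ Sd hd h) {c : F} (hc : c - P.q w ∈ P.Λ) : Has M (eu P d w c) :=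
  has_eu_valid hd hw.1 hw.2 (h.eu hd hc)

theorem Sd_apply {w : V} (hw : w ∈ Sd hd h) {g : V ≃ₗ[F] V} (hg : g ∈ M) (hg' : g ∈ P.Isom)
    (e : g d = d) : g w ∈ Sd hd h := by
  have := has_eu_conj hw.2 hg hg'
  rw [e] at this
  exact mem_Sd (by rw [← e, hg'.1, hw.1]) (isom_valid hg' (by simp)) this

theorem smul_mem_Sd (a : F) : a • d ∈ Sd hd h := by
  refine mem_Sd (c := 0) (by simp [P.self_eq_zero hd]) (by simpa using P.Λ.neg_mem (P.q_smul_mem hd a))
    ((h.eu hd (P.sub_mem a)).congr fun x => ?_)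
  have := eu_add_smul (P := P) d 0 a 0 x
  rw [zero_add, zero_add] at this
  exact this.symm

theorem xle_of_Sd (h1 : ∀ w, P.B d w = 0 → w ∈ Sd hd h) : XLe P M d :=
  fun w _ hw hc => Sd_has (h1 w hw) hc

theorem mem_Sd_of_rt {u : V} (hdu : P.B d u = 0) (h1 : Rt P M u) (h2 : Rt P M (u + d)) {c : F}
    (hc : σ c * c * P.q u + P.ε * c ∈ P.Λ) : -(P.ε * c) • u ∈ Sd hd h :=
  mem_Sd (by simp [hdu]) (valid_diff hc) (has_eu_of_qrefl hdu hc (h1 c hc)
    (h2 c (qrefl_valid_congr hc (q_add_sing hd (P.eq_zero_symm hdu)))))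

end Sd

variable (P) in
/-- Every isometry can be moved into `E` by an isometry supported on `W`. -/
def Fix (W : Submodule F V) : Prop :=
  ∀ g ∈ P.Isom, ∃ r ∈ P.Isom, (∀ z ∈ perp P W, r z = z) ∧ g * r ∈ EG P

theorem Fix.mono {W W' : Submodule F V} (h : Fix P W) (hW : W ≤ W') : Fix P W' := fun g hg => by
  obtain ⟨r, hr, h1, h2⟩ := h g hg
  exact ⟨r, hr, fun z hz => h1 z (perp_anti hW hz), h2⟩

theorem fix_of_eq (h : EG P = P.Isom) (W : Submodule F V) : Fix P W :=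
  fun g hg => ⟨1, P.Isom.one_mem, fun _ _ => rfl, by rw [h, mul_one]; exact hg⟩

theorem exists_B_ne_zero {W : Submodule F V} (hW : W ⊓ perp P W = ⊥) {x : V} (hx : x ∈ W)
    (hx0 : x ≠ 0) : ∃ y ∈ W, P.B y x ≠ 0 := by
  by_contra hc
  push Not at hc
  exact hx0 ((Submodule.mem_bot F).1 (hW ▸ ⟨hx, hc⟩))

theorem exists_sing_B_ne_zero (hP : P.B.SeparatingLeft) {W : Submodule F V}
    (hW : W ⊓ perp P W = ⊥) {f : V} (hfW : f ∈ W) (hf0 : f ≠ 0) (hf : P.q f ∈ P.Λ) {x : V}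
    (hx : x ∈ W) (hx0 : x ≠ 0) : ∃ d ∈ W, P.q d ∈ P.Λ ∧ P.B d x ≠ 0 := by
  obtain ⟨e, heW, he, hef⟩ := exists_partner_in hP hW hfW hf0 hf
  by_cases h1 : P.B e x = 0
  swap
  · exact ⟨e, heW, he, h1⟩
  by_cases h2 : P.B f x = 0
  swap
  · exact ⟨f, hfW, hf, h2⟩
  obtain ⟨y, hy, hyx⟩ := exists_B_ne_zero hW hx hx0
  obtain ⟨h3, h4⟩ := pair_proj he hf hef y
  have h5 := q_add_pair he hf hef (P.eq_zero_symm h3) (P.eq_zero_symm h4) 0
  rw [sub_zero] at h5
  refine ⟨_, W.add_mem (W.sub_mem (W.sub_mem hy (W.smul_mem _ heW)) (W.smul_mem _ hfW))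
    (W.add_mem heW (W.smul_mem _ hfW)), h5, ?_⟩
  simpa [h1, h2, B_smul_left] using hyx

/-- An additive subgroup containing the singular vectors of `W` contains `W`. -/
theorem le_of_sing (hP : P.B.SeparatingLeft) {W : Submodule F V} (hW : W ⊓ perp P W = ⊥) {f : V}
    (hfW : f ∈ W) (hf0 : f ≠ 0) (hf : P.q f ∈ P.Λ) (S : AddSubgroup V)
    (hS : ∀ e ∈ W, P.q e ∈ P.Λ → e ∈ S) : ∀ x ∈ W, x ∈ S := by
  obtain ⟨e, heW, he, hef⟩ := exists_partner_in hP hW hfW hf0 hf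
  intro y hy
  obtain ⟨h3, h4⟩ := pair_proj he hf hef y
  have h1 : ∀ a : F, a • e ∈ S := fun a => hS _ (W.smul_mem _ heW) (P.q_smul_mem he a)
  have h2 : ∀ a : F, a • f ∈ S := fun a => hS _ (W.smul_mem _ hfW) (P.q_smul_mem hf a)
  have h0 := q_add_pair he hf hef (P.eq_zero_symm h3) (P.eq_zero_symm h4) 0
  rw [sub_zero] at h0
  have h5 := hS _ (W.add_mem (W.sub_mem (W.sub_mem hy (W.smul_mem _ heW)) (W.smul_mem _ hfW))
    (W.add_mem heW (W.smul_mem _ hfW))) h0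
  have h6 := S.add_mem (S.add_mem (S.sub_mem (S.sub_mem h5 (h2 (0 - P.q
    (y - (P.ε * P.B f y) • e - P.B e y • f)))) (h1 1)) (h2 (P.B e y))) (h1 (P.ε * P.B f y))
  convert h6 using 1
  module

variable {κ : Type*} [Fintype κ] [DecidableEq κ]

variable (P) in
/-- An orthogonal decomposition. -/
structure ODec (D : κ → Submodule F V) extends Dec D where
  orth : ∀ i j, i ≠ j → ∀ x ∈ D i, ∀ y ∈ D j, P.B x y = 0

namespace ODec

variable {D : κ → Submodule F V} (X : ODec P D)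

theorem B_π {i : κ} {x : V} (hx : x ∈ D i) (v : V) : P.B x (X.π i v) = P.B x v := by
  conv_rhs => rw [← X.sum v]
  rw [map_sum, Finset.sum_eq_single i (fun j _ hj => X.orth i j hj.symm x hx _ (X.mem j v)) (by simp)]

theorem B_π' {i : κ} {x : V} (hx : x ∈ D i) (v : V) : P.B (X.π i v) x = P.B v x := by
  rw [P.symm, X.B_π hx, ← P.symm]

theorem sub_mem_perp (i : κ) (v : V) : v - X.π i v ∈ perp P (D i) := fun x hx => by
  rw [map_sub, X.B_π hx, sub_self]

include X in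
theorem le_perp {i j : κ} (h : i ≠ j) : D j ≤ perp P (D i) := fun y hy x hx => X.orth i j h x hx y hy

theorem π_eq_zero (hP : P.B.SeparatingLeft) {i : κ} {v : V} (h : v ∈ perp P (D i)) : X.π i v = 0 :=
  hP _ fun y => by
    rw [← X.B_π (X.mem i v) y, X.B_π' (X.mem i y) v]
    exact mem_perp'.1 h _ (X.mem i y)

include X in
theorem nd (hP : P.B.SeparatingLeft) (i : κ) : D i ⊓ perp P (D i) = ⊥ := by
  rw [eq_bot_iff]
  rintro v ⟨h1, h2⟩
  rw [Submodule.mem_bot, ← X.self i v h1]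
  exact X.π_eq_zero hP h2

include X in
theorem maps_of_fix (hP : P.B.SeparatingLeft) {j : κ} {g : V ≃ₗ[F] V} (hg : g ∈ P.Isom)
    (h : ∀ z ∈ perp P (D j), g z = z) (i : κ) : ∀ x ∈ D i, g x ∈ D i := by
  intro x hx
  by_cases hij : i = j
  · subst hij
    exact (stab_of_perp hP hg (mem_stab_of_fix h) x).1 hx
  · rw [h x (X.le_perp (Ne.symm hij) hx)]; exact hx

include X in
theorem has_qrefl {i : κ} {x : V} (hx : x ∈ D i) {c : F} {K : Subgroup (V ≃ₗ[F] V)}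
    (h : Has K (P.qrefl c x)) : Has (dstab D ⊓ K) (P.qrefl c x) := by
  obtain ⟨g, hg, e⟩ := h
  refine ⟨g, ⟨mem_dstab_of_local fun j y hy => ?_, hg⟩, e⟩
  rw [e, PQ.qrefl_apply]
  by_cases hij : i = j
  · exact (D j).add_mem hy ((D j).smul_mem _ (hij ▸ hx))
  · simpa [X.orth i j hij x hx y hy] using hy

include X in
theorem rt {i : κ} {x : V} (hx : x ∈ D i) (hq : P.q x ∈ P.Λ) : Rt P (dstab D ⊓ EG P) x :=
  fun _ hc => X.has_qrefl hx (has_qrefl_EG_of_sing hq hc)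

include X in
theorem has_eu {i : κ} {d w : V} (hdi : d ∈ D i) (hwi : w ∈ D i) (hd : P.q d ∈ P.Λ)
    (hw : P.B d w = 0) {c : F} (hc : c - P.q w ∈ P.Λ) : Has (dstab D ⊓ EG P) (eu P d w c) := by
  obtain ⟨g, hg, e⟩ := has_eu_EG hd hw hc
  refine ⟨g, ⟨mem_dstab_of_local fun j y hy => ?_, hg⟩, e⟩
  by_cases hij : i = j
  · rw [e, eu_apply]
    exact (D j).sub_mem ((D j).add_mem hy ((D j).smul_mem _ (hij ▸ hdi))) ((D j).smul_mem _ (hij ▸ hwi))
  · rwa [e, eu_fix c (X.orth i j hij d hdi y hy) (X.orth i j hij w hwi y hy)]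

include X in
/-- Moving a vector inside its block. -/
theorem move (hP : P.B.SeparatingLeft) {j l : κ} {W : Submodule F V} (hWl : W ≤ D l) (hW : Fix P W)
    {x y : V} (hx : x ∈ D j) (hy : y ∈ D j) (hx0 : x ≠ 0) (hy0 : y ≠ 0)
    (hq : P.q y - P.q x ∈ P.Λ) (hxW : x ∈ perp P W) :
    ∃ h ∈ dstab D ⊓ EG P, h x = y ∧ ∀ z ∈ perp P (D j), z ∈ perp P W → h z = z := by
  obtain ⟨g, hg, -, e1, e2⟩ := exists_isom_stab_apply_eq hP (X.nd hP j) hx hy hx0 hy0 hq
  obtain ⟨r, hr, e3, hgr⟩ := hW g hg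
  refine ⟨g * r, ⟨mem_dstab_of_local fun i v hv => ?_, hgr⟩, by rw [le_mul_apply, e3 x hxW, e1],
    fun z hz hz' => by rw [le_mul_apply, e3 z hz', e2 z hz]⟩
  exact X.maps_of_fix hP hg e2 i _ (X.maps_of_fix hP hr (fun z hz => e3 z (perp_anti hWl hz)) i v hv)

theorem rt_move (hP : P.B.SeparatingLeft) (hH : dstab D ⊓ EG P ≤ M) {j l : κ} {W : Submodule F V}
    (hWl : W ≤ D l) (hW : Fix P W) {u y : V} (hu : Rt P M u) (hy : y ∈ D j) (hx0 : X.π j u ≠ 0)
    (hy0 : y ≠ 0) (hq : P.q y - P.q (X.π j u) ∈ P.Λ) (hxW : X.π j u ∈ perp P W) (huW : u ∈ perp P W) :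
    Rt P M (u + (y - X.π j u)) ∧ P.q (u + (y - X.π j u)) - P.q u ∈ P.Λ := by
  obtain ⟨h, hh, e1, e2⟩ := X.move hP hWl hW (X.mem j u) hy hx0 hy0 hq hxW
  have e3 := e2 _ (X.sub_mem_perp j u) ((perp P W).sub_mem huW hxW)
  have e4 : h u = u + (y - X.π j u) := by
    rw [map_sub, e1] at e3
    linear_combination (norm := module) e3
  rw [← e4]
  exact ⟨hu.apply (hH hh) (EG_le_isom hh.2), (EG_le_isom hh.2).2 u⟩

include X in
/-- Interchanging two isometric blocks. -/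
theorem swap (hP : P.B.SeparatingLeft) (hm : LMax P) {a b : κ} (hab : a ≠ b) (hfix : Fix P (D a))
    {g : V ≃ₗ[F] V} (hg : g ∈ P.Isom) (e : (D a).map (g : V →ₗ[F] V) = D b) :
    ∃ h ∈ dstab D ⊓ EG P, (D a).map (h : V →ₗ[F] V) = D b ∧
      ∀ c, c ≠ a → c ≠ b → ∀ x ∈ D c, h x = x := by
  have hd : finrank F (D a) = finrank F (D b) := by rw [← e, LinearEquiv.finrank_map_eq]
  have e1 : ∀ x ∈ D a, g x ∈ D b := fun x hx => e ▸ ⟨x, hx, rfl⟩
  have e2 : ∀ x ∈ D b, g⁻¹ x ∈ D a := fun x hx => map_inv_le e ▸ ⟨x, hx, rfl⟩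
  let f : V →ₗ[F] V := (g : V →ₗ[F] V) ∘ₗ X.π a + ((g⁻¹ : V ≃ₗ[F] V) : V →ₗ[F] V) ∘ₗ X.π b +
    (LinearMap.id - X.π a - X.π b)
  have hf : ∀ x, f x = g (X.π a x) + g⁻¹ (X.π b x) + (x - X.π a x - X.π b x) := fun x => rfl
  have hr : ∀ x, ∀ y ∈ D a, P.B y (x - X.π a x - X.π b x) = 0 := fun x y hy => by
    rw [map_sub, map_sub, X.B_π hy, X.orth a b hab y hy _ (X.mem b x)]; simp
  have hr' : ∀ x, ∀ y ∈ D b, P.B y (x - X.π a x - X.π b x) = 0 := fun x y hy => by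
    rw [map_sub, map_sub, X.B_π hy, X.orth b a hab.symm y hy _ (X.mem a x)]; simp
  have key : ∀ x y : V, ∀ xa ∈ D a, ∀ xb ∈ D b, ∀ ya ∈ D a, ∀ yb ∈ D b,
      P.B (xa + xb + (x - X.π a x - X.π b x)) (ya + yb + (y - X.π a y - X.π b y)) =
        P.B xa ya + P.B xb yb + P.B (x - X.π a x - X.π b x) (y - X.π a y - X.π b y) := by
    intro x y xa hxa xb hxb ya hya yb hyb
    generalize hx' : x - X.π a x - X.π b x = x'
    generalize hy' : y - X.π a y - X.π b y = y'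
    have h1 := hr y xa hxa
    have h2 := hr' y xb hxb
    have h3 := P.eq_zero_symm (hr x ya hya)
    have h4 := P.eq_zero_symm (hr' x yb hyb)
    rw [hx'] at h3 h4
    rw [hy'] at h1 h2
    simp only [map_add, LinearMap.add_apply, h1, h2, h3, h4, X.orth a b hab xa hxa yb hyb,
      X.orth b a hab.symm xb hxb ya hya]
    ring
  have hB : ∀ x y, P.B (f x) (f y) = P.B x y := fun x y => by
    have h1 := key x y _ (e2 _ (X.mem b x)) _ (e1 _ (X.mem a x)) _ (e2 _ (X.mem b y)) _ (e1 _ (X.mem a y))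
    have h2 := key x y _ (X.mem a x) _ (X.mem b x) _ (X.mem a y) _ (X.mem b y)
    rw [hg.1, (P.Isom.inv_mem hg).1] at h1
    rw [hf, hf, add_comm (g _), add_comm (g _), h1, add_comm (P.B (X.π b x) _), ← h2]
    congr 1
    · congr 1; abel
    · abel
  obtain ⟨s, hs, es⟩ := P.exists_isom_of_linear hP f hB fun x => hm.q_sub (hB x x)
  obtain ⟨r, hr1, hr2, hr3⟩ := hfix s hs
  have s1 : ∀ x ∈ D a, s x ∈ D b := fun x hx => by
    rw [es, hf, X.self a x hx, X.other b a hab.symm x hx]; simpa using e1 x hx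
  have s2 : ∀ x ∈ D b, s x ∈ D a := fun x hx => by
    rw [es, hf, X.self b x hx, X.other a b hab x hx]; simpa using e2 x hx
  have s3 : ∀ c, c ≠ a → c ≠ b → ∀ x ∈ D c, (s * r) x = x := fun c h1 h2 x hx => by
    rw [le_mul_apply, hr2 x (X.le_perp h1.symm hx), es, hf, X.other a c h1.symm x hx,
      X.other b c h2.symm x hx]; simp
  have r1 := X.maps_of_fix hP hr1 hr2
  exact ⟨s * r, ⟨mem_dstab_of_swap hd (fun x hx => s1 _ (r1 a x hx)) (fun x hx => s2 _ (r1 b x hx))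
    fun c h1 h2 x hx => by rw [s3 c h1 h2 x hx]; exact hx, hr3⟩,
    map_eq_of_maps (fun x hx => s1 _ (r1 a x hx)) hd.ge, s3⟩

end ODec

end H98
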