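import Mathlib
import Cfsg.Agent.Base
import Cfsg.Agent.Lib.Imprim.Orth

/-!
Overgroups of stabilisers of orthogonal decompositions whose members contain singular vectors.
-/

set_option autoImplicit false
set_option linter.unusedSectionVars false

namespace H98

open Module Cfsg H28 H97

variable {F V : Type*} [Field F] [AddCommGroup V] [Module F V] {σ : F →+* F} {P : PQ F V σ}
  {M : Subgroup (V ≃ₗ[F] V)} [FiniteDimensional F V] {κ : Type*} [Fintype κ] [DecidableEq κ]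

variable (P) in
/-- The standing hypotheses. -/
structure Good (D : κ → Submodule F V) : Prop where
  nd : P.B.SeparatingLeft
  lmax : LMax P
  lam : ∃ l ∈ P.Λ, l ≠ 0
  iso : ∀ a b, ∃ g ∈ P.Isom, (D a).map (g : V →ₗ[F] V) = D b
  sing : ∀ a, ∃ e ∈ D a, e ≠ 0 ∧ P.q e ∈ P.Λ
  fix : ∀ a, Fix P (D a)
  room : ∀ a b, ∀ d ∈ D a, ∀ e ∈ D b, e ≠ 0 → P.q e ∈ P.Λ → (a ≠ b ∨ d = e) →
    ∃ l W, W ≤ D l ∧ Fix P W ∧ d ∈ perp P W ∧ e ∈ perp P W

theorem exists_valid_ne_zero (h : ∃ l ∈ P.Λ, l ≠ 0) : ∃ c, c ≠ 0 ∧ P.ε * c ∈ P.Λ := by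
  obtain ⟨l, hl, hl0⟩ := h
  refine ⟨P.ε * l, mul_ne_zero P.ε_ne_zero hl0, ?_⟩
  rwa [← mul_assoc, P.εε, one_mul]

namespace ODec

variable {D : κ → Submodule F V} (X : ODec P D)

include X in
theorem gain (G : Good P D) (hH : dstab D ⊓ EG P ≤ M) {a : κ} {d : V}
    (hda : d ∈ D a) (hd0 : d ≠ 0) (hd : P.q d ∈ P.Λ) {h : Rt P M d} {y : V} (hy : y ∈ Sd hd h)
    (hya : y ∉ D a) : EG P ≤ M := by
  have hP := G.nd
  have h1 : ∀ w ∈ D a, P.B d w = 0 → w ∈ Sd hd h := fun w hw hdw =>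
    ⟨hdw, (X.has_eu hda hw hd hdw (by simp)).mono hH⟩
  have hconj : ∀ g ∈ dstab D ⊓ EG P, g d = d → ∀ w ∈ Sd hd h, g w ∈ Sd hd h :=
    fun g hg e w hw => Sd_apply hw (hH hg) (EG_le_isom hg.2) e
  obtain ⟨b, hba, hb⟩ := X.exists_ne_of_notMem hya
  obtain ⟨f, hfb, hf0, hf⟩ := G.sing b
  obtain ⟨e, heb, he, hey⟩ := exists_sing_B_ne_zero hP (X.nd hP b) hfb hf0 hf (X.mem b y) hb
  rw [X.B_π heb] at hey
  obtain ⟨c, hc0, hc⟩ := exists_valid_ne_zero G.lam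
  have h2 : (c * P.B e y) • e ∈ Sd hd h := by
    obtain ⟨g, hg, eg⟩ := X.rt heb he c (valid_of_sing he hc)
    have := hconj g hg (by rw [eg, PQ.qrefl_apply, X.orth b a hba e heb d hda]; simp) y hy
    rw [eg, PQ.qrefl_apply] at this
    simpa using (Sd hd h).sub_mem this hy
  have he0 : (c * P.B e y) • e ≠ 0 := smul_ne_zero (mul_ne_zero hc0 hey) (by rintro rfl; simp at hey)
  have h3 : ∀ x ∈ D b, x ∈ Sd hd h := by
    refine le_of_sing hP (X.nd hP b) hfb hf0 hf _ fun e' he'b he' => ?_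
    by_cases h0 : e' = 0
    · rw [h0]; exact (Sd hd h).zero_mem
    obtain ⟨l, W, hWl, hW, hdW, heW⟩ := G.room a b d hda _ ((D b).smul_mem _ heb) he0
      (P.q_smul_mem he _) (Or.inl hba.symm)
    obtain ⟨g, hg, e1, e2⟩ := X.move hP hWl hW ((D b).smul_mem _ heb) he'b he0 h0
      (P.Λ.sub_mem he' (P.q_smul_mem he _)) heW
    rw [← e1]
    exact hconj g hg (e2 d (X.le_perp hba hda) hdW) _ h2
  have h4 : ∀ j, j ≠ a → ∀ x ∈ D j, x ∈ Sd hd h := by
    intro j hj x hx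
    by_cases hjb : b = j
    · exact h3 x (hjb ▸ hx)
    obtain ⟨g, hg, eg⟩ := G.iso b j
    obtain ⟨s, hs, e1, e2⟩ := X.swap hP G.lmax hjb (G.fix b) hg eg
    rw [← e1] at hx
    obtain ⟨x', hx', rfl⟩ := hx
    exact hconj s hs (e2 a hba.symm hj.symm d hda) _ (h3 x' hx')
  have hX : XLe P M d := xle_of_Sd (hd := hd) (h := h) fun w hw => by
    rw [← X.sum w]
    refine AddSubgroup.sum_mem _ fun j _ => ?_
    by_cases hj : j = a
    · rw [hj]; exact h1 _ (X.mem a w) (by rw [X.B_π hda, hw])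
    · exact h4 j hj _ (X.mem j w)
  obtain ⟨d', hd'a, hd', hdd'⟩ := exists_partner_in hP (X.nd hP a) hda hd0 hd
  obtain ⟨l, W, hWl, hW, hdW, -⟩ := G.room a a d hda d hda hd0 hd (Or.inr rfl)
  obtain ⟨g, hg, e1, -⟩ := X.move hP hWl hW hda hd'a hd0 (by rintro rfl; simp at hdd')
    (P.Λ.sub_mem hd' hd) hdW
  exact EG_le_of_xle hP hd' hd (e1 ▸ hX.apply (hH hg) (EG_le_isom hg.2)) hX (by simp [hdd'])

include X in
theorem EG_le_of_rt_add (G : Good P D) (hH : dstab D ⊓ EG P ≤ M) {a : κ} {d u : V}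
    (hda : d ∈ D a) (hd0 : d ≠ 0) (hd : P.q d ∈ P.Λ) (hu : P.q u ∈ P.Λ) (hua : u ∉ D a)
    (hdu : P.B d u = 0) (h1 : Rt P M u) (h2 : Rt P M (u + d)) : EG P ≤ M := by
  obtain ⟨c, hc0, hc⟩ := exists_valid_ne_zero G.lam
  refine X.gain G hH hda hd0 hd (mem_Sd_of_rt (hd := hd) (h := (X.rt hda hd).mono hH) hdu h1 h2
    (valid_of_sing hu hc)) fun h => hua (((D a).smul_mem_iff ?_).1 h)
  simp [hc0, P.ε_ne_zero]

theorem exists_sing_two (G : Good P D) {g : V ≃ₗ[F] V} (hg : g ∈ P.Isom) (hg' : g ∉ dstab D) :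
    ∃ i, ∃ x ∈ D i, P.q x ∈ P.Λ ∧ X.Two (g x) := by
  have hP := G.nd
  by_contra hc
  push Not at hc
  have h0 : ∀ i, D i ≠ ⊥ := fun i h => by
    obtain ⟨e, he, he0, -⟩ := G.sing i
    rw [h] at he
    exact he0 he
  refine hg' (mem_dstab_of_maps (X.injective h0) (fun i j => ?_) fun i => ?_)
  · obtain ⟨s, -, e⟩ := G.iso i j
    rw [← e, LinearEquiv.finrank_map_eq]
  haveI : Nonempty κ := ⟨i⟩
  have h1 : ∀ x ∈ D i, P.q x ∈ P.Λ → ∃ j, g x ∈ D j := fun x hx hq => by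
    by_contra h
    push Not at h
    exact hc i x hx hq (X.two_of_notMem h)
  obtain ⟨f, hfi, hf0, hf⟩ := G.sing i
  obtain ⟨e, hei, he, hef⟩ := exists_partner_in hP (X.nd hP i) hfi hf0 hf
  obtain ⟨j, hj⟩ := h1 f hfi hf
  have h2 : ∀ x ∈ D i, P.q x ∈ P.Λ → P.B x f ≠ 0 → g x ∈ D j := fun x hx hq hB => by
    obtain ⟨l, hl⟩ := h1 x hx hq
    by_cases hlj : l = j
    · exact hlj ▸ hl
    · exact absurd (hg.1 x f ▸ X.orth l j hlj _ hl _ hj) hB
  refine ⟨j, fun y hy => ?_⟩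
  obtain ⟨h3, h4⟩ := pair_proj he hf hef y
  have h5 := q_add_pair he hf hef (P.eq_zero_symm h3) (P.eq_zero_symm h4) 0
  rw [sub_zero] at h5
  have h6 := h2 _ ((D i).add_mem ((D i).sub_mem ((D i).sub_mem hy ((D i).smul_mem _ hei))
    ((D i).smul_mem _ hfi)) ((D i).add_mem hei ((D i).smul_mem _ hfi))) h5 (by
      rw [map_add, LinearMap.add_apply, P.eq_zero_symm h4]
      simp [hef, B_smul_left, P.self_eq_zero hf])
  have h7 := h2 e hei he (by simp [hef])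
  have h8 := (D j).add_mem ((D j).add_mem ((D j).sub_mem ((D j).sub_mem h6 ((D j).smul_mem (0 - P.q
    (y - (P.ε * P.B f y) • e - P.B e y • f)) hj)) h7) ((D j).smul_mem (P.B e y) hj))
    ((D j).smul_mem (P.ε * P.B f y) h7)
  convert h8 using 1
  simp only [map_add, map_sub, map_smul]
  module

include X in
theorem not_EG_le (G : Good P D) (h2 : ∃ a b : κ, a ≠ b) : ¬ EG P ≤ dstab D := by
  obtain ⟨a, b, hab⟩ := h2
  obtain ⟨x, hxa, hx0, hx⟩ := G.sing a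
  obtain ⟨e, heb, he0, he⟩ := G.sing b
  obtain ⟨w, hwa, hw, hwx⟩ := exists_partner_in G.nd (X.nd G.nd a) hxa hx0 hx
  obtain ⟨g, hg, eg⟩ := has_eu_EG he (X.orth b a hab.symm e heb w hwa) (c := P.q w) (by simp)
  intro hle
  refine X.not_two_of_mem (hle hg) hxa ?_
  have : g x = x + e := by rw [eg, eu_apply, hwx, X.orth b a hab.symm e heb x hxa]; simp
  rw [this]
  refine ⟨a, b, hab, ?_, ?_⟩
  · rwa [map_add, X.self a x hxa, X.other a b hab e heb, add_zero]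
  · rwa [map_add, X.self b e heb, X.other b a hab.symm x hxa, zero_add]

theorem isMaximalIn (G : Good P D) (h2 : ∃ a b : κ, a ≠ b)
    (h : ∀ M, dstab D ⊓ EG P ≤ M → ∀ u, P.q u ∈ P.Λ → X.Two u → Rt P M u → EG P ≤ M) :
    Geo.IsMaximalIn (EG P) (dstab D ⊓ EG P) := by
  refine isMaximalIn_of inf_le_right (fun hle => X.not_EG_le G h2 (hle.trans inf_le_left))
    fun M h1 h3 ⟨g, hg, hg'⟩ => ?_
  have hgI := EG_le_isom (h3 hg)
  obtain ⟨i, x, hx, hq, ht⟩ := X.exists_sing_two G hgI fun h => hg' ⟨h, h3 hg⟩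
  exact h M h1 _ (isom_q hgI hq) ht (((X.rt hx hq).mono h1).apply hg hgI)

/-- A singular vector of the block can be added to the component. -/
theorem EG_le_of_add (G : Good P D) (hH : dstab D ⊓ EG P ≤ M) {u : V} (hu : P.q u ∈ P.Λ)
    (hr : Rt P M u) {a : κ} (hua : u ∉ D a) (h0 : X.π a u ≠ 0) {d : V} (hda : d ∈ D a) (hd0 : d ≠ 0)
    (hd : P.q d ∈ P.Λ) (hdu : P.B d (X.π a u) = 0) (hne : X.π a u + d ≠ 0) {W : Submodule F V}
    (hWa : W ≤ D a) (hW : Fix P W) (hxW : X.π a u ∈ perp P W) : EG P ≤ M := by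
  have := (X.rt_move G.nd hH hWa hW hr ((D a).add_mem (X.mem a u) hda) h0 hne
    (q_add_sing hd (P.eq_zero_symm hdu)) hxW (fun w hw => by
      rw [← X.B_π (hWa hw)]; exact hxW w hw)).1
  rw [add_sub_cancel_left] at this
  exact X.EG_le_of_rt_add G hH hda hd0 hd hu hua (by rwa [X.B_π hda] at hdu) hr this

/-- A singular component can be rescaled when the form parameter has three elements. -/
theorem EG_le_of_sing_comp (G : Good P D) (hH : dstab D ⊓ EG P ≤ M)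
    (h3 : ∃ l ∈ P.Λ, ∃ l' ∈ P.Λ, l ≠ 0 ∧ l' ≠ 0 ∧ l ≠ l') {u : V} (hu : P.q u ∈ P.Λ)
    (hr : Rt P M u) {a : κ} (hua : u ∉ D a) (h0 : X.π a u ≠ 0) (hx : P.q (X.π a u) ∈ P.Λ) :
    EG P ≤ M := by
  have hP := G.nd
  obtain ⟨l, hl, l', hl', hl0, hl0', hll⟩ : ∃ l ∈ P.Λ, ∃ l' ∈ P.Λ, l ≠ 0 ∧ l' ≠ 0 ∧
      1 + P.ε * l * l' ≠ 0 := by
    obtain ⟨l, hl, l', hl', hl0, hl0', hll⟩ := h3
    by_cases h : 1 + P.ε * l * l = 0
    · refine ⟨l, hl, l', hl', hl0, hl0', fun h' => hll ?_⟩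
      apply mul_left_cancel₀ (mul_ne_zero P.ε_ne_zero hl0)
      linear_combination h - h'
    · exact ⟨l, hl, l, hl, hl0, hl0, h⟩
  set x := X.π a u with hxd
  have hxa : x ∈ D a := X.mem a u
  obtain ⟨f, hfa, hf, hfx⟩ := exists_partner_in hP (X.nd hP a) hxa h0 hx
  have hεε := P.εε
  have hxf : P.B x f = P.ε := by rw [P.symm, hfx]; simp
  have hfu : P.B f u = 1 := by rw [← X.B_π hfa, hfx]
  have hxu : P.B x u = 0 := by rw [← X.B_π hxa]; exact P.self_eq_zero hx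
  have rf := (X.rt hfa hf).mono hH
  have rx := (X.rt hxa hx).mono hH
  have t1 := P.tr_mem l hl
  have t2 := P.tr_mem l' hl'
  have v1 : P.ε * (P.ε * l) ∈ P.Λ := by rwa [← mul_assoc, hεε, one_mul]
  have v2 : P.ε * (P.ε * l') ∈ P.Λ := by rwa [← mul_assoc, hεε, one_mul]
  have hσ : σ (1 + P.ε * l * l') = 1 + P.ε * l * l' := by
    simp only [map_add, map_one, map_mul, P.σε]
    linear_combination (σ l') * t1 - (P.ε * l) * t2 + (l * σ l') * hεε
  have v3 : P.ε * (-(P.ε * l) * (1 + P.ε * l * l')⁻¹) ∈ P.Λ := G.lmax _ (by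
    simp only [map_mul, map_neg, map_inv₀, hσ, P.σε]
    linear_combination (-(1 + P.ε * l * l')⁻¹ * P.ε * P.ε) * t1)
  have s1 := hr.qrefl hP rf (valid_of_sing hf v1)
  have s2 := s1.qrefl hP rx (valid_of_sing hx v2)
  have s3 := s2.qrefl hP rf (valid_of_sing hf v3)
  have e : u + (P.ε * l * l') • x = u + (P.ε * l * P.B f u) • f +
      (P.ε * l' * P.B x (u + (P.ε * l * P.B f u) • f)) • x +
      (-(P.ε * l) * (1 + P.ε * l * l')⁻¹ * P.B f (u + (P.ε * l * P.B f u) • f +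
        (P.ε * l' * P.B x (u + (P.ε * l * P.B f u) • f)) • x)) • f := by
    simp only [map_add, map_smul, hfu, hxu, hxf, hfx, P.self_eq_zero hf, smul_eq_mul]
    match_scalars
    · ring
    · linear_combination (-P.ε * l * l') * hεε
    · field_simp
      linear_combination (P.ε ^ 2 * l ^ 2 * l') * hεε
  rw [← e] at s3
  exact X.EG_le_of_rt_add G hH ((D a).smul_mem _ hxa)
    (smul_ne_zero (by simp [P.ε_ne_zero, hl0, hl0']) h0) (P.q_smul_mem hx _) hu hua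
    (by rw [B_smul_left, hxu, mul_zero]) hr s3

end ODec

end H98
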