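import Mathlib
import Cfsg.Agent.Base
import Cfsg.Agent.Lib.Imprim.Gain
import Cfsg.Agent.Lib.Forms.Bridge

/-!
Stabilisers of non-degenerate decompositions in symplectic groups.
-/

set_option autoImplicit false
set_option linter.unusedSectionVars false

namespace H98

open Module Cfsg H28 H97

section General

variable {F V : Type*} [Field F] [AddCommGroup V] [Module F V] [FiniteDimensional F V]
  {κ : Type*} [Fintype κ] [DecidableEq κ]

theorem sep_comap {σ : F →+* F} {P : PQ F V σ} {W : Submodule F V} (hW : W ⊓ perp P W = ⊥) :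
    (P.comap W.subtype).B.SeparatingLeft := fun x hx =>
  Subtype.ext ((Submodule.mem_bot F).1 (hW ▸ ⟨x.2, mem_perp'.2 fun y hy => hx ⟨y, hy⟩⟩))

theorem exists_map_eq_of_equiv {σ : F →+* F} {P : PQ F V σ} (hP : P.B.SeparatingLeft) (hm : LMax P)
    {W W' : Submodule F V} (φ : W ≃ₗ[F] W') (hφ : ∀ x y : W, P.B (φ x) (φ y) = P.B x y) :
    ∃ g ∈ P.Isom, W.map (g : V →ₗ[F] V) = W' := by
  obtain ⟨g, hg, e⟩ := P.witt hP W (W'.subtype ∘ₗ φ.toLinearMap) (W'.injective_subtype.comp φ.injective)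
    hφ fun x => hm.q_sub (hφ x x)
  refine ⟨g, hg, map_eq_of_maps (fun x hx => ?_) φ.finrank_eq.ge⟩
  rw [e ⟨x, hx⟩]; exact (φ ⟨x, hx⟩).2

theorem exists_mem_notMem {X U : Submodule F V} (h : finrank F U < finrank F X) : ∃ x ∈ X, x ∉ U := by
  by_contra hc
  push Not at hc
  exact absurd (Submodule.finrank_mono (show X ≤ U from hc)) (by omega)

variable {P : PQ F V (RingHom.id F)}

theorem even_of_top (hΛ : P.Λ = ⊤) (hP : P.B.SeparatingLeft) : ∃ m, finrank F V = 2 * m := by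
  obtain ⟨k, e, f, hef, hmax⟩ := P.exists_max_hyp
  have hR : P.perp (Submodule.span F (Set.range (Sum.elim e f))) = ⊥ := by
    rw [eq_bot_iff]
    intro x hx
    exact hef.nondeg.perp hP x hx (hmax x hx (by rw [hΛ]; trivial))
  have hk := P.finrank_perp_hyp hP hef
  rw [hR, finrank_bot] at hk
  exact ⟨k, by omega⟩

theorem lmax_of_top (hΛ : P.Λ = ⊤) : LMax P := fun _ _ => by rw [hΛ]; trivial

theorem EG_of_top (hΛ : P.Λ = ⊤) (hP : P.B.SeparatingLeft) : EG P = P.Isom :=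
  le_antisymm EG_le_isom (isom_le_of_qrefl hP EG_le_isom
    (fun _ _ h => has_qrefl_EG_of_sing (by rw [hΛ]; trivial) h) le_rfl)

theorem exists_map_eq_of_top (hΛ : P.Λ = ⊤) (hP : P.B.SeparatingLeft) {W W' : Submodule F V}
    (hW : W ⊓ perp P W = ⊥) (hW' : W' ⊓ perp P W' = ⊥) (hd : finrank F W = finrank F W') :
    ∃ g ∈ P.Isom, W.map (g : V →ₗ[F] V) = W' := by
  obtain ⟨m, hm⟩ := even_of_top (P := P.comap W.subtype) hΛ (sep_comap hW)
  obtain ⟨e, he⟩ := exists_isometry_sp (P.comap W.subtype) hΛ (sep_comap hW) hm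
  obtain ⟨e', he'⟩ := exists_isometry_sp (P.comap W'.subtype) hΛ (sep_comap hW') (hd ▸ hm)
  refine exists_map_eq_of_equiv hP (lmax_of_top hΛ) (e.trans e'.symm) fun x y => ?_
  have := he' (e'.symm (e x)) (e'.symm (e y))
  rw [e'.apply_symm_apply, e'.apply_symm_apply, he] at this
  exact this.symm

theorem good_of_top (hΛ : P.Λ = ⊤) (hP : P.B.SeparatingLeft) {D : κ → Submodule F V} (X : ODec P D)
    {k : ℕ} (hk : 0 < k) (hd : ∀ i, finrank F (D i) = k) : Good P D where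
  nd := hP
  lmax := lmax_of_top hΛ
  lam := ⟨1, by rw [hΛ]; trivial, one_ne_zero⟩
  iso a b := exists_map_eq_of_top hΛ hP (X.nd hP a) (X.nd hP b) (by rw [hd, hd])
  sing a := by
    obtain ⟨x, hx, hx0⟩ := exists_ne_zero_mem (X := D a) (by rw [hd]; exact hk)
    exact ⟨x, hx, hx0, by rw [hΛ]; trivial⟩
  fix _ := fix_of_eq (EG_of_top hΛ hP) _
  room a _ _ _ _ _ _ _ _ := ⟨a, ⊥, bot_le, fix_of_eq (EG_of_top hΛ hP) _,
    fun u hu => by simp [(Submodule.mem_bot F).1 hu], fun u hu => by simp [(Submodule.mem_bot F).1 hu]⟩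

theorem exists_ne_zero_one [Fintype F] (h : Fintype.card F ≠ 2) : ∃ a : F, a ≠ 0 ∧ a ≠ 1 := by
  classical
  by_contra hc
  push Not at hc
  have : (Finset.univ : Finset F) = {0, 1} := by
    ext a; by_cases h0 : a = 0 <;> simp [h0, hc a]
  exact h (by rw [← Finset.card_univ, this, Finset.card_pair zero_ne_one])

theorem isMaximalIn_sp_dec [Fintype F] (hΛ : P.Λ = ⊤) (hP : P.B.SeparatingLeft)
    {D : κ → Submodule F V} (X : ODec P D) {k : ℕ} (hk : 0 < k) (hd : ∀ i, finrank F (D i) = k)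
    (h2 : ∃ a b : κ, a ≠ b) (hex : ¬ (k = 2 ∧ Fintype.card F = 2)) :
    Geo.IsMaximalIn (EG P) (dstab D ⊓ EG P) := by
  have G := good_of_top hΛ hP X hk hd
  have hall : ∀ a : F, a ∈ P.Λ := fun a => by rw [hΛ]; trivial
  refine X.isMaximalIn G h2 fun M hH u hu ht hr => ?_
  obtain ⟨a, b, hab, ha, hb⟩ := id ht
  by_cases hq : Fintype.card F = 2
  · obtain ⟨m, hm⟩ := even_of_top (P := P.comap (D a).subtype) hΛ (sep_comap (X.nd hP a))
    rw [hd] at hm
    have h1 := finrank_inf_ker (D a) (P.B (X.π a u))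
    have h3 := finrank_span_singleton_le (F := F) (X.π a u)
    obtain ⟨d, ⟨hda, hdx⟩, hd'⟩ := exists_mem_notMem (X := D a ⊓ LinearMap.ker (P.B (X.π a u)))
      (U := F ∙ X.π a u) (by rw [hd] at h1; omega)
    exact X.EG_le_of_add G hH hu hr (ht.notMem a) ha hda (by rintro rfl; simp at hd') (hall _)
      (P.eq_zero_symm hdx) (fun h => hd' (by
        rw [eq_neg_of_add_eq_zero_right h]
        exact Submodule.neg_mem _ (Submodule.mem_span_singleton_self _))) bot_le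
      (fix_of_eq (EG_of_top hΛ hP) _) fun u hu => by simp [(Submodule.mem_bot F).1 hu]
  · obtain ⟨c, hc0, hc1⟩ := exists_ne_zero_one hq
    exact X.EG_le_of_sing_comp G hH ⟨c, hall _, 1, hall _, hc0, one_ne_zero, hc1⟩ hu hr
      (ht.notMem a) ha (hall _)

end General

section Matrix

variable {F : Type*} [Field F] {ι : Type} [Fintype ι] [DecidableEq ι]

theorem nonempty_odec {σ : F →+* F} {P : PQ F (ι → F) σ} {f : (ι → F) → (ι → F) → F}
    (hf : ∀ x y, f x y = 0 → P.B x y = 0) {t k : ℕ} {D : Fin t → Submodule F (ι → F)}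
    (hD : Geo.IsNondegenerateMDecomposition f k D) : Nonempty (ODec P D) := by
  obtain ⟨X⟩ := nonempty_dec hD.decomp.indep hD.decomp.iSup_eq_top
  exact ⟨⟨X, fun i j hij x hx y hy => hf _ _ (hD.orthogonal i j hij x hx y hy)⟩⟩

theorem exists_ne_fin {t : ℕ} (h : 2 ≤ t) : ∃ a b : Fin t, a ≠ b :=
  ⟨⟨0, by omega⟩, ⟨1, by omega⟩, by simp⟩

/-- `Sp_k(q) ≀ S_t` is maximal in `Sp_{kt}(q)` unless `k = q = 2`. -/
theorem sp_nondeg_decomp_maximal [Fintype F] (m : ℕ) {t : ℕ} (k : ℕ)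
    (D : Fin t → Submodule F (Fin m ⊕ Fin m → F))
    (hD : Geo.IsNondegenerateMDecomposition (sympForm m F) k D)
    (hex : ¬ (k = 2 ∧ Fintype.card F = 2)) :
    Geo.IsMaximalIn (spGL m F) (Geo.decompositionStabilizer D ⊓ spGL m F) := by
  rw [spGL_eq, decompositionStabilizer_eq, ← pull_inf]
  obtain ⟨X⟩ := nonempty_odec (P := spP m F) (fun _ _ h => h) hD
  exact isMaximalIn_pull (isMaximalIn_sp_dec rfl (spP_nd m) X hD.decomp.pos hD.decomp.finrank_eq
    (exists_ne_fin hD.decomp.two_le) hex)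

end Matrix

end H98
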