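import Mathlib
import Cfsg.Agent.Base
import Cfsg.Agent.Lib.Imprim.Sp

/-!
Stabilisers of non-degenerate decompositions into subspaces of dimension at least two in special
unitary groups.
-/

set_option autoImplicit false
set_option linter.unusedSectionVars false

namespace H98

open Module Cfsg H28 H97

section General

variable {F V : Type*} [Field F] [AddCommGroup V] [Module F V] [FiniteDimensional F V]
  {κ : Type*} [Fintype κ] [DecidableEq κ] {σ : F →+* F} {P : PQ F V σ}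

theorem Dec.finrank_eq {D : κ → Submodule F V} (X : Dec D) {k : ℕ} (hd : ∀ i, finrank F (D i) = k) :
    finrank F V = Fintype.card κ * k := by
  let f : V →ₗ[F] (∀ i, D i) := LinearMap.pi fun i => (X.π i).codRestrict (D i) (X.mem i)
  have h1 : Function.Bijective f := ⟨(injective_iff_map_eq_zero f).2 fun v hv => X.ext_zero fun i =>
    congrArg Subtype.val (congrFun hv i), fun w => ⟨∑ i, w i, funext fun i => Subtype.ext (by
      change X.π i _ = _
      rw [map_sum, Finset.sum_eq_single i (fun j _ hj => X.other i j hj.symm _ (w j).2) (by simp),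
        X.self i _ (w i).2])⟩⟩
  rw [(LinearEquiv.ofBijective f h1).finrank_eq, Module.finrank_pi_fintype]
  simp [hd]

variable (P) in
/-- Unitary data of dimension at least four. -/
structure Uni : Prop where
  eps : P.ε = 1
  lmax : LMax P
  ne : σ ≠ RingHom.id F
  nd : P.B.SeparatingLeft
  isoK : IsoK P 2
  four : 4 ≤ finrank F V
  eg : EG P = P.Isom ⊓ SLV F V

namespace Uni

variable (U : Uni P)
include U

theorem symm (x y : V) : σ (P.B x y) = P.B y x := by rw [P.symm x y, U.eps, one_mul]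

theorem mem_lam {a : F} : a ∈ P.Λ ↔ a + σ a = 0 := by rw [U.lmax.mem_iff, U.eps, one_mul]

theorem sing_iff {x : V} : P.q x ∈ P.Λ ↔ P.B x x = 0 := ⟨P.self_eq_zero, U.lmax.sing⟩

theorem valid_iff {c : F} {u : V} :
    σ c * c * P.q u + P.ε * c ∈ P.Λ ↔ σ c * c * P.B u u + c + σ c = 0 := by
  rw [U.lmax.valid_iff, U.eps, one_mul]

theorem exists_tr : ∃ c : F, c + σ c = 1 := exists_trace_one U.ne P.σσ

theorem exists_ne : ∃ a : F, σ a ≠ a := by
  by_contra h
  push Not at h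
  exact U.ne (RingHom.ext h)

theorem lam : ∃ l ∈ P.Λ, l ≠ 0 := by
  obtain ⟨a, ha⟩ := U.exists_ne
  exact ⟨a - σ a, U.mem_lam.2 (by rw [map_sub, P.σσ]; ring), sub_ne_zero.2 ha.symm⟩

theorem exists_nonsing {W : Submodule F V} {x y : V} (hx : x ∈ W) (hy : y ∈ W) (h : P.B x y ≠ 0) :
    ∃ z ∈ W, P.B z z ≠ 0 := exists_nonisotropic U.exists_tr P.B U.symm W hx hy h

theorem exists_nonsing_of_nd {W : Submodule F V} (hW : W ⊓ perp P W = ⊥) (h : 1 ≤ finrank F W) :
    ∃ z ∈ W, P.B z z ≠ 0 := by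
  obtain ⟨x, hx, hx0⟩ := exists_ne_zero_mem h
  obtain ⟨y, hy, hyx⟩ := exists_B_ne_zero hW hx hx0
  exact U.exists_nonsing hy hx hyx

theorem exists_nonsing_perp {W : Submodule F V} (hW : W ⊓ perp P W = ⊥) {x : V} (hx : x ∈ W)
    (h : 3 ≤ finrank F W ∨ (2 ≤ finrank F W ∧ P.B x x ≠ 0)) :
    ∃ z ∈ W, P.B x z = 0 ∧ P.B z z ≠ 0 := by
  suffices h1 : ∃ y ∈ W ⊓ LinearMap.ker (P.B x), ∃ y' ∈ W ⊓ LinearMap.ker (P.B x), P.B y y' ≠ 0 by
    obtain ⟨y, hy, y', hy', h1⟩ := h1
    obtain ⟨z, hz, hz'⟩ := U.exists_nonsing hy hy' h1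
    exact ⟨z, hz.1, hz.2, hz'⟩
  rcases h with h | ⟨h, hx0⟩
  · by_contra hc
    push Not at hc
    have h1 := two_mul_finrank_le_of_ts (P := P.comap W.subtype) (sep_comap hW)
      (W := LinearMap.ker (P.B x ∘ₗ W.subtype)) fun w hw w' hw' => hc w ⟨w.2, hw⟩ w' ⟨w'.2, hw'⟩
    have h2 := finrank_inf_ker (⊤ : Submodule F W) (P.B x ∘ₗ W.subtype)
    rw [top_inf_eq, finrank_top] at h2
    omega
  · have h2 := finrank_inf_ker W (P.B x)
    obtain ⟨y, hy, hy0⟩ := exists_ne_zero_mem (X := W ⊓ LinearMap.ker (P.B x)) (by omega)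
    obtain ⟨w, hw, hwy⟩ := exists_B_ne_zero hW hy.1 hy0
    have hxy : P.B x y = 0 := hy.2
    refine ⟨w - (P.B x w * (P.B x x)⁻¹) • x, ⟨W.sub_mem hw (W.smul_mem _ hx), ?_⟩, y, hy, ?_⟩
    · change P.B x _ = 0
      simp [hx0]
    · simpa [B_smul_left, hxy] using hwy

variable [Finite F]

theorem exists_norm {x : V} (hx : P.B x x ≠ 0) {t : F} (ht : σ t = t) :
    ∃ a : F, P.B (a • x) (a • x) = t := exists_herm_norm U.ne P.σσ U.symm hx ht

theorem fix {z : V} (hz : P.B z z ≠ 0) : Fix P (F ∙ z) := by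
  intro g hg
  obtain ⟨s, hs, hsI, hgs⟩ := U.isoK.isom_le_EGmul U.nd U.four
    (fixer F {x | P.B z x = 0}) (fun a e he hae => by
      by_cases h1 : P.B e e = 0
      · exact Or.inl (has_qrefl_EG_of_sing (U.sing_iff.2 h1) hae)
      right
      obtain ⟨t, ht⟩ := U.exists_norm hz (U.symm e e)
      have hq : P.q (t • z) - P.q e ∈ P.Λ := U.lmax.q_sub ht
      refine ⟨t • z, fun h0 => h1 (by rw [← ht, h0]; simp), hq, ?_⟩
      obtain ⟨s, -, es⟩ := has_qrefl_isom U.nd (qrefl_valid_congr hae hq)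
      refine ⟨s, fun u hu => ?_, es⟩
      have hu' : P.B z u = 0 := hu
      rw [es, PQ.qrefl_apply, B_smul_left, hu']
      simp) hg
  exact ⟨s⁻¹, P.Isom.inv_mem hsI, fun x hx =>
    (fixer F {x | P.B z x = 0}).inv_mem hs x (mem_perp_singleton.1 hx), hgs⟩

theorem exists_map_eq {W W' : Submodule F V} (hW : W ⊓ perp P W = ⊥) (hW' : W' ⊓ perp P W' = ⊥)
    (hd : finrank F W = finrank F W') : ∃ g ∈ P.Isom, W.map (g : V →ₗ[F] V) = W' := by
  obtain ⟨b, hb⟩ := exists_orthonormal_basis_herm U.ne P.σσ (P.comap W.subtype).B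
    (fun x y => U.symm _ _) (sep_comap hW)
  obtain ⟨b', hb'⟩ := exists_orthonormal_basis_herm U.ne P.σσ (P.comap W'.subtype).B
    (fun x y => U.symm _ _) (sep_comap hW')
  have h : ∀ i j, (P.comap W'.subtype).B (b'.reindex (finCongr hd.symm) i)
      (b'.reindex (finCongr hd.symm) j) = (P.comap W.subtype).B (b i) (b j) := fun i j => by
    rw [Basis.reindex_apply, Basis.reindex_apply, hb, hb']
    simp
  obtain ⟨e, -, he, -⟩ := (P.comap W.subtype).exists_isometry_of_basis (P.comap W'.subtype) rfl b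
    (b'.reindex (finCongr hd.symm)) h fun i => U.lmax.q_sub (h i i)
  exact exists_map_eq_of_equiv U.nd U.lmax e he

theorem good {D : κ → Submodule F V} (X : ODec P D) {k : ℕ} (hk : 2 ≤ k)
    (hd : ∀ i, finrank F (D i) = k) (h3 : 3 ≤ k ∨ 3 ≤ Fintype.card κ) : Good P D := by
  have hfix : ∀ a, Fix P (D a) := fun a => by
    obtain ⟨z, hz, hz'⟩ := U.exists_nonsing_of_nd (X.nd U.nd a) (by rw [hd]; omega)
    exact (U.fix hz').mono ((Submodule.span_singleton_le_iff_mem _ _).2 hz)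
  refine ⟨U.nd, U.lmax, U.lam, fun a b => U.exists_map_eq (X.nd U.nd a) (X.nd U.nd b) (by rw [hd, hd]),
    fun a => U.isoK _ (by rw [hd]; exact hk), hfix, fun a b d hda e heb _ _ hab => ?_⟩
  rcases h3 with h3 | h3
  · obtain ⟨z, hz, hez, hz'⟩ := U.exists_nonsing_perp (X.nd U.nd b) heb (Or.inl (by rw [hd]; exact h3))
    refine ⟨b, F ∙ z, (Submodule.span_singleton_le_iff_mem _ _).2 hz, U.fix hz',
      mem_perp_singleton.2 ?_, mem_perp_singleton.2 (P.eq_zero_symm hez)⟩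
    rcases hab with hab | rfl
    · exact X.orth b a hab.symm z hz d hda
    · exact P.eq_zero_symm hez
  · obtain ⟨l, hl⟩ : ∃ l, l ∉ ({a, b} : Finset κ) := by
      by_contra hc
      push Not at hc
      have := Finset.card_le_card (show Finset.univ ⊆ ({a, b} : Finset κ) from fun l _ => hc l)
      have := Finset.card_le_two (a := a) (b := b)
      rw [Finset.card_univ] at *
      omega
    simp only [Finset.mem_insert, Finset.mem_singleton, not_or] at hl
    exact ⟨l, D l, le_rfl, hfix l, X.le_perp hl.1 hda, X.le_perp hl.2 heb⟩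

theorem exists_same_norm {W : Submodule F V} {x y : V} (hx : x ∈ W) (hy : y ∈ W) (hx0 : P.B x x ≠ 0)
    (hy0 : P.B y y ≠ 0) (hxy : P.B x y = 0) (β : F) :
    ∃ x' ∈ W, P.B x' x' = P.B x x ∧ P.B x x' = β := by
  have hn := U.symm x x
  obtain ⟨t, ht⟩ := U.exists_norm hy0 (t := P.B x x - σ β * β * (P.B x x)⁻¹) (by
    simp only [map_sub, map_mul, map_inv₀, hn, P.σσ]; ring)
  refine ⟨(β * (P.B x x)⁻¹) • x + t • y, W.add_mem (W.smul_mem _ hx) (W.smul_mem _ hy), ?_, ?_⟩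
  · rw [map_add, map_add, LinearMap.add_apply, LinearMap.add_apply, ht]
    simp only [map_smul, B_smul_left, smul_eq_mul, hxy, P.eq_zero_symm hxy, map_mul, map_inv₀, hn]
    field_simp; ring
  · simp [hxy, hx0]

theorem isMaximalIn_dec {D : κ → Submodule F V} (X : ODec P D) {k : ℕ}
    (hd : ∀ i, finrank F (D i) = k) (h2 : ∃ a b : κ, a ≠ b)
    (h3 : 3 ≤ k ∨ (k = 2 ∧ 3 ≤ Fintype.card κ ∧ ∃ l ∈ P.Λ, ∃ l' ∈ P.Λ, l ≠ 0 ∧ l' ≠ 0 ∧ l ≠ l')) :
    Geo.IsMaximalIn (EG P) (dstab D ⊓ EG P) := by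
  have G := U.good X (k := k) (by omega) hd (h3.imp_right fun h => h.2.1)
  have hP := U.nd
  refine X.isMaximalIn G h2 fun M hH u hu ht hr => ?_
  obtain ⟨a, b, hab, ha, hb⟩ := id ht
  rcases h3 with h3 | ⟨hk, -, h3⟩
  · obtain ⟨z, hz, hxz, hz'⟩ := U.exists_nonsing_perp (X.nd hP a) (X.mem a u)
      (Or.inl (by rw [hd]; exact h3))
    have key : ∃ d ∈ D a, d ≠ 0 ∧ P.q d ∈ P.Λ ∧ P.B d (X.π a u) = 0 ∧ X.π a u + d ≠ 0 := by
      by_cases hx : P.B (X.π a u) (X.π a u) = 0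
      · obtain ⟨c, hc⟩ := U.exists_ne
        refine ⟨(c - 1) • X.π a u, (D a).smul_mem _ (X.mem a u), smul_ne_zero ?_ ha,
          P.q_smul_mem (U.sing_iff.2 hx) _, by rw [B_smul_left, hx, mul_zero], ?_⟩
        · rw [sub_ne_zero]; rintro rfl; simp at hc
        · rw [sub_smul, one_smul, add_sub_cancel]
          refine smul_ne_zero ?_ ha
          rintro rfl; simp at hc
      · have h1 := finrank_inf_ker (D a) (P.B (X.π a u))
        obtain ⟨d, ⟨hda, hdx⟩, hd0, hd'⟩ := U.isoK (D a ⊓ LinearMap.ker (P.B (X.π a u)))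
          (by rw [hd] at h1; omega)
        have hdx' : P.B (X.π a u) d = 0 := hdx
        refine ⟨d, hda, hd0, hd', P.eq_zero_symm hdx', fun h => hx ?_⟩
        simpa [hdx'] using congrArg (P.B (X.π a u)) h
    obtain ⟨d, hda, hd0, hd', hdx, hne⟩ := key
    exact X.EG_le_of_add G hH hu hr (ht.notMem a) ha hda hd0 hd' hdx hne
      ((Submodule.span_singleton_le_iff_mem _ _).2 hz) (U.fix hz')
      (mem_perp_singleton.2 (P.eq_zero_symm hxz))
  by_cases hxa : P.B (X.π a u) (X.π a u) = 0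
  · exact X.EG_le_of_sing_comp G hH h3 hu hr (ht.notMem a) ha (U.sing_iff.2 hxa)
  by_cases hxb : P.B (X.π b u) (X.π b u) = 0
  · exact X.EG_le_of_sing_comp G hH h3 hu hr (ht.notMem b) hb (U.sing_iff.2 hxb)
  obtain ⟨l, hl, l', hl', hl0, hl0', hll⟩ := id h3
  have t1 := U.mem_lam.1 hl
  have t2 := U.mem_lam.1 hl'
  obtain ⟨c, hc⟩ := exists_norm_eq U.ne P.σσ (t := l' * l⁻¹) (by
    rw [map_mul, map_inv₀, eq_neg_of_add_eq_zero_right t1, eq_neg_of_add_eq_zero_right t2]
    field_simp)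
  have hc0 : c ≠ 0 := by rintro rfl; simp [hl0, hl0'] at hc
  have hc1 : σ c * c ≠ 1 := by
    rw [hc]; intro h; field_simp at h; exact hll h.symm
  obtain ⟨τ, hτ⟩ := U.exists_tr
  set xa := X.π a u with hxa'
  set xb := X.π b u with hxb'
  have na := U.symm xa xa
  have nb := U.symm xb xb
  obtain ⟨ya, hya, hxya, hya0⟩ := U.exists_nonsing_perp (X.nd hP a) (X.mem a u)
    (Or.inr ⟨by rw [hd]; omega, hxa⟩)
  obtain ⟨yb, hyb, hxyb, hyb0⟩ := U.exists_nonsing_perp (X.nd hP b) (X.mem b u)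
    (Or.inr ⟨by rw [hd]; omega, hxb⟩)
  obtain ⟨x', hx', n1, b1⟩ := U.exists_same_norm (X.mem a u) hya hxa hya0 hxya
    (-(τ * P.B xa xa * (1 + σ c * c) * c⁻¹))
  obtain ⟨x'', hx'', n2, b2⟩ := U.exists_same_norm (X.mem b u) hyb hxb hyb0 hxyb
    (σ (c * l⁻¹) + P.B xa xa + P.B xb xb - P.B xa x')
  rw [← hxa'] at n1 b1 hxya
  rw [← hxb'] at n2 b2 hxyb
  obtain ⟨r1, q1⟩ := X.rt_move hP hH ((Submodule.span_singleton_le_iff_mem _ _).2 hya) (U.fix hya0) hr hx'
    ha (by rintro rfl; simp at n1; exact hxa n1.symm) (U.lmax.q_sub n1)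
    (mem_perp_singleton.2 (P.eq_zero_symm hxya))
    (mem_perp_singleton.2 (by rw [← X.B_π hya]; exact P.eq_zero_symm hxya))
  rw [← hxa'] at r1 q1
  have e1 : X.π b (u + (x' - xa)) = xb := by
    rw [map_add, X.other b a hab.symm _ ((D a).sub_mem hx' (X.mem a u)), add_zero]
  obtain ⟨r2, q2⟩ := X.rt_move hP hH ((Submodule.span_singleton_le_iff_mem _ _).2 hyb) (U.fix hyb0) r1 hx''
    (e1 ▸ hb) (by rintro rfl; simp at n2; exact hxb n2.symm) (by rw [e1]; exact U.lmax.q_sub n2)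
    (by rw [e1]; exact mem_perp_singleton.2 (P.eq_zero_symm hxyb))
    (mem_perp_singleton.2 (by rw [← X.B_π hyb, e1]; exact P.eq_zero_symm hxyb))
  rw [e1] at r2 q2
  set u' := u + (x' - xa) + (x'' - xb) with hu'
  have hq' : P.q u' ∈ P.Λ := by simpa using P.Λ.add_mem (P.Λ.add_mem q2 q1) hu
  have hv := valid_of_sing hq' (c := l) (by rw [U.eps, one_mul]; exact hl)
  have r3 := hr.qrefl hP r2 hv
  have q3 := qrefl_q_sub (u := u) hv
  have e2 : l * P.B u' u = c := by
    have i1 : P.B x' u = σ (P.B xa x') := by rw [← X.B_π hx', U.symm]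
    have i2 : P.B x'' u = σ (P.B xb x'') := by rw [← X.B_π hx'', U.symm]
    have i3 : P.B xa u = P.B xa xa := by rw [← X.B_π (X.mem a u)]
    have i4 : P.B xb u = P.B xb xb := by rw [← X.B_π (X.mem b u)]
    simp only [hu', map_add, map_sub, LinearMap.add_apply, LinearMap.sub_apply, i1, i2, i3, i4,
      P.self_eq_zero hu, b2, na, nb, P.σσ]
    field_simp; ring
  rw [e2] at r3 q3
  have e3 : X.π a (u + c • u') = xa + c • x' := by
    simp only [hu', map_add, map_sub, map_smul, X.self a x' hx', X.other a b hab _ hx'', ← hxa',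
      X.self a xa (X.mem a u), X.other a b hab xb (X.mem b u)]
    module
  have e4 : X.π b (u + c • u') = xb + c • x'' := by
    simp only [hu', map_add, map_sub, map_smul, X.self b x'' hx'', X.other b a hab.symm _ hx', ← hxb',
      X.self b xb (X.mem b u), X.other b a hab.symm xa (X.mem a u)]
    module
  have hne : ∀ x y : V, P.B x x ≠ 0 → P.B y y = P.B x x → x + c • y ≠ 0 := fun x y h1 h2 h => by
    have h4 : x = (-c) • y := by rw [neg_smul]; exact eq_neg_of_add_eq_zero_left h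
    have h5 : P.B x x = σ c * c * P.B y y := by
      conv_lhs => rw [h4]
      simp [B_smul_left]; ring
    rw [h2] at h5
    exact hc1 (mul_right_cancel₀ h1 (by rw [← h5, one_mul]))
  refine X.EG_le_of_sing_comp G hH h3 (by simpa using P.Λ.add_mem q3 hu) r3
    (X.notMem_of hab.symm (by rw [e4]; exact hne _ _ hxb n2)) (by rw [e3]; exact hne _ _ hxa n1)
    (U.sing_iff.2 ?_)
  have i5 : P.B x' xa = σ (P.B xa x') := (U.symm _ _).symm
  have hσc : σ c ≠ 0 := by simpa using hc0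
  rw [e3]
  simp only [map_add, map_smul, LinearMap.add_apply, B_smul_left, smul_eq_mul, i5, n1, b1, map_neg,
    map_mul, map_inv₀, map_one, na, P.σσ]
  field_simp
  linear_combination (-(1 + σ c * c) * P.B xa xa) * hτ

end Uni

end General

section Matrix

variable {F : Type*} [Field F] [Fintype F] {n q : ℕ} [H11.U.IsSq F q]

theorem uni_uP (hn : 4 ≤ n) : Uni (uP n F q) where
  eps := rfl
  lmax a h := mem_traceZero.2 (by
    change a + 1 * _ = 0 at h
    rwa [one_mul] at h)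
  ne := H11.U.cj_ne_id
  nd := uP_nd
  isoK := uP_isoK
  four := by simpa using hn
  eg := uP_EG hn

theorem uP_three (hq : q ≠ 2) :
    ∃ l ∈ (uP n F q).Λ, ∃ l' ∈ (uP n F q).Λ, l ≠ 0 ∧ l' ≠ 0 ∧ l ≠ l' := by
  obtain ⟨l, hl, hl0⟩ := uP_lambda (F := F) (n := n) (q := q)
  by_contra hc
  push Not at hc
  have h1 := card_traceZero_sq (H11.U.cj_ne_id (F := F) (q := q)) H11.U.cj_cj
  have h2 : Nat.card (traceZero (H11.U.cj q : F →+* F)) = 2 := by
    rw [Nat.card_eq_two_iff]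
    refine ⟨0, ⟨l, hl⟩, fun h => hl0 (congrArg Subtype.val h).symm, ?_⟩
    ext ⟨x, hx⟩
    by_cases h0 : x = 0
    · simp [h0]
    · simp [hc x hx l hl h0 hl0]
  rw [h2, Nat.card_eq_fintype_card, H11.U.IsSq.card_eq (q := q)] at h1
  exact hq ((Nat.pow_left_injective two_ne_zero) h1).symm

/-- `GU_k(q) ≀ S_t`, `k ≥ 2`, in `SU_{kt}(q)`. -/
theorem su_nondeg_decomp_maximal_of_two (hn : 5 ≤ n) {t : ℕ} (k : ℕ) (hk : 2 ≤ k)
    (D : Fin t → Submodule F (Fin n → F))
    (hD : Geo.IsNondegenerateMDecomposition (hermForm n F q) k D) (hex : ¬ (k = 2 ∧ q = 2)) :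
    Geo.IsMaximalIn (GU n F q ⊓ Geo.specialLinear (Fin n) F)
      (Geo.decompositionStabilizer D ⊓ (GU n F q ⊓ Geo.specialLinear (Fin n) F)) := by
  rw [SU_eq (by omega), decompositionStabilizer_eq, ← pull_inf]
  obtain ⟨X⟩ := nonempty_odec (P := uP n F q) (fun _ _ h => H11.U.form_eq_zero_comm.1 h) hD
  refine isMaximalIn_pull ((uni_uP (by omega)).isMaximalIn_dec X hD.decomp.finrank_eq
    (exists_ne_fin hD.decomp.two_le) ?_)
  by_cases h3 : 3 ≤ k
  · exact Or.inl h3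
  refine Or.inr ⟨by omega, ?_, uP_three fun h => hex ⟨by omega, h⟩⟩
  have := X.toDec.finrank_eq hD.decomp.finrank_eq
  simp only [finrank_fintype_fun_eq_card, Fintype.card_fin] at this ⊢
  obtain rfl : k = 2 := by omega
  omega

end Matrix

end H98
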