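import Mathlib
import Cfsg.Agent.Base
import Cfsg.Agent.Lib.Imprim.SU

/-!
Stabilisers of decompositions into subspaces of dimension at least two in special linear groups.
-/

set_option autoImplicit false
set_option linter.unusedSectionVars false

namespace H98

open Module Cfsg H28 H97

section General

variable {F V : Type*} [Field F] [AddCommGroup V] [Module F V] [FiniteDimensional F V]
  {κ : Type*} [Fintype κ] [DecidableEq κ] {D : κ → Submodule F V} {M : Subgroup (V ≃ₗ[F] V)}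

/-- A functional vanishing on all members but one. -/
def On (D : κ → Submodule F V) (b : κ) (η : Dual F V) : Prop := ∀ c, c ≠ b → ∀ x ∈ D c, η x = 0

theorem On.smul {b : κ} {η : Dual F V} (h : On D b η) (t : F) : On D b (t • η) :=
  fun c hc x hx => by simp [h c hc x hx]

theorem On.sub {b : κ} {η η' : Dual F V} (h : On D b η) (h' : On D b η') : On D b (η - η') :=
  fun c hc x hx => by simp [h c hc x hx, h' c hc x hx]

theorem notMem_span_symm {x y : V} (hx : x ≠ 0) (h : y ∉ F ∙ x) : x ∉ F ∙ y := fun h' => by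
  obtain ⟨s, rfl⟩ := Submodule.mem_span_singleton.1 h'
  have hs : s ≠ 0 := by rintro rfl; simp at hx
  exact h (Submodule.mem_span_singleton.2 ⟨s⁻¹, by rw [smul_smul, inv_mul_cancel₀ hs, one_smul]⟩)

theorem maps_of_T {a : κ} {y : V} (hy : y ∈ D a) {η : Dual F V} (hη : On D a η) {g : V ≃ₗ[F] V}
    (e : ∀ x, g x = x + η x • y) (i : κ) : ∀ x ∈ D i, g x ∈ D i := fun x hx => by
  rw [e]
  by_cases hi : i = a
  · exact (D i).add_mem hx ((D i).smul_mem _ (hi ▸ hy))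
  · simpa [hη i hi x hx] using hx

theorem hasT_block {a : κ} {y : V} (hy : y ∈ D a) {η : Dual F V} (hη : On D a η) (h : η y = 0) :
    HasT (dstab D ⊓ SLV F V) y η := by
  obtain ⟨g, hg, e⟩ := (hasT_SLV h).elim
  exact ⟨g, ⟨mem_dstab_of_local (maps_of_T hy hη e), hg⟩, e⟩

theorem exists_notMem_span {W : Submodule F V} (h : 2 ≤ finrank F W) (x : V) : ∃ y ∈ W, y ∉ F ∙ x :=
  exists_mem_notMem (by have := finrank_span_singleton_le (F := F) x; omega)

namespace Dec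

variable (X : Dec D)

theorem on_comp (a : κ) (φ : Dual F V) : On D a (φ ∘ₗ X.π a) := fun c hc x hx => by
  simp [X.other a c hc.symm x hx]

theorem on_apply {a : κ} {η : Dual F V} (h : On D a η) (v : V) : η (X.π a v) = η v := by
  conv_rhs => rw [← X.sum v]
  rw [map_sum, Finset.sum_eq_single a (fun j _ hj => h j hj _ (X.mem j v)) (by simp)]

include X in
theorem exists_on {a : κ} {y u : V} (hy : y ∈ D a) (hu : u ∈ D a) (h : u ∉ F ∙ y) (c : F) :
    ∃ η, On D a η ∧ η y = 0 ∧ η u = c := by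
  obtain ⟨φ, h1, h2⟩ := exists_dual_of_notMem_span h c
  exact ⟨φ ∘ₗ X.π a, X.on_comp a φ, by simp [X.self a y hy, h1], by simp [X.self a u hu, h2]⟩

include X in
theorem seed (hH : dstab D ⊓ SLV F V ≤ M) {a b : κ} (hab : a ≠ b) (h2 : 2 ≤ finrank F (D a)) {x z : V}
    (hx : x ∈ D a) (hx0 : x ≠ 0) {χ : Dual F V} (hχ : On D b χ) (hz : z ∈ D b) (hz0 : χ z ≠ 0)
    (h : HasT M x χ) : ∀ x' ∈ D a, ∀ χ', On D b χ' → HasT M x' χ' := by
  have s1 : ∀ y ∈ D a, y ∉ F ∙ x → HasT M y χ := fun y hy hy' => by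
    obtain ⟨η, h1, h3, h4⟩ := X.exists_on hy hx (notMem_span_symm hx0 hy') 1
    simpa [h4] using ((hasT_block hy h1 h3).mono hH).comm h h3 (hχ a hab x hx) (hχ a hab y hy)
  have s2 : ∀ y ∈ D a, HasT M y χ := fun y hy => by
    by_cases hy' : y ∈ F ∙ x
    swap
    · exact s1 y hy hy'
    obtain ⟨y', h1, h3⟩ := exists_notMem_span h2 x
    simpa using (s1 y' h1 h3).add_left (s1 (y - y') ((D a).sub_mem hy h1)
      fun h => h3 (by simpa using Submodule.sub_mem _ hy' h)) (hχ a hab _ ((D a).sub_mem hy h1))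
  intro y hy χ' hχ'
  have h1 : On D b ((χ z)⁻¹ • (χ' - (χ' z * (χ z)⁻¹) • χ)) := (hχ'.sub (hχ.smul _)).smul _
  have h3 : ((χ z)⁻¹ • (χ' - (χ' z * (χ z)⁻¹) • χ)) z = 0 := by simp [hz0]
  have h4 := (s2 y hy).comm ((hasT_block hz h1 h3).mono hH) (hχ a hab y hy) h3 (h1 a hab y hy)
  rw [smul_smul, mul_inv_cancel₀ hz0, one_smul] at h4
  simpa using h4.add_right ((hasT_smul_iff (χ' z * (χ z)⁻¹) y χ).1 (s2 _ ((D a).smul_mem _ hy)))
    (by simp [hχ a hab y hy, hχ' a hab y hy])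

include X in
theorem exists_swap (h0 : ∀ i, D i ≠ ⊥) (hd : ∀ i j, finrank F (D i) = finrank F (D j)) (a b : κ) :
    ∃ h ∈ SLV F V, ∀ i, (D i).map (h : V →ₗ[F] V) = D (Equiv.swap a b i) := by
  by_cases hab : a = b
  · exact ⟨1, (SLV F V).one_mem, fun i => by rw [hab, Equiv.swap_self]; exact map_one_le _⟩
  let θ : D a ≃ₗ[F] D b := LinearEquiv.ofFinrankEq _ _ (hd a b)
  let f : V →ₗ[F] V := (D b).subtype ∘ₗ θ.toLinearMap ∘ₗ (X.π a).codRestrict (D a) (X.mem a) +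
    (D a).subtype ∘ₗ θ.symm.toLinearMap ∘ₗ (X.π b).codRestrict (D b) (X.mem b) +
    (LinearMap.id - X.π a - X.π b)
  have hf : ∀ x, f x = θ ⟨X.π a x, X.mem a x⟩ + θ.symm ⟨X.π b x, X.mem b x⟩ +
    (x - X.π a x - X.π b x) := fun x => rfl
  have z1 : ∀ {i : κ} {x : V} (h : x = 0) (hx : x ∈ D i), (⟨x, hx⟩ : D i) = 0 :=
    fun h _ => Subtype.ext h
  have f1 : ∀ x : D a, f x = θ x := fun x => by
    rw [hf, z1 (X.other b a (Ne.symm hab) _ x.2), X.other b a (Ne.symm hab) _ x.2]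
    simp [X.self a _ x.2]
  have f2 : ∀ x : D b, f x = θ.symm x := fun x => by
    rw [hf, z1 (X.other a b hab _ x.2), X.other a b hab _ x.2]
    simp [X.self b _ x.2]
  have f3 : ∀ c, c ≠ a → c ≠ b → ∀ x ∈ D c, f x = x := fun c h1 h2 x hx => by
    rw [hf, z1 (X.other a c h1.symm _ hx), z1 (X.other b c h2.symm _ hx), X.other a c h1.symm _ hx,
      X.other b c h2.symm _ hx]
    simp
  have hff : Function.Involutive f := fun v => by
    rw [← X.sum v, map_sum, map_sum]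
    refine Finset.sum_congr rfl fun i _ => ?_
    by_cases h1 : i = a
    · subst h1
      rw [f1 ⟨_, X.mem i v⟩, f2]; simp
    by_cases h2 : i = b
    · subst h2
      rw [f2 ⟨_, X.mem i v⟩, f1]; simp
    rw [f3 i h1 h2 _ (X.mem i v), f3 i h1 h2 _ (X.mem i v)]
  obtain ⟨x, hx, hx0⟩ := (Submodule.ne_bot_iff _).1 (h0 a)
  obtain ⟨η, h1, -, h2⟩ := X.exists_on (D a).zero_mem hx (by simpa using hx0) 1
  obtain ⟨c, r, -, hr, hs⟩ := exists_fix_det h2 (LinearEquiv.ofInvolutive f hff)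
  have hr' := maps_of_T hx (h1.smul c) hr
  refine ⟨_, hs, fun i => map_eq_of_maps (fun y hy => ?_) (hd _ _).le⟩
  change f (r y) ∈ _
  by_cases h1 : i = a
  · subst h1
    rw [Equiv.swap_apply_left, f1 ⟨_, hr' i y hy⟩]; exact (θ _).2
  by_cases h2 : i = b
  · subst h2
    rw [Equiv.swap_apply_right, f2 ⟨_, hr' i y hy⟩]; exact (θ.symm _).2
  rw [Equiv.swap_apply_of_ne_of_ne h1 h2, f3 i h1 h2 _ (hr' i y hy)]
  exact hr' i y hy

include X in
theorem SLV_le_of_pair (h0 : ∀ i, D i ≠ ⊥) (hd : ∀ i j, finrank F (D i) = finrank F (D j))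
    (hH : dstab D ⊓ SLV F V ≤ M) {a b : κ} (hab : a ≠ b)
    (h : ∀ x ∈ D a, ∀ χ, On D b χ → HasT M x χ) : SLV F V ≤ M := by
  have s1 : ∀ a b c d : κ, (∀ x ∈ D a, ∀ χ, On D b χ → HasT M x χ) →
      ∀ x ∈ D (Equiv.swap c d a), ∀ χ, On D (Equiv.swap c d b) χ → HasT M x χ := by
    intro a b c d h x hx χ hχ
    obtain ⟨s, hs, e⟩ := X.exists_swap h0 hd c d
    rw [← e] at hx
    obtain ⟨x, hx, rfl⟩ := hx
    exact (h x hx (χ ∘ₗ (s : V →ₗ[F] V)) fun i hi y hy => hχ (Equiv.swap c d i)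
      (fun h => hi ((Equiv.swap c d).injective h)) _ (e i ▸ ⟨y, hy, rfl⟩)).conj'
      (hH ⟨⟨_, e⟩, hs⟩) fun _ => rfl
  have s2 : ∀ a' b', a' ≠ b' → ∀ x ∈ D a', ∀ χ, On D b' χ → HasT M x χ := fun a' b' h' => by
    have := s1 _ _ (Equiv.swap a a' b) b' (s1 a b a a' h)
    rwa [Equiv.swap_apply_left, Equiv.swap_apply_left, Equiv.swap_apply_of_ne_of_ne _ h'] at this
    intro h1
    exact hab ((Equiv.swap a a').injective (by rw [← h1, Equiv.swap_apply_left]))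
  refine SLV_le_of_cen (eq_top_iff.2 fun v _ => ?_)
  rw [← X.sum v]
  refine (cen M).sum_mem fun i _ φ hφ => ?_
  have h1 : ∀ j, HasT M (X.π i v) (φ ∘ₗ X.π j) ∧ (φ ∘ₗ X.π j) (X.π i v) = 0 := fun j => by
    by_cases hij : i = j
    · subst hij
      have : (φ ∘ₗ X.π i) (X.π i v) = 0 := by simpa [X.π_π] using hφ
      exact ⟨(hasT_block (X.mem i v) (X.on_comp i φ) this).mono hH, this⟩
    · exact ⟨s2 i j hij _ (X.mem i v) _ (X.on_comp j φ), X.on_comp j φ i hij _ (X.mem i v)⟩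
  have h2 : ∀ J : Finset κ, HasT M (X.π i v) (∑ j ∈ J, φ ∘ₗ X.π j) := fun J => by
    induction J using Finset.induction_on with
    | empty => simpa using hasT_zero_right _
    | insert j J hj ih => rw [Finset.sum_insert hj]; exact (h1 j).1.add_right ih (h1 j).2
  convert h2 Finset.univ using 1
  ext x
  simp only [LinearMap.sum_apply, LinearMap.comp_apply]
  rw [← map_sum, X.sum]

theorem SLV_le_of_hasT (h2 : ∀ i, 2 ≤ finrank F (D i))
    (hd : ∀ i j, finrank F (D i) = finrank F (D j)) (hH : dstab D ⊓ SLV F V ≤ M) {a b : κ}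
    (hab : a ≠ b) {v w y : V} {ψ : Dual F V} (h : HasT M v ψ) (hv : ψ v = 0) (ha : X.π a v ≠ 0)
    (hw : w ∈ D b) (hw0 : ψ w ≠ 0) (hy : y ∈ D a) (hy0 : ψ y = 0) (hy' : y ∉ F ∙ X.π a v) :
    SLV F V ≤ M := by
  obtain ⟨η, h1, h3, h4⟩ := X.exists_on hy (X.mem a v) (notMem_span_symm ha hy') 1
  rw [X.on_apply h1] at h4
  have h5 := ((hasT_block hy h1 h3).mono hH).comm h h3 hv hy0
  rw [h4, one_smul] at h5
  obtain ⟨z, hz, hz'⟩ := exists_notMem_span (h2 b) w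
  obtain ⟨η', h6, h7, h8⟩ := X.exists_on hw hz hz' 1
  exact X.SLV_le_of_pair (fun i h => by have := h2 i; rw [h, finrank_bot] at this; omega) hd hH hab
    (X.seed hH hab (h2 a) hy (by rintro rfl; simp at hy') (h6.smul _) hz (by simp [h8, hw0])
      (h5.comm ((hasT_block hw h6 h7).mono hH) hy0 h7 (h6 a hab y hy)))

include X in
theorem not_SLV_le (h0 : ∀ i, D i ≠ ⊥) (h2 : ∃ a b : κ, a ≠ b) : ¬ SLV F V ≤ dstab D := by
  obtain ⟨a, b, hab⟩ := h2
  obtain ⟨x, hx, hx0⟩ := (Submodule.ne_bot_iff _).1 (h0 a)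
  obtain ⟨y, hy, hy0⟩ := (Submodule.ne_bot_iff _).1 (h0 b)
  obtain ⟨η, h1, -, h3⟩ := X.exists_on (D a).zero_mem hx (by simpa using hx0) 1
  obtain ⟨g, hg, e⟩ := (hasT_SLV (h1 b hab.symm y hy)).elim
  refine fun hle => X.not_two_of_mem (hle hg) hx ⟨a, b, hab, ?_, ?_⟩
  · rwa [e, h3, one_smul, map_add, X.self a x hx, X.other a b hab y hy, add_zero]
  · rwa [e, h3, one_smul, map_add, X.self b y hy, X.other b a hab.symm x hx, zero_add]

include X in
theorem isMaximalIn_SLV {m : ℕ} (hd : ∀ i, finrank F (D i) = m) (h2 : ∃ a b : κ, a ≠ b)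
    (h3 : 3 ≤ m ∨ (2 ≤ m ∧ 3 ≤ Fintype.card κ ∧ ∃ l : F, l ≠ 0 ∧ l ≠ 1)) :
    Geo.IsMaximalIn (SLV F V) (dstab D ⊓ SLV F V) := by
  have hm : ∀ i, 2 ≤ finrank F (D i) := fun i => by rw [hd]; omega
  have h0 : ∀ i, D i ≠ ⊥ := fun i h => by have := hm i; rw [h, finrank_bot] at this; omega
  have hd' : ∀ i j, finrank F (D i) = finrank F (D j) := fun i j => by rw [hd, hd]
  refine isMaximalIn_of inf_le_right (fun hle => X.not_SLV_le h0 h2 (hle.trans inf_le_left))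
    fun M hH h1 ⟨g, hg, hg'⟩ => ?_
  obtain ⟨i, x, hx, ht⟩ := X.exists_two_of_notMem h0 hd' fun h => hg' ⟨h, h1 hg⟩
  obtain ⟨z, hz, hz'⟩ := exists_notMem_span (hm i) x
  obtain ⟨χ, hχ, hχx, hχz⟩ := X.exists_on hx hz hz' 1
  have hT := ((hasT_block hx hχ hχx).mono hH).conj hg
  set ψ := χ ∘ₗ ((g⁻¹ : V ≃ₗ[F] V) : V →ₗ[F] V) with hψ
  have hψg : ∀ x, ψ (g x) = χ x := fun x => by simp [hψ]
  have hv : ψ (g x) = 0 := by rw [hψg, hχx]
  obtain ⟨b, hb⟩ : ∃ b, ψ (X.π b (g z)) ≠ 0 := by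
    by_contra hc
    push Not at hc
    have := hψg z
    rw [← X.sum (g z), map_sum, hχz] at this
    simp [hc] at this
  obtain ⟨a, hab, ha⟩ := X.exists_ne_of_notMem (ht.notMem b)
  generalize g x = v at *
  clear_value ψ
  rcases h3 with h3 | ⟨-, h3, l, hl0, hl1⟩
  · have := finrank_inf_ker (D a) ψ
    obtain ⟨y, hy, hy'⟩ := exists_notMem_span (W := D a ⊓ LinearMap.ker ψ) (by rw [hd] at this; omega)
      (X.π a v)
    exact X.SLV_le_of_hasT hm hd' hH hab hT hv ha (X.mem b _) hb hy.1 hy.2 hy'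
  obtain ⟨c, hc⟩ : ∃ c, c ∉ ({a, b} : Finset κ) := by
    by_contra hc
    push Not at hc
    have := Finset.card_le_card (show Finset.univ ⊆ ({a, b} : Finset κ) from fun l _ => hc l)
    have := Finset.card_le_two (a := a) (b := b)
    rw [Finset.card_univ] at *
    omega
  simp only [Finset.mem_insert, Finset.mem_singleton, not_or] at hc
  obtain ⟨yb, hyb, hyb1, hyb2⟩ := exists_notMem_two (W := D b) (Y := LinearMap.ker ψ)
    (Z := F ∙ X.π b v) (fun h => hb (h (X.mem b _))) (fun h => by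
      obtain ⟨y, hy, hy'⟩ := exists_notMem_span (hm b) (X.π b v)
      exact hy' (h hy))
  obtain ⟨ηb, b1, b2, b3⟩ := X.exists_on (X.mem b v) hyb hyb2 1
  obtain ⟨yc, hyc, hyc2⟩ := exists_notMem_span (hm c) (X.π c v)
  obtain ⟨ηc, c1, c2, c3⟩ := X.exists_on (X.mem c v) hyc hyc2 1
  rw [X.on_apply b1] at b2
  rw [X.on_apply c1] at c2
  obtain ⟨r, hr⟩ := exists_T (u := yb) (φ := (l - 1) • ηb) (by simpa [b3] using hl0)
  obtain ⟨t, r', -, hr', hs⟩ := exists_fix_det c3 r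
  have hM : r * r' ∈ M := hH ⟨mem_dstab_of_local fun j y hy => maps_of_T hyb (b1.smul _) hr j _
    (maps_of_T hyc (c1.smul t) hr' j y hy), hs⟩
  have e1 : (r * r')⁻¹ v = v := by
    rw [le_inv_apply, LinearEquiv.symm_apply_eq, le_mul_apply, hr', c2, hr]; simp [b2]
  have hT' := hT.conj' (ψ := ψ ∘ₗ ((r * r' : V ≃ₗ[F] V) : V →ₗ[F] V)) (M.inv_mem hM)
    fun x => by simp
  rw [e1] at hT'
  have e2 : (ψ ∘ₗ ((r * r' : V ≃ₗ[F] V) : V →ₗ[F] V)) v = 0 := by
    conv_lhs => rw [← e1]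
    simpa using hv
  obtain ⟨y, hy, hy'⟩ := exists_notMem_span (hm a) (X.π a v)
  refine X.SLV_le_of_hasT hm hd' hH hab (hT'.sub_right hT e2 hv) (by rw [LinearMap.sub_apply, e2, hv, sub_zero]) ha
    hyb ?_ hy ?_ hy'
  · have : ψ yb ≠ 0 := hyb1
    simp [le_mul_apply, hr, hr', c1 b (Ne.symm hc.2) yb hyb, b3, this, sub_ne_zero.2 hl1]
  · simp [le_mul_apply, hr, hr', c1 a (Ne.symm hc.1) y hy, b1 a hab y hy]

end Dec

end General

section Matrix

variable {F : Type*} [Field F] [Fintype F]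

/-- `GL_m(q) ≀ S_t`, `m ≥ 2`, in `SL_{mt}(q)`. -/
theorem sl_decomp_maximal_of_two {n : ℕ} (hn : 5 ≤ n) {t : ℕ} (m : ℕ) (hm : 2 ≤ m)
    (D : Fin t → Submodule F (Fin n → F)) (hD : Geo.IsMDecomposition m D)
    (hex : ¬ (m = 2 ∧ Fintype.card F = 2)) :
    Geo.IsMaximalIn (Geo.specialLinear (Fin n) F)
      (Geo.decompositionStabilizer D ⊓ Geo.specialLinear (Fin n) F) := by
  rw [specialLinear_eq, decompositionStabilizer_eq, ← pull_inf]
  obtain ⟨X⟩ := nonempty_dec hD.indep hD.iSup_eq_top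
  refine isMaximalIn_pull (X.isMaximalIn_SLV hD.finrank_eq (exists_ne_fin hD.two_le) ?_)
  by_cases h3 : 3 ≤ m
  · exact Or.inl h3
  refine Or.inr ⟨hm, ?_, exists_ne_zero_one fun h => hex ⟨by omega, h⟩⟩
  have := X.finrank_eq hD.finrank_eq
  simp only [finrank_fintype_fun_eq_card, Fintype.card_fin] at this ⊢
  obtain rfl : m = 2 := by omega
  omega

end Matrix

end H98
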