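import Mathlib
import Cfsg.Agent.Base
import Cfsg.Agent.Lib.Imprim.SL

/-!
Monomial groups: diagonal and permutation elements, the rank lemma.
-/

set_option autoImplicit false
set_option linter.unusedSectionVars false

namespace H98

open Module Cfsg H28 H97

variable {F V : Type*} [Field F] [AddCommGroup V] [Module F V] [FiniteDimensional F V]
  {ι : Type*} [Fintype ι] [DecidableEq ι] (b : Basis ι F V)

/-- The monomial group of a basis. -/
def Mon : Subgroup (V ≃ₗ[F] V) := dstab fun i => F ∙ b i

/-- Diagonal elements. -/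
noncomputable def dg : (ι → Fˣ) →* (V ≃ₗ[F] V) where
  toFun d := b.equiv (b.unitsSMul d) (Equiv.refl ι)
  map_one' := b.ext' fun i => by simp [Basis.unitsSMul_apply]
  map_mul' d e := b.ext' fun i => by
    simp [Basis.unitsSMul_apply, le_mul_apply, Units.smul_def, smul_smul, mul_comm]

/-- Permutation elements. -/
noncomputable def pm : Equiv.Perm ι →* (V ≃ₗ[F] V) where
  toFun τ := b.equiv b τ
  map_one' := b.ext' fun i => by simp
  map_mul' d e := b.ext' fun i => by simp [le_mul_apply]

theorem dg_b (d : ι → Fˣ) (i : ι) : dg b d (b i) = (d i : F) • b i := by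
  simp [dg, Basis.unitsSMul_apply, Units.smul_def]

theorem pm_b (τ : Equiv.Perm ι) (i : ι) : pm b τ (b i) = b (τ i) := by simp [pm]

theorem coord_b (i j : ι) : b.coord i (b j) = if j = i then 1 else 0 := by
  simp [Finsupp.single_apply]

theorem coord_self (i : ι) : b.coord i (b i) = 1 := by simp

theorem coord_ne {i j : ι} (h : i ≠ j) : b.coord i (b j) = 0 := by simp [h.symm]

theorem ext_coord {v w : V} (h : ∀ i, b.coord i v = b.coord i w) : v = w := b.ext_elem h

theorem sum_coord (v : V) : ∑ i, b.coord i v • b i = v := b.sum_repr v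

theorem dual_ext {φ : Dual F V} (v : V) : φ v = ∑ i, b.coord i v * φ (b i) := by
  conv_lhs => rw [← sum_coord b v]
  simp only [map_sum, map_smul, smul_eq_mul]

theorem coord_dg (d : ι → Fˣ) (i : ι) (v : V) : b.coord i (dg b d v) = d i * b.coord i v := by
  have : b.coord i ∘ₗ (dg b d : V →ₗ[F] V) = (d i : F) • b.coord i := b.ext fun j => by
    by_cases h : i = j
    · subst h; simp [dg_b]
    · simp [dg_b, Ne.symm h]
  exact congrArg (fun φ : Dual F V => φ v) this

theorem det_dg (d : ι → Fˣ) : LinearMap.det (dg b d : V →ₗ[F] V) = ((∏ i, d i : Fˣ) : F) := by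
  rw [← LinearMap.det_toMatrix b]
  have : LinearMap.toMatrix b b (dg b d : V →ₗ[F] V) = Matrix.diagonal fun i => (d i : F) := by
    ext i j
    rw [LinearMap.toMatrix_apply, LinearEquiv.coe_coe, dg_b, Matrix.diagonal_apply]
    by_cases h : i = j
    · subst h; simp
    · simp [h, Ne.symm h]
  rw [this, Matrix.det_diagonal, Units.coe_prod]

theorem pm_swap_apply (i j : ι) (v : V) :
    pm b (Equiv.swap i j) v = v + (b.coord j - b.coord i) v • (b i - b j) := by
  have : (pm b (Equiv.swap i j) : V →ₗ[F] V) =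
      LinearMap.id + (b.coord j - b.coord i).smulRight (b i - b j) := b.ext fun k => by
    simp only [LinearEquiv.coe_coe, pm_b, LinearMap.add_apply, LinearMap.id_apply,
      LinearMap.smulRight_apply, LinearMap.sub_apply]
    by_cases h1 : k = i
    · subst h1
      by_cases h2 : k = j
      · subst h2; simp
      · simp [h2]
    by_cases h2 : k = j
    · subst h2; simp [h1]
    · simp [Equiv.swap_apply_of_ne_of_ne h1 h2, h1, h2]
  exact congrArg (fun φ : V →ₗ[F] V => φ v) this

theorem det_pm_swap {i j : ι} (h : i ≠ j) :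
    LinearMap.det (pm b (Equiv.swap i j) : V →ₗ[F] V) = -1 := by
  rw [det_of_rank_one (pm_swap_apply b i j)]
  simp [h, h.symm]

variable {b}

theorem mem_Mon {g : V ≃ₗ[F] V} :
    g ∈ Mon b ↔ ∃ τ : Equiv.Perm ι, ∃ c : ι → F, ∀ i, g (b i) = c i • b (τ i) := by
  constructor
  · rintro ⟨τ, hτ⟩
    have : ∀ i, ∃ c : F, c • b (τ i) = g (b i) := fun i => Submodule.mem_span_singleton.1
      ((hτ i).le ⟨b i, Submodule.mem_span_singleton_self _, rfl⟩)
    choose c hc using this
    exact ⟨τ, c, fun i => (hc i).symm⟩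
  · rintro ⟨τ, c, h⟩
    refine ⟨τ, fun i => map_eq_of_maps (fun x hx => ?_) ?_⟩
    · obtain ⟨t, rfl⟩ := Submodule.mem_span_singleton.1 hx
      rw [map_smul, h]
      exact Submodule.smul_mem _ _ (Submodule.smul_mem _ _ (Submodule.mem_span_singleton_self _))
    · rw [finrank_span_singleton (b.ne_zero _), finrank_span_singleton (b.ne_zero _)]

theorem coef_ne_zero {g : V ≃ₗ[F] V} {i : ι} {c : F} {v : V} (h : g (b i) = c • v) : c ≠ 0 := by
  rintro rfl
  exact b.ne_zero i (by simpa using h)

theorem mem_Mon_of {g : V ≃ₗ[F] V} (h : ∀ i, ∃ j, ∃ c : F, g (b i) = c • b j) : g ∈ Mon b := by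
  choose τ c hc using h
  have : Function.Injective τ := fun i j hij => by
    by_contra h
    have h1 : c j • b i = c i • b j := g.injective (by
      rw [map_smul, map_smul, hc, hc, hij, smul_comm])
    have := congrArg (b.coord i) h1
    simp [Ne.symm h, coef_ne_zero (hc j)] at this
  exact mem_Mon.2 ⟨Equiv.ofBijective τ (Finite.injective_iff_bijective.1 this), c, hc⟩

theorem dg_mem_Mon (d : ι → Fˣ) : dg b d ∈ Mon b := mem_Mon.2 ⟨1, fun i => d i, dg_b b d⟩

theorem pm_mem_Mon (τ : Equiv.Perm ι) : pm b τ ∈ Mon b :=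
  mem_Mon.2 ⟨τ, fun _ => 1, fun i => by rw [pm_b, one_smul]⟩

theorem not_two_of_Mon {g : V ≃ₗ[F] V} (hg : g ∈ Mon b) (k : ι) {i j : ι} (hij : i ≠ j)
    (hi : b.coord i (g (b k)) ≠ 0) : b.coord j (g (b k)) = 0 := by
  obtain ⟨τ, c, h⟩ := mem_Mon.1 hg
  rw [h, map_smul] at hi ⊢
  by_cases h1 : i = τ k
  · rw [coord_ne b (h1 ▸ hij.symm), smul_zero]
  · exact absurd (by rw [coord_ne b h1, smul_zero]) hi

theorem eq_smul_of_coord {v : V} {j : ι} (h : ∀ k, k ≠ j → b.coord k v = 0) : v = b.coord j v • b j :=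
  ext_coord b fun k => by
    by_cases hk : k = j
    · subst hk; simp
    · rw [h k hk, map_smul, coord_ne b hk, smul_zero]

theorem conj_dg {m : V ≃ₗ[F] V} {τ : Equiv.Perm ι} {c : ι → F} (h : ∀ i, m (b i) = c i • b (τ i))
    (d : ι → Fˣ) : m * dg b d * m⁻¹ = dg b (d ∘ τ.symm) := by
  rw [mul_inv_eq_iff_eq_mul]
  refine b.ext' fun i => ?_
  simp [le_mul_apply, dg_b, h, smul_smul, mul_comm]

theorem mem_span_image {S : Finset ι} {v : V} (h : ∀ k, k ∉ S → b.coord k v = 0) :
    v ∈ Submodule.span F (b '' (S : Set ι)) := by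
  rw [b.mem_span_image]
  intro k hk
  by_contra hc
  exact (Finsupp.mem_support_iff.1 hk) (h k hc)

theorem finrank_span_image_le (S : Finset ι) :
    finrank F (Submodule.span F (b '' (S : Set ι))) ≤ S.card := by
  classical
  rw [← Finset.coe_image]
  exact (finrank_span_finset_le_card _).trans Finset.card_image_le

/-- A monomial element of small rank moves few basis vectors. -/
theorem exists_supp {y : V ≃ₗ[F] V} (hy : y ∈ Mon b) {W : Submodule F V} (hW : ∀ v, y v - v ∈ W) :
    ∃ K : Finset ι, K.card ≤ 2 * finrank F W ∧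
      ∀ k, k ∉ K → y (b k) = b k ∧ ∀ v, b.coord k (y v) = b.coord k v := by
  obtain ⟨τ, c, h⟩ := mem_Mon.1 hy
  obtain ⟨κ, a, ha, hsp, hli⟩ := exists_linearIndependent' F (fun i => y (b i) - b i)
  haveI : Fintype κ := Fintype.ofInjective a ha
  have h1 : Fintype.card κ ≤ finrank F W :=
    LinearIndependent.fintype_card_le_finrank (b := fun j => (⟨y (b (a j)) - b (a j), hW _⟩ : W))
      (LinearIndependent.of_comp W.subtype hli)
  refine ⟨Finset.univ.image a ∪ Finset.univ.image (τ ∘ a), ?_, fun k hk => ?_⟩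
  · refine (Finset.card_union_le _ _).trans ?_
    have h2 := Finset.card_image_le (s := Finset.univ) (f := a)
    have h3 := Finset.card_image_le (s := Finset.univ) (f := τ ∘ a)
    rw [Finset.card_univ] at h2 h3
    omega
  simp only [Finset.mem_union, Finset.mem_image, Finset.mem_univ, true_and, not_or, not_exists,
    Function.comp_apply] at hk
  have h2 : Submodule.span F (Set.range fun i => y (b i) - b i) ≤ LinearMap.ker (b.coord k) := by
    rw [← hsp, Submodule.span_le]
    rintro _ ⟨j, rfl⟩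
    change b.coord k (y (b (a j)) - b (a j)) = 0
    rw [h, map_sub, map_smul, coord_ne b (Ne.symm (hk.1 j)), coord_ne b (Ne.symm (hk.2 j))]; simp
  have h3 : ∀ i, b.coord k (y (b i)) = b.coord k (b i) := fun i => by
    have : b.coord k (y (b i) - b i) = 0 := h2 (Submodule.subset_span ⟨i, rfl⟩)
    rwa [map_sub, sub_eq_zero] at this
  refine ⟨?_, fun v => congrArg (fun φ : Dual F V => φ v)
    (b.ext h3 : b.coord k ∘ₗ (y : V →ₗ[F] V) = b.coord k)⟩
  have h4 := h3 k
  rw [coord_self] at h4
  rw [eq_smul_of_coord (v := y (b k)) (j := k) fun l hl => not_two_of_Mon hy k (Ne.symm hl)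
    (by rw [h4]; exact one_ne_zero), h4, one_smul]

theorem exists_notMem_of_card {S : Finset ι} (h : S.card < Fintype.card ι) : ∃ k, k ∉ S := by
  by_contra hc
  push Not at hc
  have := Finset.card_le_card (show Finset.univ ⊆ S from fun l _ => hc l)
  rw [Finset.card_univ] at this
  omega

theorem exists_mem_notMem_of_card {S T : Finset ι} (h : T.card < S.card) : ∃ k ∈ S, k ∉ T := by
  by_contra hc
  push Not at hc
  exact absurd (Finset.card_le_card (show S ⊆ T from hc)) (by omega)

end H98
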