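import Mathlib
import Cfsg.Agent.Base
import Cfsg.Agent.Lib.Imprim.Mon

/-!
Overgroups of monomial groups in which the stabiliser of a frame point is monomial: supports.
-/

set_option autoImplicit false
set_option linter.unusedSectionVars false

namespace H98

open Module Cfsg H28 H97

variable {F V : Type*} [Field F] [AddCommGroup V] [Module F V] [FiniteDimensional F V]
  {ι : Type*} [Fintype ι] [DecidableEq ι] {b : Basis ι F V} {C : Subgroup Fˣ}
  {M : Subgroup (V ≃ₗ[F] V)}

variable (b) in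
/-- `k` is a common zero of the image of the `i`-th basis vector and `i`-th coordinate. -/
def Zr (x : V ≃ₗ[F] V) (i k : ι) : Prop := b.coord k (x (b i)) = 0 ∧ b.coord i (x⁻¹ (b k)) = 0

theorem Zr.symm {x : V ≃ₗ[F] V} {i k : ι} (h : Zr b x i k) : Zr b x⁻¹ k i := ⟨h.2, h.1⟩

theorem coord_mon {m : V ≃ₗ[F] V} {τ : Equiv.Perm ι} {c : ι → F} (h : ∀ i, m (b i) = c i • b (τ i))
    (k : ι) (v : V) : b.coord (τ k) (m v) = c k * b.coord k v := by
  have : b.coord (τ k) ∘ₗ (m : V →ₗ[F] V) = c k • b.coord k := b.ext fun j => by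
    by_cases hj : j = k
    · subst hj; simp [h]
    · simp [h, hj]
  exact congrArg (fun φ : Dual F V => φ v) this

theorem Zr.mul {x m : V ≃ₗ[F] V} {τ : Equiv.Perm ι} {c : ι → F} (h : ∀ i, m (b i) = c i • b (τ i))
    {i k : ι} (hz : Zr b x i k) : Zr b (m * x) i (τ k) := by
  refine ⟨by rw [le_mul_apply, coord_mon h, hz.1, mul_zero], ?_⟩
  have h1 : m⁻¹ (b (τ k)) = (c k)⁻¹ • b k := by
    rw [le_inv_apply, LinearEquiv.symm_apply_eq, map_smul, h, smul_smul,
      inv_mul_cancel₀ (coef_ne_zero (h k)), one_smul]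
  rw [mul_inv_rev, le_mul_apply, h1, map_smul, map_smul, hz.2, smul_zero]

variable (b C M) in
/-- The standing hypotheses on the overgroup `M`. -/
structure Fr : Prop where
  mem : ∀ (g : V ≃ₗ[F] V) (τ : Equiv.Perm ι) (c : ι → Fˣ), (∀ i, c i ∈ C) →
    (∀ i, g (b i) = (c i : F) • b (τ i)) → g ∈ SLV F V → g ∈ M
  neg : -1 ∈ C
  star : ∀ x ∈ M, ∀ i, (∀ k, k ≠ i → Zr b x i k) → x ∈ Mon b

theorem mulSingle_mem {k : ι} {l : Fˣ} (hl : l ∈ C) (i : ι) : (Pi.mulSingle k l : ι → Fˣ) i ∈ C := by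
  by_cases h : i = k
  · subst h; simpa using hl
  · simp [h, C.one_mem]

theorem prod_mulSingle (k : ι) (l : Fˣ) : ∏ i, (Pi.mulSingle k l : ι → Fˣ) i = l :=
  Fintype.prod_pi_mulSingle' k l

theorem exists_mon_swap (neg : -1 ∈ C) {i j : ι} (hij : i ≠ j) : ∃ s ∈ SLV F V, ∃ c : ι → Fˣ,
    (∀ i, c i ∈ C) ∧ ∀ k, s (b k) = (c k : F) • b (Equiv.swap i j k) := by
  refine ⟨pm b (Equiv.swap i j) * dg b (Pi.mulSingle i (-1)), mem_SLV.2 ?_, Pi.mulSingle i (-1),
    mulSingle_mem neg, fun k => by rw [le_mul_apply, dg_b, map_smul, pm_b]⟩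
  rw [LinearEquiv.coe_toLinearMap_mul, map_mul, det_pm_swap b hij, det_dg, prod_mulSingle]
  simp

namespace Fr

variable (R : Fr b C M)
include R

theorem dg_mem {d : ι → Fˣ} (h : ∀ i, d i ∈ C) (h1 : ∏ i, d i = 1) : dg b d ∈ M :=
  R.mem _ 1 d h (dg_b b d) (mem_SLV.2 (by rw [det_dg, h1, Units.val_one]))

theorem star' {x : V ≃ₗ[F] V} (hx : x ∈ M) {i j : ι} (h : ∀ k, k ≠ j → Zr b x i k) : x ∈ Mon b := by
  by_cases hij : i = j
  · exact R.star x hx i (hij ▸ h)
  obtain ⟨s, hs, c, hc, e⟩ := exists_mon_swap (b := b) R.neg hij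
  have h1 := R.star _ (M.mul_mem (R.mem s _ c hc e hs) hx) i fun k hk => by
    have := (h (Equiv.swap i j k) fun h => hk ((Equiv.swap i j).injective (by
      rw [h, Equiv.swap_apply_left]))).mul e
    rwa [Equiv.swap_apply_self] at this
  exact ((Mon b).mul_mem_cancel_left (mem_Mon.2 ⟨_, _, e⟩)).1 h1

theorem mem_of_fix {x : V ≃ₗ[F] V} (hx : x ∈ M) {k : ι} (h1 : x (b k) = b k)
    (h2 : ∀ v, b.coord k (x v) = b.coord k v) : x ∈ Mon b :=
  R.star x hx k fun l hl => ⟨by rw [h1, coord_ne b hl], by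
    rw [← h2, le_apply_inv, coord_ne b (Ne.symm hl)]⟩

theorem conj_mem {x : V ≃ₗ[F] V} (hx : x ∈ M) {i : ι} {d : ι → Fˣ} (h : ∀ i, d i ∈ C)
    (h1 : ∏ i, d i = 1) (h2 : ∀ k, d k = 1 ∨ Zr b x i k) : x⁻¹ * dg b d * x ∈ Mon b := by
  refine R.mem_of_fix (M.mul_mem (M.mul_mem (M.inv_mem hx) (R.dg_mem h h1)) hx) (k := i) ?_ fun v => ?_
  · have : dg b d (x (b i)) = x (b i) := ext_coord b fun k => by
      rw [coord_dg]
      rcases h2 k with h3 | h3
      · simp [h3]
      · rw [h3.1, mul_zero]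
    rw [le_mul_apply, le_mul_apply, this, le_inv_apply_apply]
  · have : b.coord i ∘ₗ ((x⁻¹ * dg b d : V ≃ₗ[F] V) : V →ₗ[F] V) =
        b.coord i ∘ₗ ((x⁻¹ : V ≃ₗ[F] V) : V →ₗ[F] V) := b.ext fun k => by
      change b.coord i (x⁻¹ (dg b d (b k))) = b.coord i (x⁻¹ (b k))
      rw [dg_b, map_smul, map_smul]
      rcases h2 k with h3 | h3
      · simp [h3]
      · rw [h3.2, smul_zero]
    have h3 := congrArg (fun φ : Dual F V => φ (x v)) this
    simpa using h3

theorem orbit_bound {x : V ≃ₗ[F] V} (hx : x ∈ M) {i a l : ι} {J : Type} [Fintype J]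
    (d : J → ι → Fˣ) (h : ∀ j i, d j i ∈ C) (h1 : ∀ j, ∏ i, d j i = 1)
    (h2 : ∀ j k, d j k = 1 ∨ Zr b x i k) (hl : b.coord l (x (b a)) ≠ 0) (hl' : ∀ j, d j l = 1)
    (hinj : ∀ j j', (∀ k, b.coord k (x (b a)) ≠ 0 → d j k = d j' k) → j = j') (S : Finset ι)
    (hS : ∀ j k, k ∉ S → d j k = 1 ∨ b.coord k (x (b a)) = 0) : Fintype.card J ≤ S.card + 1 := by
  have h3 : ∀ j, ∃ a' : ι, ∃ c : F, dg b (d j) (x (b a)) = c • x (b a') := fun j => by
    obtain ⟨τ, c, e⟩ := mem_Mon.1 (R.conj_mem hx (h j) (h1 j) (h2 j))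
    refine ⟨τ a, c a, ?_⟩
    rw [← map_smul, ← e, le_mul_apply, le_mul_apply, le_apply_inv]
  choose f c e using h3
  have hc : ∀ j, c j ≠ 0 := fun j => coef_ne_zero (g := dg b (d j) * x) (e j)
  have hf : Function.Injective f := fun j j' hj => hinj j j' fun k hk => by
    have e1 := fun k => congrArg (b.coord k) (e j)
    have e2 := fun k => congrArg (b.coord k) (e j')
    simp only [coord_dg, map_smul, smul_eq_mul, hj] at e1 e2
    have e3 := e1 l
    have e4 := e2 l
    rw [hl'] at e3 e4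
    have e5 : c j = c j' := by
      have : b.coord l (x (b (f j'))) ≠ 0 := fun h0 => hl (by simpa [h0] using e4)
      exact mul_right_cancel₀ this (e3.symm.trans e4)
    exact Units.ext (mul_right_cancel₀ hk (by rw [e1, e2, e5]))
  set W := (F ∙ x (b a)) ⊔ Submodule.span F (b '' (S : Set ι)) with hW
  have hmem : ∀ j, x (b (f j)) ∈ W := fun j => by
    rw [← W.smul_mem_iff (hc j), ← e, ← add_sub_cancel (x (b a)) (dg b (d j) (x (b a)))]
    refine Submodule.add_mem_sup (Submodule.mem_span_singleton_self _) (mem_span_image fun k hk => ?_)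
    rw [map_sub, coord_dg]
    rcases hS j k hk with h3 | h3 <;> simp [h3]
  have hli : LinearIndependent F fun j => x (b (f j)) :=
    (b.linearIndependent.comp f hf).map' (x : V →ₗ[F] V) x.ker
  have h4 := LinearIndependent.fintype_card_le_finrank (b := fun j => (⟨_, hmem j⟩ : W))
    (LinearIndependent.of_comp W.subtype hli)
  have h5 := finrank_sup_le' (F ∙ x (b a)) (Submodule.span F (b '' (S : Set ι)))
  have h6 := finrank_span_singleton_le (F := F) (x (b a))
  have h7 := finrank_span_image_le (b := b) S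
  rw [← hW] at h5
  omega

/-- One-parameter version. -/
theorem card_le_of_zero [Finite F] {x : V ≃ₗ[F] V} (hx : x ∈ M) {i a k j l : ι} (hk : Zr b x i k)
    (hj : Zr b x i j) (hkj : k ≠ j) (hlk : l ≠ k) (hlj : l ≠ j) (h1 : b.coord k (x (b a)) ≠ 0)
    (h2 : b.coord l (x (b a)) ≠ 0) :
    Nat.card C ≤ 3 ∧ (b.coord j (x (b a)) = 0 → Nat.card C ≤ 2) := by
  haveI := Fintype.ofFinite C
  have key : ∀ S : Finset ι, (∀ m, m ∉ S → (m ≠ k ∧ m ≠ j) ∨ b.coord m (x (b a)) = 0) →
      Nat.card C ≤ S.card + 1 := fun S hS => by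
    rw [Nat.card_eq_fintype_card]
    refine R.orbit_bound hx (i := i) (J := Fin (Fintype.card C)) (fun t => Pi.mulSingle k
      ((Fintype.equivFin C).symm t).1 * Pi.mulSingle j ((Fintype.equivFin C).symm t).1⁻¹)
      (fun t m => C.mul_mem (mulSingle_mem (Subtype.prop _) m)
        (mulSingle_mem (C.inv_mem (Subtype.prop _)) m)) (fun t => ?_) (fun t m => ?_) h2
      (fun t => by simp [hlk, hlj]) (fun t t' h => ?_) S (fun t m hm => ?_) |>.trans_eq' (by simp)
    · simp [Finset.prod_mul_distrib, prod_mulSingle]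
    · by_cases h3 : m = k
      · exact Or.inr (h3 ▸ hk)
      by_cases h4 : m = j
      · exact Or.inr (h4 ▸ hj)
      exact Or.inl (by simp [h3, h4])
    · simpa [hkj] using h k h1
    · exact (hS m hm).imp_left fun h => by simp [h.1, h.2]
  refine ⟨(key {k, j} fun m hm => Or.inl (by simpa using hm)).trans ?_, fun h0 => ?_⟩
  · have := Finset.card_le_two (a := k) (b := j); omega
  · simpa using key {k} fun m hm => by
      by_cases h4 : m = j
      · exact Or.inr (h4 ▸ h0)
      · exact Or.inl ⟨by simpa using hm, h4⟩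

theorem mem_of_supp {x : V ≃ₗ[F] V} (hx : x ∈ M) {k : ι}
    (h : ∀ a, b.coord k (x (b a)) ≠ 0 → ∀ l, l ≠ k → b.coord l (x (b a)) = 0) : x ∈ Mon b := by
  obtain ⟨a, ha⟩ : ∃ a, b.coord k (x (b a)) ≠ 0 := by
    by_contra hc
    push Not at hc
    have := dual_ext b (φ := b.coord k ∘ₗ (x : V →ₗ[F] V)) (x⁻¹ (b k))
    simp only [LinearMap.comp_apply, LinearEquiv.coe_coe, hc, le_apply_inv, coord_self] at this
    simp at this
  refine R.star' hx (i := a) (j := k) fun l hl => ⟨h a ha l hl, ?_⟩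
  have h1 := dual_ext b (φ := b.coord k ∘ₗ (x : V →ₗ[F] V)) (x⁻¹ (b l))
  simp only [LinearMap.comp_apply, LinearEquiv.coe_coe, le_apply_inv, coord_ne b (Ne.symm hl)] at h1
  rw [Finset.sum_eq_single a _ (by simp)] at h1
  · exact (mul_eq_zero.1 h1.symm).resolve_right ha
  · intro c _ hc
    by_contra h2
    have h3 := right_ne_zero_of_mul h2
    have h4 : b.coord k (x (b c)) • b a = b.coord k (x (b a)) • b c := x.injective (by
      rw [map_smul, map_smul]
      have e1 := eq_smul_of_coord (h a ha)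
      have e2 := eq_smul_of_coord (h c h3)
      generalize b.coord k (x (b a)) = s at *
      generalize b.coord k (x (b c)) = t at *
      rw [e1, e2, smul_comm])
    have := congrArg (b.coord a) h4
    rw [map_smul, map_smul, coord_self, coord_ne b (Ne.symm hc)] at this
    exact h3 (by simpa using this)

variable [Finite F]

theorem mem_of_three (hC : 4 ≤ Nat.card C) {x : V ≃ₗ[F] V} (hx : x ∈ M) {i : ι} {S : Finset ι}
    (hS : 3 ≤ S.card) (h : ∀ k ∈ S, Zr b x i k) : x ∈ Mon b := by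
  obtain ⟨k, hk⟩ := Finset.card_pos.1 (show 0 < S.card by omega)
  refine R.mem_of_supp hx (k := k) fun a ha l hl => ?_
  by_contra h1
  obtain ⟨j, hj, hj'⟩ := exists_mem_notMem_of_card (S := S) (T := {k, l})
    (by have := Finset.card_le_two (a := k) (b := l); omega)
  simp only [Finset.mem_insert, Finset.mem_singleton, not_or] at hj'
  have := (R.card_le_of_zero hx (h k hk) (h j hj) (Ne.symm hj'.1) hl (Ne.symm hj'.2) ha h1).1
  omega

theorem mem_of_two (hC : 4 ≤ Nat.card C) (hn : 5 ≤ Fintype.card ι) {x : V ≃ₗ[F] V} (hx : x ∈ M)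
    {i k j : ι} (hkj : k ≠ j) (hk : Zr b x i k) (hj : Zr b x i j) : x ∈ Mon b := by
  have h1 : ∀ a, b.coord k (x (b a)) ≠ 0 ∨ b.coord j (x (b a)) ≠ 0 → ∀ l, l ≠ k → l ≠ j →
      b.coord l (x (b a)) = 0 := fun a ha l hlk hlj => by
    by_contra h2
    rcases ha with ha | ha
    · have := (R.card_le_of_zero hx hk hj hkj hlk hlj ha h2).1; omega
    · have := (R.card_le_of_zero hx hj hk hkj.symm hlj hlk ha h2).1; omega
  obtain ⟨a, ha⟩ : ∃ a, b.coord k (x (b a)) ≠ 0 := by
    by_contra hc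
    push Not at hc
    have := dual_ext b (φ := b.coord k ∘ₗ (x : V →ₗ[F] V)) (x⁻¹ (b k))
    simp only [LinearMap.comp_apply, LinearEquiv.coe_coe, hc, le_apply_inv, coord_self] at this
    simp at this
  refine R.mem_of_three hC hx (i := a) (S := Finset.univ \ {k, j}) ?_ fun l hl => ?_
  · have := Finset.card_le_two (a := k) (b := j)
    rw [Finset.card_sdiff_of_subset (Finset.subset_univ _), Finset.card_univ]; omega
  simp only [Finset.mem_sdiff, Finset.mem_univ, Finset.mem_insert, Finset.mem_singleton, true_and,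
    not_or] at hl
  refine ⟨h1 a (Or.inl ha) l hl.1 hl.2, ?_⟩
  classical
  let A := Finset.univ.filter fun c => b.coord k (x (b c)) ≠ 0 ∨ b.coord j (x (b c)) ≠ 0
  have h2 : x (∑ c ∈ A, b.coord c (x⁻¹ (b l)) • b c) = 0 := ext_coord b fun m => by
    rw [map_zero]
    by_cases hm : m = k ∨ m = j
    · have h3 := dual_ext b (φ := b.coord m ∘ₗ (x : V →ₗ[F] V)) (x⁻¹ (b l))
      simp only [LinearMap.comp_apply, LinearEquiv.coe_coe, le_apply_inv] at h3
      rw [coord_ne b (by rcases hm with rfl | rfl <;> [exact Ne.symm hl.1; exact Ne.symm hl.2])] at h3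
      rw [h3, map_sum, map_sum]
      simp only [map_smul, smul_eq_mul]
      refine Finset.sum_subset (Finset.subset_univ _) fun c _ hc => ?_
      simp only [A, Finset.mem_filter, Finset.mem_univ, true_and, not_or, not_not] at hc
      rcases hm with rfl | rfl
      · rw [hc.1, mul_zero]
      · rw [hc.2, mul_zero]
    · rw [map_sum, map_sum]
      refine Finset.sum_eq_zero fun c hc => ?_
      rw [not_or] at hm
      rw [map_smul, map_smul, h1 c (Finset.mem_filter.1 hc).2 m hm.1 hm.2, smul_zero]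
  have h3 := congrArg (b.coord a) ((map_eq_zero_iff x x.injective).1 h2)
  rw [map_sum, Finset.sum_eq_single a (fun c _ hc => by
    rw [map_smul, coord_ne b (Ne.symm hc), smul_zero]) (fun h => absurd (show a ∈ A from Finset.mem_filter.2
      ⟨Finset.mem_univ _, Or.inl ha⟩) h)] at h3
  simpa using h3

end Fr

end H98
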