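import Mathlib
import Cfsg.Agent.Base
import Cfsg.Agent.Lib.Imprim.Frame

/-!
Overgroups of monomial groups in odd characteristic.
-/

set_option autoImplicit false
set_option linter.unusedSectionVars false

namespace H98

open Module Cfsg H28 H97
open scoped symmDiff

section Dihedral

variable {G : Type*} [Group G] {s t : G}

theorem inv_pow_of_invol (hs : s * s = 1) (ht : t * t = 1) (k : ℕ) :
    t * (s * t) ^ k = ((s * t) ^ k)⁻¹ * t := by
  have h1 : t * (s * t) * t⁻¹ = (s * t)⁻¹ := by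
    rw [mul_inv_rev, inv_eq_of_mul_eq_one_right hs, inv_eq_of_mul_eq_one_right ht]
    calc t * (s * t) * t = t * s * (t * t) := by group
      _ = t * s := by rw [ht, mul_one]
  rw [← inv_pow, ← h1, conj_pow]; group

theorem conj_pow_of_invol (hs : s * s = 1) (ht : t * t = 1) (k : ℕ) :
    (s * t) ^ k * t * ((s * t) ^ k)⁻¹ = (s * t) ^ (2 * k) * t := by
  have h := inv_pow_of_invol hs ht k
  have h1 : t * ((s * t) ^ k)⁻¹ = (s * t) ^ k * t := by
    rw [mul_inv_eq_iff_eq_mul, mul_assoc, h]; group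
  rw [mul_assoc, h1, two_mul, pow_add, mul_assoc]

theorem dihedral (hs : s * s = 1) (ht : t * t = 1) (hf : IsOfFinOrder (s * t)) :
    (∃ k j : ℕ, (s * t) ^ k * t * ((s * t) ^ k)⁻¹ = s ∧
      (s * t) ^ k * t = (s * t) ^ j * t * ((s * t) ^ j)⁻¹) ∨
    ∃ k j : ℕ, (s * t) ^ k ≠ 1 ∧ (s * t) ^ k * (s * t) ^ k = 1 ∧ Commute ((s * t) ^ k) s ∧
      Commute ((s * t) ^ k) t ∧ ((s * t) ^ k * s = (s * t) ^ j * s * ((s * t) ^ j)⁻¹ ∨
        (s * t) ^ k * t = (s * t) ^ j * s * ((s * t) ^ j)⁻¹) := by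
  have hst : s = s * t * t := by rw [mul_assoc, ht, mul_one]
  have h0 := pow_orderOf_eq_one (s * t)
  have hpos := hf.orderOf_pos
  have hc : ∀ j, (s * t) ^ j * s * ((s * t) ^ j)⁻¹ = (s * t) ^ (2 * j + 1) * t := fun j => by
    rw [pow_succ', mul_assoc (s * t), ← conj_pow_of_invol hs ht]
    conv_lhs => rw [hst]
    rw [mul_assoc s t t, ht, mul_one]
    have : (s * t) ^ j * s = s * t * ((s * t) ^ j * t) := by
      rw [← mul_assoc, ← pow_succ', pow_succ, mul_assoc, mul_assoc, ht, mul_one]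
    rw [this]; group
  rcases Nat.even_or_odd' (orderOf (s * t)) with ⟨k, hk | hk⟩
  · right
    rw [hk] at h0
    have h1 : (s * t) ^ k * (s * t) ^ k = 1 := by rw [← pow_add, ← two_mul, h0]
    have h2 : Commute ((s * t) ^ k) t := by
      rw [Commute, SemiconjBy, inv_pow_of_invol hs ht, inv_eq_of_mul_eq_one_right h1]
    have h3 : Commute ((s * t) ^ k) s := by
      conv_rhs => rw [hst]
      exact ((Commute.refl (s * t)).pow_left k).mul_right h2
    have h4 : (s * t) ^ k ≠ 1 := pow_ne_one_of_lt_orderOf (by omega) (by omega)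
    rcases Nat.even_or_odd' k with ⟨j, hj | hj⟩
    · refine ⟨k, j, h4, h1, h3, h2, Or.inl ?_⟩
      rw [hc, hj, pow_succ, mul_assoc, ← hst]
    · exact ⟨k, j, h4, h1, h3, h2, Or.inr (by rw [hc, hj])⟩
  · left
    rw [hk] at h0
    refine ⟨k + 1, (k + 1) * (k + 1), ?_, ?_⟩
    · rw [conj_pow_of_invol hs ht, show 2 * (k + 1) = 2 * k + 1 + 1 by ring, pow_succ, h0, one_mul, ← hst]
    · rw [conj_pow_of_invol hs ht, show 2 * ((k + 1) * (k + 1)) = (2 * k + 1) * (k + 1) + (k + 1) by ring,
        pow_add (s * t) ((2 * k + 1) * (k + 1)), pow_mul, h0, one_pow, one_mul]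

end Dihedral

variable {F V : Type*} [Field F] [AddCommGroup V] [Module F V] [FiniteDimensional F V]
  {ι : Type*} [Fintype ι] [DecidableEq ι] {b : Basis ι F V} {C : Subgroup Fˣ}
  {M : Subgroup (V ≃ₗ[F] V)}

theorem isOfFinOrder_le [Finite F] (g : V ≃ₗ[F] V) : IsOfFinOrder g := by
  haveI : Finite V := Module.finite_of_finite F
  haveI : Finite (V ≃ₗ[F] V) := Finite.of_injective (fun g : V ≃ₗ[F] V => (g : V → V))
    DFunLike.coe_injective
  exact isOfFinOrder_of_finite g

theorem zr_of_commute' {x y : V ≃ₗ[F] V} {τ : Equiv.Perm ι} {c : ι → F}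
    (hy : ∀ i, y (b i) = c i • b (τ i)) (h : Commute x y) {i k : ι} (hi : τ i = i) (hk : τ k = k)
    (hik : c i ≠ c k) : Zr b x i k := by
  have key : ∀ x : V ≃ₗ[F] V, Commute x y → ∀ i k, τ i = i → τ k = k → c i ≠ c k →
      b.coord k (x (b i)) = 0 := by
    intro x h i k hi hk hik
    have h1 := congrArg (fun g : V ≃ₗ[F] V => b.coord (τ k) (g (b i))) h.eq
    simp only [le_mul_apply, coord_mon hy, hy, map_smul, smul_eq_mul] at h1
    rw [hi, hk] at h1
    by_contra h2
    exact hik (mul_right_cancel₀ h2 h1)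
  exact ⟨key x h i k hi hk hik, key x⁻¹ h.inv_left k i hk hi hik.symm⟩

theorem zr_of_commute {x : V ≃ₗ[F] V} {d : ι → Fˣ} (h : Commute x (dg b d)) {i k : ι}
    (hik : d i ≠ d k) : Zr b x i k :=
  zr_of_commute' (τ := 1) (dg_b b d) h rfl rfl fun h => hik (Units.ext h)

variable (b) in
/-- Sign changes. -/
noncomputable def sg (I : Finset ι) : V ≃ₗ[F] V := dg b fun i => if i ∈ I then -1 else 1

theorem sg_mul (I J : Finset ι) : sg b I * sg b J = sg b (I ∆ J) := by
  rw [sg, sg, sg, ← map_mul]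
  congr 1
  funext i
  by_cases h1 : i ∈ I <;> by_cases h2 : i ∈ J <;> simp [Finset.mem_symmDiff, h1, h2]

theorem sg_empty : sg b ∅ = 1 := by
  rw [sg, ← map_one (dg b)]; congr 1

theorem sg_sq (I : Finset ι) : sg b I * sg b I = 1 := by
  rw [sg_mul, symmDiff_self]; exact sg_empty

theorem sg_mem_Mon (I : Finset ι) : sg b I ∈ Mon b := dg_mem_Mon _

theorem sg_b (I : Finset ι) (i : ι) : sg b I (b i) = if i ∈ I then -b i else b i := by
  rw [sg, dg_b]; split_ifs <;> simp

theorem coord_sg (I : Finset ι) (i : ι) (v : V) :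
    b.coord i (sg b I v) = if i ∈ I then -b.coord i v else b.coord i v := by
  rw [sg, coord_dg]; split_ifs <;> simp

theorem conj_sg {m : V ≃ₗ[F] V} (hm : m ∈ Mon b) (I : Finset ι) :
    ∃ J : Finset ι, J.card = I.card ∧ m * sg b I * m⁻¹ = sg b J := by
  obtain ⟨τ, c, h⟩ := mem_Mon.1 hm
  refine ⟨I.map τ.toEmbedding, Finset.card_map _, ?_⟩
  rw [sg, conj_dg h, sg]
  congr 1
  funext i
  simp [Finset.mem_map_equiv]

theorem neg_one_ne (h2 : (2 : F) ≠ 0) : (-1 : Fˣ) ≠ 1 := fun h => h2 (by
  have := congrArg Units.val h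
  simp only [Units.val_neg, Units.val_one] at this
  linear_combination -this)

theorem eq_zero_of_eq_neg (h2 : (2 : F) ≠ 0) {a : F} (h : a = -a) : a = 0 :=
  (mul_eq_zero.1 (show 2 * a = 0 by linear_combination h)).resolve_left h2

theorem sg_injective (h2 : (2 : F) ≠ 0) {I J : Finset ι} (h : sg b I = sg b J) : I = J := by
  ext i
  have h1 := congrArg (fun g : V ≃ₗ[F] V => b.coord i (g (b i))) h
  simp only [coord_sg, coord_self] at h1
  by_cases h3 : i ∈ I <;> by_cases h4 : i ∈ J <;> simp only [h3, h4, if_true, if_false] at h1 ⊢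
  · exact absurd (eq_zero_of_eq_neg h2 h1.symm) one_ne_zero
  · exact absurd (eq_zero_of_eq_neg h2 h1) one_ne_zero

namespace Fr

variable (R : Fr b C M) [Finite F]
include R

theorem sg_mem {I : Finset ι} (h : Even I.card) : sg b I ∈ M :=
  R.dg_mem (fun i => by split_ifs <;> [exact R.neg; exact C.one_mem]) (by
    rw [Finset.prod_ite_mem, Finset.univ_inter, Finset.prod_const, h.neg_one_pow])

theorem mem_of_commute (h2 : (2 : F) ≠ 0) (hC : 4 ≤ Nat.card C) (hn : 5 ≤ Fintype.card ι)
    {x : V ≃ₗ[F] V} (hx : x ∈ M) {I : Finset ι} (h0 : 0 < I.card) (h1 : I.card < Fintype.card ι)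
    (h : Commute x (sg b I)) : x ∈ Mon b := by
  by_cases h3 : 3 ≤ I.card
  · obtain ⟨i, hi⟩ := exists_notMem_of_card h1
    exact R.mem_of_three hC hx (i := i) h3 fun k hk => zr_of_commute h (by
      simpa [hi, hk] using (neg_one_ne h2).symm)
  · obtain ⟨i, hi⟩ := Finset.card_pos.1 h0
    refine R.mem_of_three hC hx (i := i) (S := Iᶜ) (by rw [Finset.card_compl]; omega) fun k hk =>
      zr_of_commute h ?_
    simpa [hi, Finset.mem_compl.1 hk] using neg_one_ne h2

theorem mem_of_conj (h2 : (2 : F) ≠ 0) (hC : 4 ≤ Nat.card C) (hn : 6 ≤ Fintype.card ι)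
    {m : V ≃ₗ[F] V} (hm : m ∈ M) {I : Finset ι} (hI : I.card = 2) (h : m * sg b I * m⁻¹ ∈ Mon b) :
    m ∈ Mon b := by
  obtain ⟨K, hK, e⟩ := exists_supp h
    (W := (Submodule.span F (b '' (I : Set ι))).map (m : V →ₗ[F] V)) fun v => by
      refine ⟨sg b I (m⁻¹ v) - m⁻¹ v, mem_span_image fun k hk => ?_, by simp [le_mul_apply]⟩
      rw [map_sub, coord_sg, if_neg hk, sub_self]
  rw [LinearEquiv.finrank_map_eq] at hK
  have h3 := finrank_span_image_le (b := b) I
  obtain ⟨k, hk⟩ := exists_notMem_of_card (S := K) (by omega)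
  obtain ⟨j, hj⟩ := exists_notMem_of_card (S := insert k K)
    (by have := Finset.card_insert_le k K; omega)
  rw [Finset.mem_insert, not_or] at hj
  obtain ⟨i, hi⟩ := Finset.card_pos.1 (show 0 < I.card by omega)
  have key : ∀ k, k ∉ K → Zr b m i k := fun k hk => by
    refine ⟨eq_zero_of_eq_neg h2 ?_, eq_zero_of_eq_neg h2 ?_⟩
    · conv_lhs => rw [← (e k hk).2]
      rw [le_mul_apply, le_mul_apply, le_inv_apply_apply, sg_b, if_pos hi, map_neg, map_neg]
    · conv_lhs => rw [← (e k hk).1]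
      rw [le_mul_apply, le_mul_apply, le_inv_apply_apply, coord_sg, if_pos hi]
  exact R.mem_of_two hC (by omega) hm (Ne.symm hj.1) (key k hk) (key j hj.2)

theorem mem_of_commute_sw (h2 : (2 : F) ≠ 0) (hC : 4 ≤ Nat.card C) (hn : 6 ≤ Fintype.card ι)
    {x y : V ≃ₗ[F] V} (hx : x ∈ M) {p q : ι} {c : ι → F}
    (hy : ∀ i, y (b i) = c i • b (Equiv.swap p q i)) {A : Finset ι} (hA : A.card = 1 ∨ A.card = 3)
    (hp : p ∉ A) (hq : q ∉ A) (hc : ∀ i, i ≠ p → i ≠ q → c i = if i ∈ A then -1 else 1)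
    (h : Commute x y) : x ∈ Mon b := by
  have h1 : (-1 : F) ≠ 1 := fun h => h2 (by linear_combination -h)
  have key : ∀ i ∈ A, ∀ k, k ∉ insert p (insert q A) → Zr b x i k ∧ Zr b x k i := by
    intro i hi k hk
    simp only [Finset.mem_insert, not_or] at hk
    have hip : i ≠ p := by rintro rfl; exact hp hi
    have hiq : i ≠ q := by rintro rfl; exact hq hi
    have e1 := Equiv.swap_apply_of_ne_of_ne hip hiq
    have e2 := Equiv.swap_apply_of_ne_of_ne hk.1 hk.2.1
    have e3 : c i ≠ c k := by rwa [hc i hip hiq, hc k hk.1 hk.2.1, if_pos hi, if_neg hk.2.2]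
    exact ⟨zr_of_commute' hy h e1 e2 e3, zr_of_commute' hy h e2 e1 e3.symm⟩
  have h3 := Finset.card_insert_le p (insert q A)
  have h4 := Finset.card_insert_le q A
  rcases hA with hA | hA
  · obtain ⟨i, hi⟩ := Finset.card_pos.1 (show 0 < A.card by omega)
    exact R.mem_of_three hC hx (i := i) (S := (insert p (insert q A))ᶜ)
      (by rw [Finset.card_compl]; omega) fun k hk => (key i hi k (Finset.mem_compl.1 hk)).1
  · obtain ⟨k, hk⟩ := exists_notMem_of_card (S := insert p (insert q A)) (by omega)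
    exact R.mem_of_three hC hx (i := k) hA.ge fun i hi => (key i hi k hk).2

theorem le_Mon_of_odd (h2 : (2 : F) ≠ 0) (hC : 4 ≤ Nat.card C) (hn : 6 ≤ Fintype.card ι) :
    M ≤ Mon b := by
  intro g hg
  by_contra hg'
  obtain ⟨J, -, hJ⟩ := Finset.exists_subset_card_eq (s := (Finset.univ : Finset ι)) (n := 2)
    (by rw [Finset.card_univ]; omega)
  have hT : ∀ m ∈ M, m * sg b J * m⁻¹ ∈ Mon b → ∃ J' : Finset ι, J'.card = 2 ∧
      m * sg b J * m⁻¹ = sg b J' := fun m hm h => by
    obtain ⟨J', h3, h4⟩ := conj_sg (R.mem_of_conj h2 hC (by omega) hm hJ h) J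
    exact ⟨J', h3.trans hJ, h4⟩
  have hJM := R.sg_mem (I := J) (by rw [hJ]; decide)
  have hs : g * sg b J * g⁻¹ ∈ M := M.mul_mem (M.mul_mem hg hJM) (M.inv_mem hg)
  have hss : g * sg b J * g⁻¹ * (g * sg b J * g⁻¹) = 1 := by
    calc _ = g * (sg b J * sg b J) * g⁻¹ := by group
      _ = 1 := by rw [sg_sq]; group
  obtain ⟨p, q, hpq⟩ : ∃ p q : ι, p ≠ q := Fintype.exists_pair_of_one_lt_card (by omega)
  have key : ∀ a, a ≠ p → a ≠ q → g⁻¹ * (pm b (Equiv.swap p q) * sg b {a}) * g ∈ Mon b := by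
    intro a hap haq
    set t := pm b (Equiv.swap p q) * sg b {a} with ht
    have htb : ∀ i, t (b i) = (if i = a then -1 else 1 : F) • b (Equiv.swap p q i) := fun i => by
      rw [ht, le_mul_apply, sg_b]
      by_cases h : i = a <;> simp [h, pm_b]
    have htM : t ∈ M := R.mem t (Equiv.swap p q) (fun i => if i = a then -1 else 1)
      (fun i => by split_ifs <;> [exact R.neg; exact C.one_mem])
      (fun i => by rw [htb]; split_ifs <;> simp) (mem_SLV.2 (by
        rw [ht, LinearEquiv.coe_toLinearMap_mul, map_mul, det_pm_swap b hpq, sg, det_dg,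
          Finset.prod_ite_mem]; simp))
    have htm : t ∈ Mon b := mem_Mon.2 ⟨_, _, htb⟩
    have htt : t * t = 1 := b.ext' fun i => by
      rw [le_mul_apply, htb, map_smul, htb, Equiv.swap_apply_self, smul_smul]
      have : Equiv.swap p q i = a ↔ i = a := by
        rw [Equiv.swap_apply_eq_iff, Equiv.swap_apply_of_ne_of_ne hap haq]
      by_cases h : i = a <;> simp [h, this, Equiv.swap_apply_of_ne_of_ne hap haq]
    clear_value t
    have hρ : ∀ k : ℕ, (g * sg b J * g⁻¹ * t) ^ k ∈ M := fun k => M.pow_mem (M.mul_mem hs htM) k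
    rcases dihedral hss htt (isOfFinOrder_le _) with ⟨k, -, h, -⟩ | ⟨k, j, h1, h0, h3, h4, h5⟩
    · exfalso
      generalize hr : (g * sg b J * g⁻¹ * t) ^ k = r at h
      have h1 : r⁻¹ * g * sg b J * (r⁻¹ * g)⁻¹ = t := by
        calc _ = r⁻¹ * (g * sg b J * g⁻¹) * r := by group
          _ = _ := by rw [← h]; group
      obtain ⟨J', -, h4⟩ := hT _ (M.mul_mem (M.inv_mem (hr ▸ hρ k)) hg) (h1 ▸ htm)
      have h5 := congrArg (fun g : V ≃ₗ[F] V => b.coord q (g (b p))) (h1.symm.trans h4)
      simp only [htb, coord_sg, coord_ne b hpq.symm] at h5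
      simp [hap.symm] at h5
    have hw := hρ k
    have hr := hρ j
    generalize (g * sg b J * g⁻¹ * t) ^ k = w at *
    generalize (g * sg b J * g⁻¹ * t) ^ j = r at *
    rcases h5 with h5 | h5
    · have h6 : Commute (g⁻¹ * w * g) (sg b J) := by
        have : sg b J = g⁻¹ * (g * sg b J * g⁻¹) * g := by group
        rw [this]
        simpa using h3.conj g⁻¹
      have h7 := R.mem_of_commute h2 hC (by omega) (M.mul_mem (M.mul_mem (M.inv_mem hg) hw) hg)
        (by omega) (by omega) h6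
      have h8 : g⁻¹ * r * g * sg b J * (g⁻¹ * r * g)⁻¹ = g⁻¹ * w * g * sg b J := by
        calc _ = g⁻¹ * (r * (g * sg b J * g⁻¹) * r⁻¹) * g := by group
          _ = _ := by rw [← h5]; group
      obtain ⟨J', h9, h10⟩ := hT _ (M.mul_mem (M.mul_mem (M.inv_mem hg) hr) hg)
        (h8 ▸ (Mon b).mul_mem h7 (sg_mem_Mon J))
      have h11 : g⁻¹ * w * g = sg b (J' ∆ J) := by
        rw [← sg_mul, ← h10, h8, mul_assoc _ (sg b J), sg_sq, mul_one]
      refine R.mem_of_commute h2 hC (by omega) (M.mul_mem (M.mul_mem (M.inv_mem hg) htM) hg)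
        (I := J' ∆ J) (Finset.card_pos.2 (Finset.nonempty_iff_ne_empty.2 fun h => h1 ?_)) ?_ ?_
      · rw [h, sg_empty] at h11
        calc w = g * (g⁻¹ * w * g) * g⁻¹ := by group
          _ = 1 := by rw [h11]; group
      · have := Finset.card_le_card (Finset.symmDiff_subset_union (s := J') (t := J))
        have := Finset.card_union_le J' J
        omega
      · rw [← h11]
        simpa using h4.symm.conj g⁻¹
    · exfalso
      have h7 := R.mem_of_commute_sw h2 hC hn hw htb (A := {a}) (by simp) (by simpa using hap.symm) (by simpa using haq.symm)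
        (by simp) h4
      have h8 : r * g * sg b J * (r * g)⁻¹ = w * t := by rw [h5]; group
      obtain ⟨J', h9, h10⟩ := hT _ (M.mul_mem hr hg) (h8 ▸ (Mon b).mul_mem h7 htm)
      have h11 : w = sg b J' * t := by rw [← h10, h8, mul_assoc, htt, mul_one]
      have h12 : ∀ i, w (b i) = ((if i = a then -1 else 1) *
          if Equiv.swap p q i ∈ J' then -1 else 1 : F) • b (Equiv.swap p q i) := fun i => by
        rw [h11, le_mul_apply, htb, map_smul, sg_b]
        split_ifs <;> simp
      have h13 : p ∈ J' ↔ q ∈ J' := by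
        have := congrArg (fun g : V ≃ₗ[F] V => b.coord p (g (b p))) h0
        simp only [le_mul_apply, h12, map_smul, Equiv.swap_apply_left, Equiv.swap_apply_right,
          if_neg hap.symm, if_neg haq.symm, LinearEquiv.coe_one, id, coord_self] at this
        by_contra hc
        by_cases h : p ∈ J'
        · simp [h, show q ∉ J' by tauto] at this
          exact h2 (by linear_combination -this)
        · simp [h, show q ∈ J' by tauto] at this
          exact h2 (by linear_combination -this)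
      refine hg' (R.mem_of_conj h2 hC (by omega) hg hJ (R.mem_of_commute_sw h2 hC hn hs h12
        (A := (J' \ {p, q}) ∆ {a}) ?_
        (by simp [Finset.mem_symmDiff, hap.symm]) (by simp [Finset.mem_symmDiff, haq.symm])
        (fun i hip hiq => ?_) h3.symm))
      · by_cases h : p ∈ J'
        · have : J' = {p, q} := (Finset.eq_of_subset_of_card_le (by
            intro i; simp only [Finset.mem_insert, Finset.mem_singleton]
            rintro (rfl | rfl) <;> tauto) (by rw [h9, Finset.card_pair hpq])).symm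
          simp [this, symmDiff]
        · rw [Finset.sdiff_eq_self_of_disjoint (by simp [h, show q ∉ J' by tauto])]
          by_cases ha : a ∈ J'
          · left
            rw [symmDiff_of_ge (by simpa using ha), Finset.card_sdiff_of_subset (by simpa using ha), h9]
            simp
          · right
            rw [(Finset.disjoint_singleton_right.2 ha).symmDiff_eq_sup, Finset.sup_eq_union,
              Finset.card_union_of_disjoint (Finset.disjoint_singleton_right.2 ha), h9]
            simp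
      · rw [Equiv.swap_apply_of_ne_of_ne hip hiq]
        by_cases h : i = a <;> by_cases h' : i ∈ J' <;> simp_all [Finset.mem_symmDiff]
  obtain ⟨a, ha⟩ := exists_notMem_of_card (S := {p, q})
    (by have := Finset.card_le_two (a := p) (b := q); omega)
  obtain ⟨a', ha'⟩ := exists_notMem_of_card (S := {a, p, q})
    (by have := Finset.card_le_three (a := a) (b := p) (c := q); omega)
  simp only [Finset.mem_insert, Finset.mem_singleton, not_or] at ha ha'
  have h3 := (Mon b).mul_mem ((Mon b).inv_mem (key a ha.1 ha.2)) (key a' ha'.2.1 ha'.2.2)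
  refine hg' ((Mon b).inv_mem_iff.1 (R.mem_of_conj h2 hC (by omega) (M.inv_mem hg)
    (Finset.card_pair (Ne.symm ha'.1)) ?_))
  have h4 : ({a, a'} : Finset ι) = {a} ∆ {a'} := by
    rw [(Finset.disjoint_singleton.2 (Ne.symm ha'.1)).symmDiff_eq_sup]; rfl
  convert h3 using 1
  rw [h4, ← sg_mul, ← inv_eq_of_mul_eq_one_right (sg_sq {a})]
  simp only [mul_inv_rev, inv_inv, inv_eq_of_mul_eq_one_right (sg_sq {a})]
  group

end Fr

end H98
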