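import Mathlib
import Cfsg.Agent.Base
import Cfsg.Agent.Lib.Imprim.FrameOdd

/-!
Adjoining the homologies of a frame point; small torus elements; bases of frames.
-/

set_option autoImplicit false
set_option linter.unusedSectionVars false

namespace H98

open Module Cfsg H28 H97

variable {F V : Type*} [Field F] [AddCommGroup V] [Module F V] [FiniteDimensional F V]
  {ι : Type*} [Fintype ι] [DecidableEq ι] {b : Basis ι F V} {C : Subgroup Fˣ}
  {M : Subgroup (V ≃ₗ[F] V)}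

theorem exists_ne_four {α : Type*} (h : 5 ≤ Nat.card α) (a b c d : α) :
    ∃ x, x ≠ a ∧ x ≠ b ∧ x ≠ c ∧ x ≠ d := by
  classical
  have := Nat.finite_of_card_ne_zero (α := α) (by omega)
  have := Fintype.ofFinite α
  obtain ⟨x, hx⟩ := exists_notMem_of_card (S := ({a, b, c, d} : Finset α)) (by
    have := Finset.card_le_four (a := a) (b := b) (c := c) (d := d)
    rw [← Nat.card_eq_fintype_card]; omega)
  exact ⟨x, by simpa using hx⟩

theorem exists_ne_three {α : Type*} (h : 4 ≤ Nat.card α) (a b c : α) :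
    ∃ x, x ≠ a ∧ x ≠ b ∧ x ≠ c := by
  classical
  have := Nat.finite_of_card_ne_zero (α := α) (by omega)
  have := Fintype.ofFinite α
  obtain ⟨x, hx⟩ := exists_notMem_of_card (S := ({a, b, c} : Finset α)) (by
    have := Finset.card_le_three (a := a) (b := b) (c := c)
    rw [← Nat.card_eq_fintype_card]; omega)
  exact ⟨x, by simpa using hx⟩

theorem exists_ne_five {α : Type*} (h : 6 ≤ Nat.card α) (a b c d e : α) :
    ∃ x, x ≠ a ∧ x ≠ b ∧ x ≠ c ∧ x ≠ d ∧ x ≠ e := by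
  classical
  have := Nat.finite_of_card_ne_zero (α := α) (by omega)
  have := Fintype.ofFinite α
  obtain ⟨x, hx⟩ := exists_notMem_of_card (S := ({a, b, c, d, e} : Finset α)) (by
    have := Finset.card_le_five (a := a) (b := b) (c := c) (d := d) (e := e)
    rw [← Nat.card_eq_fintype_card]; omega)
  exact ⟨x, by simpa using hx⟩

variable (b) in
/-- The homologies with centre a basis vector. -/
noncomputable def hm (i : ι) : Fˣ →* (V ≃ₗ[F] V) := (dg b).comp (MonoidHom.mulSingle (fun _ => Fˣ) i)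

theorem hm_eq (i : ι) (t : Fˣ) : hm b i t = dg b (Pi.mulSingle i t) := rfl

theorem hm_apply (i : ι) (t : Fˣ) (v : V) :
    hm b i t v = v + (((t : F) - 1) * b.coord i v) • b i := ext_coord b fun k => by
  rw [hm_eq, coord_dg, map_add, map_smul]
  by_cases h : k = i
  · subst h; simp; ring
  · simp [h, Ne.symm h]

theorem hm_b_ne {i j : ι} (h : i ≠ j) (t : Fˣ) : hm b i t (b j) = b j := by
  rw [hm_apply, coord_ne b h]; simp

theorem det_hm (i : ι) (t : Fˣ) : LinearMap.det (hm b i t : V →ₗ[F] V) = t := by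
  rw [hm_eq, det_dg, prod_mulSingle]

theorem hm_mem_Mon (i : ι) (t : Fˣ) : hm b i t ∈ Mon b := dg_mem_Mon _

theorem hm_mul_mem {i j : ι} {s t : Fˣ} (h : s * t = 1) : hm b i s * hm b j t ∈ Mon b ⊓ SLV F V :=
  ⟨(Mon b).mul_mem (hm_mem_Mon _ _) (hm_mem_Mon _ _), mem_SLV.2 (by
    rw [LinearEquiv.coe_toLinearMap_mul, map_mul, det_hm, det_hm, ← Units.val_mul, h, Units.val_one])⟩

variable (b C M) in
/-- The group obtained from the stabiliser of the `i`-th frame point by adjoining homologies. -/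
def Kx (i : ι) : Subgroup (V ≃ₗ[F] V) where
  carrier := {y | (∀ t, Commute y (hm b i t)) ∧ ∃ t ∈ C, y * hm b i t ∈ M}
  one_mem' := ⟨fun _ => Commute.one_left _, 1, C.one_mem, by simp⟩
  mul_mem' := by
    rintro y y' ⟨h1, s, hs, h2⟩ ⟨h3, t, ht, h4⟩
    refine ⟨fun t => (h1 t).mul_left (h3 t), s * t, C.mul_mem hs ht, ?_⟩
    convert M.mul_mem h2 h4 using 1
    rw [map_mul, mul_assoc y, mul_assoc y, ← mul_assoc y', (h3 s).eq, mul_assoc]
  inv_mem' := by
    rintro y ⟨h1, s, hs, h2⟩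
    refine ⟨fun t => (h1 t).inv_left, s⁻¹, C.inv_mem hs, ?_⟩
    convert M.inv_mem h2 using 1
    rw [map_inv, (h1 s).eq, mul_inv_rev]

theorem mem_of_Kx (hM : M ≤ SLV F V) {i : ι} {y : V ≃ₗ[F] V} (h : y ∈ Kx b C M i)
    (hy : y ∈ SLV F V) : y ∈ M := by
  obtain ⟨-, t, -, h⟩ := h
  have h1 := mem_SLV.1 (((SLV F V).mul_mem_cancel_left hy).1 (hM h))
  rw [det_hm, Units.val_eq_one] at h1
  simpa [h1] using h

theorem has_of_Kx (hM : M ≤ SLV F V) {i : ι} {f : V → V} (h : Has (Kx b C M i) f)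
    (h' : Has (SLV F V) f) : Has M f := by
  obtain ⟨y, hy, e⟩ := h
  exact ⟨y, mem_of_Kx hM hy (h'.mem e), e⟩

theorem mem_Kx_of_zr {x : V ≃ₗ[F] V} (hx : x ∈ M) {i : ι} (h : ∀ k, k ≠ i → Zr b x i k) :
    x ∈ Kx b C M i := by
  refine ⟨fun t => Commute.inv_left_iff.1 (b.ext' fun k => ?_), 1, C.one_mem, by simpa using hx⟩
  have h1 := eq_smul_of_coord (v := x (b i)) fun k hk => (h k hk).1
  have h2 : x⁻¹ (b i) = (b.coord i (x (b i)))⁻¹ • b i := by
    rw [le_inv_apply, LinearEquiv.symm_apply_eq, map_smul]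
    conv_rhs => rw [h1, map_smul, coord_self, smul_eq_mul, mul_one]
    rw [smul_smul, inv_mul_cancel₀ (coef_ne_zero h1), one_smul]
  rw [le_mul_apply, le_mul_apply]
  by_cases hk : k = i
  · subst hk
    rw [hm_eq, dg_b, map_smul, h2, map_smul, dg_b, smul_comm]
  · rw [hm_b_ne (Ne.symm hk), hm_apply, (h k hk).2]; simp

/-- The monomial elements of determinant one with coefficients in `C` lie in `M`. -/
def MonLe (b : Basis ι F V) (C : Subgroup Fˣ) (M : Subgroup (V ≃ₗ[F] V)) : Prop :=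
  ∀ (g : V ≃ₗ[F] V) (τ : Equiv.Perm ι) (c : ι → Fˣ), (∀ i, c i ∈ C) →
    (∀ i, g (b i) = (c i : F) • b (τ i)) → g ∈ SLV F V → g ∈ M

theorem MonLe.dg_mem (R : MonLe b C M) {d : ι → Fˣ} (h : ∀ i, d i ∈ C) (h1 : ∏ i, d i = 1) :
    dg b d ∈ M := R _ 1 d h (dg_b b d) (mem_SLV.2 (by rw [det_dg, h1, Units.val_one]))

theorem MonLe.hm_mem (R : MonLe b C M) {i j : ι} {t : Fˣ} (ht : t ∈ C) :
    hm b i t * hm b j t⁻¹ ∈ M := by
  rw [hm_eq, hm_eq, ← map_mul]
  exact R.dg_mem (fun k => C.mul_mem (mulSingle_mem ht k) (mulSingle_mem (C.inv_mem ht) k))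
    (by simp [Finset.prod_mul_distrib])

theorem MonLe.dg_mem_Kx (R : MonLe b C M) {d : ι → Fˣ} (h : ∀ i, d i ∈ C) (i : ι) :
    dg b d ∈ Kx b C M i := by
  have h1 := C.inv_mem (C.prod_mem (t := Finset.univ) fun i _ => h i)
  refine ⟨fun t => (Commute.all _ _).map (dg b), _, h1, ?_⟩
  rw [hm_eq, ← map_mul]
  exact R.dg_mem (fun k => C.mul_mem (h k) (mulSingle_mem h1 k))
    (by simp only [Pi.mul_apply, Finset.prod_mul_distrib, prod_mulSingle, mul_inv_cancel])

theorem MonLe.swap_mem_Kx (R : MonLe b C M) (neg : -1 ∈ C) {i j k : ι} (hj : j ≠ i) (hk : k ≠ i) :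
    pm b (Equiv.swap j k) ∈ Kx b C M i := by
  by_cases hjk : j = k
  · rw [hjk, Equiv.swap_self]; exact (map_one (pm b)).symm ▸ (Kx b C M i).one_mem
  refine ⟨fun t => b.ext' fun l => ?_, -1, neg, R _ (Equiv.swap j k) (Pi.mulSingle i (-1))
    (mulSingle_mem neg) (fun l => by rw [le_mul_apply, hm_eq, dg_b, map_smul, pm_b]) (mem_SLV.2 ?_)⟩
  · rw [le_mul_apply, le_mul_apply, hm_eq, dg_b, map_smul, pm_b, dg_b]
    congr 2
    by_cases hl : l = i
    · rw [hl, Equiv.swap_apply_of_ne_of_ne hj.symm hk.symm]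
    · rw [Pi.mulSingle_eq_of_ne hl, Pi.mulSingle_eq_of_ne]
      rwa [Ne, Equiv.swap_apply_eq_iff, Equiv.swap_apply_of_ne_of_ne hj.symm hk.symm]
  · rw [LinearEquiv.coe_toLinearMap_mul, map_mul, det_pm_swap b hjk, det_hm]; simp

theorem exists_two_of_notMem_Mon {g : V ≃ₗ[F] V} (hg : g ∉ Mon b) :
    ∃ l i j, i ≠ j ∧ b.coord i (g (b l)) ≠ 0 ∧ b.coord j (g (b l)) ≠ 0 := by
  by_contra hc
  push Not at hc
  refine hg (mem_Mon_of fun l => ?_)
  obtain ⟨i, hi⟩ : ∃ i, b.coord i (g (b l)) ≠ 0 := by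
    by_contra h
    push Not at h
    exact b.ne_zero l ((map_eq_zero_iff g g.injective).1 (ext_coord b fun i => by rw [h, map_zero]))
  exact ⟨i, _, eq_smul_of_coord fun k hk => hc l i k (Ne.symm hk) hi⟩

theorem exists_coord_ne (g : V ≃ₗ[F] V) (k : ι) : ∃ a, b.coord k (g (b a)) ≠ 0 := by
  by_contra hc
  push Not at hc
  have := dual_ext b (φ := b.coord k ∘ₗ (g : V →ₗ[F] V)) (g⁻¹ (b k))
  simp only [LinearMap.comp_apply, LinearEquiv.coe_coe, hc, le_apply_inv, coord_self] at this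
  simp at this

theorem exists_dual_ne {ψ : Dual F V} {u : V} (h : ψ u ≠ 0) :
    ∃ i, b.coord i u ≠ 0 ∧ ψ (b i) ≠ 0 := by
  rw [dual_ext b] at h
  obtain ⟨i, -, hi⟩ := Finset.exists_ne_zero_of_sum_ne_zero h
  exact ⟨i, mul_ne_zero_iff.1 hi⟩

theorem exists_perm_two {i j i' j' : ι} (h : i ≠ j) (h' : i' ≠ j') :
    ∃ τ : Equiv.Perm ι, τ i = i' ∧ τ j = j' := by
  refine ⟨Equiv.swap (Equiv.swap i i' j) j' * Equiv.swap i i', ?_, by simp⟩
  rw [Equiv.Perm.mul_apply, Equiv.swap_apply_left, Equiv.swap_apply_of_ne_of_ne _ h']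
  intro h1
  exact h ((Equiv.swap i i').injective (by rw [← h1, Equiv.swap_apply_left]))

/-- A basis adapted to a decomposition into lines. -/
theorem exists_basis_of_lines {D : ι → Submodule F V} (h : iSupIndep D) (ht : iSup D = ⊤)
    (hd : ∀ i, finrank F (D i) = 1) {x : ι → V} (hx : ∀ i, x i ∈ D i) (hx0 : ∀ i, x i ≠ 0) :
    ∃ b : Basis ι F V, (∀ i, b i = x i) ∧ dstab D = Mon b := by
  have h1 : ∀ i, D i = F ∙ x i := fun i => (Submodule.eq_of_le_of_finrank_le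
    ((Submodule.span_singleton_le_iff_mem _ _).2 (hx i))
    (by rw [hd, finrank_span_singleton (hx0 i)])).symm
  refine ⟨Basis.mk (h.linearIndependent D hx hx0) ?_, fun i => Basis.mk_apply _ _ i, ?_⟩
  · rw [← ht]
    exact iSup_le fun i => (h1 i).le.trans (Submodule.span_mono (by simp))
  · rw [Mon]; congr 1; funext i; rw [Basis.mk_apply, h1]

end H98
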