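import Mathlib
import Cfsg.Agent.Base
import Cfsg.Agent.Lib.Forms.Bridge

/-!
The elements of norm one of a finite field with an involution: pigeonhole lemmas.
-/

set_option autoImplicit false
set_option linter.unusedSectionVars false

namespace H98

open Cfsg H28

variable {F : Type*} [Field F] {σ : F →+* F}

variable (σ) in
/-- The elements of norm one. -/
def Cn : Subgroup Fˣ where
  carrier := {t | σ t * t = 1}
  one_mem' := by simp
  mul_mem' {a b} ha hb := by
    change σ _ * _ = 1 at *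
    rw [Units.val_mul, map_mul, mul_mul_mul_comm, ha, hb, one_mul]
  inv_mem' {a} ha := by
    change σ _ * _ = 1 at *
    rw [Units.val_inv_eq_inv_val, map_inv₀, ← mul_inv, ha, inv_one]

theorem mem_Cn {t : Fˣ} : t ∈ Cn σ ↔ σ t * t = 1 := Iff.rfl

theorem neg_one_mem_Cn : (-1 : Fˣ) ∈ Cn σ := by simp [mem_Cn]

theorem exists_Cn {c : F} (h : σ c * c = 1) : ∃ t ∈ Cn σ, (t : F) = c :=
  ⟨Units.mk0 c (right_ne_zero_of_mul_eq_one h), h, rfl⟩

variable [Fintype F] [DecidableEq F] (hne : σ ≠ RingHom.id F) (hσ : ∀ a, σ (σ a) = a)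

variable (σ) in
/-- The circle as a finite set. -/
def Cf : Finset F := Finset.univ.filter fun c => σ c * c = 1

theorem mem_Cf {c : F} : c ∈ Cf σ ↔ σ c * c = 1 := by simp [Cf]

theorem card_Cf_le : (Cf σ).card ≤ Nat.card (Cn σ) := by
  rw [← Fintype.card_coe, ← Nat.card_eq_fintype_card]
  exact Nat.card_le_card_of_injective (fun c => ⟨Units.mk0 c.1
    (right_ne_zero_of_mul_eq_one (mem_Cf.1 c.2)), mem_Cf.1 c.2⟩) fun c c' h =>
      Subtype.ext (congrArg (fun t : Cn σ => ((t : Fˣ) : F)) h)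

theorem card_img {x y : F} (hσ : ∀ a, σ (σ a) = a) (hx : x ≠ 0) (hy : y ≠ 0) {T : Finset F}
    (hT : T ⊆ Cf σ) : T.card ≤ 2 * (T.image fun c => σ (x + c * y) * (x + c * y)).card := by
  refine Finset.card_le_mul_card_image _ 2 fun a ha => ?_
  obtain ⟨c, hc, rfl⟩ := Finset.mem_image.1 ha
  have h1 : σ x * y ≠ 0 := by simp [hx, hy]
  refine (Finset.card_le_card (t := {c, x * σ c * σ y / (σ x * y)}) fun d hd => ?_).trans
    Finset.card_le_two
  obtain ⟨hd, e⟩ := Finset.mem_filter.1 hd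
  have h2 := mem_Cf.1 (hT hc)
  have h3 := mem_Cf.1 (hT hd)
  simp only [map_add, map_mul] at e
  have h4 : (d - c) * (d * (σ x * y) - x * σ c * σ y) = 0 := by
    linear_combination d * e + (x * σ y + d * σ y * y) * h2 - (x * σ y + d * σ y * y) * h3
  rw [Finset.mem_insert, Finset.mem_singleton, eq_div_iff h1]
  simpa only [mul_eq_zero, sub_eq_zero] using h4

include hne hσ

theorem lt_card_Cf : Nat.card (traceZero σ) < (Cf σ).card := by
  obtain ⟨τ, hτ⟩ := exists_trace_one hne hσ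
  have h1 : ∀ l : traceZero σ, l.1 - τ ≠ 0 := fun l h => by
    have := mem_traceZero.1 l.2
    rw [sub_eq_zero.1 h, hτ] at this
    exact one_ne_zero this
  have h2 : (1 : F) ∈ Cf σ := by simp [mem_Cf]
  rw [← Finset.card_erase_add_one h2, Nat.lt_succ_iff, ← Fintype.card_coe, ← Nat.card_eq_fintype_card]
  refine Nat.card_le_card_of_injective (fun l => ⟨1 + (l.1 - τ)⁻¹, Finset.mem_erase.2
    ⟨by simpa using h1 l, mem_Cf.2 ?_⟩⟩) fun l l' h => Subtype.ext (by simpa using h)
  have h3 := mem_traceZero.1 l.2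
  have h4 := h1 l
  have h5 : σ (l.1 - τ) ≠ 0 := (map_ne_zero σ).2 h4
  rw [map_add, map_one, map_inv₀]
  field_simp
  rw [map_sub]
  linear_combination h3 - hτ

theorem exists_mem_inter {A B : Finset F} (hA : ∀ a ∈ A, σ a = a) (hB : ∀ a ∈ B, σ a = a)
    (h : Nat.card (traceZero σ) < A.card + B.card) : ∃ a ∈ A, a ∈ B := by
  by_contra hc
  push Not at hc
  obtain ⟨a, ha⟩ : ∃ a, σ a ≠ a := by
    by_contra h'
    push Not at h'
    exact hne (RingHom.ext h')
  rw [← Finset.card_union_of_disjoint (Finset.disjoint_left.2 hc), ← Fintype.card_coe,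
    ← Nat.card_eq_fintype_card] at h
  refine absurd (Nat.card_le_card_of_injective (fun x : ↥(A ∪ B) => (⟨(a - σ a) * x.1, ?_⟩ : traceZero σ))
    fun x y h => Subtype.ext (mul_left_cancel₀ (sub_ne_zero.2 ha.symm) (congrArg Subtype.val h)))
    (not_le.2 h)
  rw [mem_traceZero, map_mul, map_sub, hσ, (Finset.mem_union.1 x.2).elim (hA _) (hB _)]
  ring

theorem two_le_card_traceZero : 2 ≤ Nat.card (traceZero σ) := by
  have h1 := card_traceZero_sq hne hσ
  have h2 : 1 < Nat.card F := Finite.one_lt_card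
  by_contra h
  have : Nat.card (traceZero σ) ≤ 1 := by omega
  nlinarith

theorem even_card_traceZero : Even (Nat.card (traceZero σ)) ↔ (2 : F) = 0 := by
  rw [← Nat.even_pow' two_ne_zero, card_traceZero_sq hne hσ, Nat.card_eq_fintype_card,
    Nat.even_iff, ← FiniteField.even_card_iff_char_two]
  exact ⟨fun h => by simpa [h] using ringChar.Nat.cast_ringChar (R := F),
    fun h => ringChar.eq_iff.2 (CharTwo.of_one_ne_zero_of_two_eq_zero one_ne_zero h)⟩

theorem exists_circle_odd (h2 : (2 : F) ≠ 0) {a b s : F} (ha : σ a = a) (hb : σ b = b) (hs : σ s = s)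
    (ha0 : a ≠ 0) (hb0 : b ≠ 0) : ∃ c d : F, σ c * c = 1 ∧ σ d * d = 1 ∧ c ≠ 1 ∧ d ≠ 1 ∧
      σ (c - 1) * (c - 1) * a + σ (d - 1) * (d - 1) * b = s := by
  have h1 := card_img hσ (x := -1) (y := 1) (by simp) one_ne_zero (Finset.erase_subset 1 (Cf σ))
  have h3 := lt_card_Cf hne hσ
  rw [← Finset.card_erase_add_one (show (1 : F) ∈ Cf σ by simp [mem_Cf])] at h3
  have h4 := mt (even_card_traceZero hne hσ).1 h2
  set A := ((Cf σ).erase 1).image fun c => σ (-1 + c * 1) * (-1 + c * 1)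
  have hA : ∀ x ∈ A, σ x = x := fun x hx => by
    obtain ⟨c, -, rfl⟩ := Finset.mem_image.1 hx
    rw [map_mul, hσ, mul_comm]
  obtain ⟨_, h5, h6⟩ := exists_mem_inter hne hσ (A := A.image (· * a)) (B := A.image (s - · * b))
    (by simp +contextual [ha, hA]) (by simp +contextual [hb, hs, hA]) (by
      rw [Finset.card_image_of_injective _ (mul_left_injective₀ ha0),
        Finset.card_image_of_injective _ fun x y h => mul_left_injective₀ hb0 (sub_right_injective h)]
      rw [Nat.even_iff] at h4; omega)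
  simp only [A, Finset.mem_image, Finset.mem_erase, mem_Cf, exists_exists_and_eq_and] at h5 h6
  obtain ⟨c, ⟨c1, c2⟩, rfl⟩ := h5
  obtain ⟨d, ⟨d1, d2⟩, e⟩ := h6
  refine ⟨c, d, c2, d2, c1, d1, ?_⟩
  simp only [map_add, map_sub, map_neg, map_one, mul_one] at e ⊢
  linear_combination -e

theorem card_img_even (h2 : (2 : F) = 0) {x y : F} (hx : x ≠ 0) (hy : y ≠ 0) :
    Nat.card (traceZero σ) + 2 ≤ 2 * ((Cf σ).image fun c => σ (x + c * y) * (x + c * y)).card := by
  have h1 := card_img hσ hx hy (Finset.Subset.refl (Cf σ))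
  have h3 := lt_card_Cf hne hσ
  have h4 := (even_card_traceZero hne hσ).2 h2
  rw [Nat.even_iff] at h4; omega

theorem exists_circle_even (h2 : (2 : F) = 0) {x y x' y' : F} (hx : x ≠ 0) (hy : y ≠ 0) (hx' : x' ≠ 0)
    (hy' : y' ≠ 0) : ∃ c d : F, σ c * c = 1 ∧ σ d * d = 1 ∧ x' + d * y' ≠ 0 ∧
      σ (x + c * y) * (x + c * y) + σ (x' + d * y') * (x' + d * y') = 1 := by
  have h1 := card_img_even hne hσ h2 hx hy
  have h3 := card_img_even hne hσ h2 hx' hy'
  have h4 := Finset.pred_card_le_card_erase (a := 0)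
    (s := (Cf σ).image fun c => σ (x' + c * y') * (x' + c * y'))
  obtain ⟨_, h5, h6⟩ := exists_mem_inter hne hσ
    (A := (Cf σ).image fun c => σ (x + c * y) * (x + c * y))
    (B := (((Cf σ).image fun c => σ (x' + c * y') * (x' + c * y')).erase 0).image (1 - ·))
    (by simp only [Finset.mem_image]; rintro _ ⟨c, -, rfl⟩; rw [map_mul, hσ, mul_comm])
    (by
      simp only [Finset.mem_image, Finset.mem_erase]
      rintro _ ⟨_, ⟨-, c, -, rfl⟩, rfl⟩; rw [map_sub, map_one, map_mul, hσ, mul_comm])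
    (by rw [Finset.card_image_of_injective _ sub_right_injective]; omega)
  simp only [Finset.mem_image, Finset.mem_erase, mem_Cf] at h5 h6
  obtain ⟨c, c1, rfl⟩ := h5
  obtain ⟨_, ⟨d1, d, d2, rfl⟩, e⟩ := h6
  exact ⟨c, d, c1, d2, right_ne_zero_of_mul d1, by linear_combination -e⟩

theorem exists_circle_ne (h2 : (2 : F) = 0) (hq : 3 ≤ Nat.card (traceZero σ)) {x y : F} (hx : x ≠ 0)
    (hy : y ≠ 0) : ∃ c : F, σ c * c = 1 ∧ x + c * y ≠ 0 ∧ σ (x + c * y) * (x + c * y) ≠ 1 := by
  have h1 := card_img_even hne hσ h2 hx hy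
  obtain ⟨_, h5, h6⟩ := Finset.exists_mem_notMem_of_card_lt_card (s := ({0, 1} : Finset F))
    (t := (Cf σ).image fun c => σ (x + c * y) * (x + c * y))
    (by have := Finset.card_le_two (a := (0 : F)) (b := 1); omega)
  obtain ⟨c, hc, rfl⟩ := Finset.mem_image.1 h5
  simp only [Finset.mem_insert, Finset.mem_singleton, not_or] at h6
  exact ⟨c, mem_Cf.1 hc, right_ne_zero_of_mul h6.1, h6.2⟩

theorem norm_eq_one (hq : ¬ 3 ≤ Nat.card (traceZero σ)) {x : F} (hx : x ≠ 0) : σ x * x = 1 := by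
  by_contra h
  have h0 : σ x * x ≠ 0 := by simp [hx]
  obtain ⟨a, h1, h2⟩ := exists_mem_inter hne hσ (A := {0, 1}) (B := {σ x * x}) (by simp)
    (by simp [hσ, mul_comm]) (by simp; omega)
  simp only [Finset.mem_insert, Finset.mem_singleton] at h1 h2
  exact (h2 ▸ h1).elim h0 h

theorem exists_circle_two (a b : F) : ∃ c : F, σ c * c = 1 ∧ c ≠ a ∧ c ≠ b := by
  have h1 := lt_card_Cf hne hσ
  have h2 := two_le_card_traceZero hne hσ
  obtain ⟨c, h5, h6⟩ := Finset.exists_mem_notMem_of_card_lt_card (s := ({a, b} : Finset F)) (t := Cf σ)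
    (by have := Finset.card_le_two (a := a) (b := b); omega)
  exact ⟨c, mem_Cf.1 h5, by simpa using h6⟩

theorem exists_circle_three (hq : 3 ≤ Nat.card (traceZero σ)) (a b d : F) :
    ∃ c : F, σ c * c = 1 ∧ c ≠ a ∧ c ≠ b ∧ c ≠ d := by
  have h1 := lt_card_Cf hne hσ
  obtain ⟨c, h5, h6⟩ := Finset.exists_mem_notMem_of_card_lt_card (s := ({a, b, d} : Finset F))
    (t := Cf σ) (by have := Finset.card_le_three (a := a) (b := b) (c := d); omega)
  exact ⟨c, mem_Cf.1 h5, by simpa using h6⟩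

/-- The circle spans the field additively. -/
theorem eq_top_of_circle (S : AddSubgroup F) (hS : ∀ c, σ c * c = 1 → ∀ s ∈ S, c * s ∈ S) {a : F}
    (ha : a ∈ S) (ha0 : a ≠ 0) (x : F) : x ∈ S := by
  let K : Subring F :=
    { carrier := {r | ∀ s ∈ S, r * s ∈ S}
      mul_mem' := fun {r r'} h h' s hs => by rw [mul_assoc]; exact h _ (h' s hs)
      one_mem' := fun s hs => by rwa [one_mul]
      add_mem' := fun {r r'} h h' s hs => by rw [add_mul]; exact S.add_mem (h s hs) (h' s hs)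
      zero_mem' := fun s _ => by rw [zero_mul]; exact S.zero_mem
      neg_mem' := fun {r} h s hs => by rw [neg_mul]; exact S.neg_mem (h s hs) }
  have h1 := lt_card_Cf hne hσ
  have h2 := card_traceZero_sq hne hσ
  obtain ⟨p, hp, r, hr, hpr, e⟩ := Finset.exists_ne_map_eq_of_card_lt_of_maps_to
    (s := Cf σ ×ˢ Cf σ) (t := Finset.univ) (f := fun p => p.1 + p.2 * (x / a)) (by
      rw [Finset.card_product, Finset.card_univ, ← Nat.card_eq_fintype_card]; nlinarith)
    fun _ _ => Finset.mem_univ _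
  simp only [Finset.mem_product, mem_Cf] at hp hr
  have h3 : p.2 - r.2 ≠ 0 := fun h => hpr (Prod.ext (by simpa [sub_eq_zero.1 h] using e) (sub_eq_zero.1 h))
  have h4 : (r.1 - p.1) * (p.2 - r.2) ^ (Fintype.card F - 2) ∈ K :=
    K.mul_mem (K.sub_mem (hS _ hr.1) (hS _ hp.1)) (K.pow_mem (K.sub_mem (hS _ hp.2) (hS _ hr.2)) _)
  convert h4 a ha using 1
  have h5 := FiniteField.pow_card_sub_one_eq_one _ h3
  have h6 : 1 < Fintype.card F := Fintype.one_lt_card
  rw [show Fintype.card F - 1 = Fintype.card F - 2 + 1 by omega, pow_succ] at h5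
  field_simp at e
  linear_combination (p.2 - r.2) ^ (Fintype.card F - 2) * e - x * h5

end H98
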