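import Mathlib
import Cfsg.Agent.Base
import Cfsg.Agent.Lib.Imprim.FrameK

/-!
The monomial group is maximal in `SL_n(q)` for `q ≥ 5`, `n ≥ 6`.
-/

set_option autoImplicit false
set_option linter.unusedSectionVars false

namespace H98

open Module Cfsg H28 H97

variable {F V : Type*} [Field F] [AddCommGroup V] [Module F V] [FiniteDimensional F V]
  {ι : Type*} [Fintype ι] [DecidableEq ι] {b : Basis ι F V} {M K : Subgroup (V ≃ₗ[F] V)}

theorem monLe_top (h : Mon b ⊓ SLV F V ≤ M) : MonLe b ⊤ M :=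
  fun _ τ _ _ e hg => h ⟨mem_Mon.2 ⟨τ, _, e⟩, hg⟩

theorem exists_ne_two (h : 3 ≤ Fintype.card ι) (i j : ι) : ∃ k, k ≠ i ∧ k ≠ j := by
  obtain ⟨k, hk⟩ := exists_notMem_of_card (S := {i, j})
    (by have := Finset.card_le_two (a := i) (b := j); omega)
  exact ⟨k, by simpa using hk⟩

theorem SLV_le_of_elem (hM : Mon b ⊓ SLV F V ≤ M) (hn : 3 ≤ Fintype.card ι) {i j : ι} (hij : i ≠ j)
    {c : F} (hc : c ≠ 0) (h : HasT M (b i) (c • b.coord j)) : SLV F V ≤ M := by
  refine SLV_le_of_basis b fun i' j' hij' c' => ?_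
  by_cases hc' : c' = 0
  · rw [hc', zero_smul]; exact hasT_zero_right _
  obtain ⟨τ, rfl, rfl⟩ := exists_perm_two hij hij'
  obtain ⟨k, hki, hkj⟩ := exists_ne_two hn i j
  let t := Units.mk0 _ (div_ne_zero hc' hc)
  have hm : pm b τ * hm b i t * hm b k (LinearEquiv.det (pm b τ) * t)⁻¹ ∈ M :=
    hM ⟨(Mon b).mul_mem ((Mon b).mul_mem (pm_mem_Mon _) (hm_mem_Mon _ _)) (hm_mem_Mon _ _), by
      have : ∀ i t, LinearEquiv.det (hm b i t) = t := fun i t => Units.ext (by
        rw [LinearEquiv.coe_det, det_hm])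
      exact MonoidHom.mem_ker.2 (by rw [map_mul, map_mul, this, this, mul_inv_cancel])⟩
  generalize (LinearEquiv.det (pm b τ) * t)⁻¹ = s at hm
  have := h.conj' (ψ := c • b.coord (τ j)) hm fun x => by
    have := coord_mon (b := b) (m := pm b τ) (c := fun _ => 1) (fun i => by rw [pm_b, one_smul]) j
    simp [le_mul_apply, hm_apply, -Basis.coord_apply, this, coord_ne b hij.symm, coord_ne b hkj.symm]
  rw [le_mul_apply, le_mul_apply, hm_b_ne hki, hm_eq, dg_b, map_smul, pm_b, hasT_smul_iff,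
    smul_smul] at this
  simpa [t, hc] using this

variable (K) in
/-- `K` contains the homologies with given centre and axis. -/
def Hm (u : V) (ψ : Dual F V) : Prop := ψ u = 1 ∧ ∀ μ : F, μ ≠ 0 → HasT K u ((μ - 1) • ψ)

theorem Hm.conj {u : V} {ψ ψ' : Dual F V} (h : Hm K u ψ) {g : V ≃ₗ[F] V} (hg : g ∈ K)
    (e : ∀ x, ψ' (g x) = ψ x) : Hm K (g u) ψ' :=
  ⟨by rw [e, h.1], fun μ hμ => (h.2 μ hμ).conj' hg fun x => by simp [e]⟩

theorem Hm.apply {u u' : V} {ψ ψ' : Dual F V} (h : Hm K u ψ) (h' : Hm K u' ψ') {μ : F} (hμ : μ ≠ 0) :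
    Hm K (u + ((μ - 1) * ψ' u) • u') (ψ + ((μ⁻¹ - 1) * ψ u') • ψ') := by
  obtain ⟨g, hg, e⟩ := (h'.2 μ hμ).elim
  have := h.conj (ψ' := ψ + ((μ⁻¹ - 1) * ψ u') • ψ') hg fun x => by
    simp [e, h'.1]; field_simp; ring
  rwa [e] at this

theorem Hm.left {u u' : V} {ψ : Dual F V} (h : Hm K u ψ) (h' : Hm K u' ψ) :
    HasT K (u - u') ((2 : F) • ψ) :=
  (Has.comp (h.2 (-1) (by simp)) (h'.2 (-1) (by simp))).congr fun x => by
    simp only [map_add, map_smul, LinearMap.smul_apply, h'.1, smul_eq_mul]; module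

theorem Hm.right {u : V} {ψ ψ' : Dual F V} (h : Hm K u ψ) (h' : Hm K u ψ') :
    HasT K u ((2 : F) • (ψ' - ψ)) :=
  (Has.comp (h.2 (-1) (by simp)) (h'.2 (-1) (by simp))).congr fun x => by
    simp only [map_add, map_smul, LinearMap.smul_apply, h.1, smul_eq_mul, LinearMap.sub_apply]; module

variable (b K) in
/-- `K` contains an elementary transvection. -/
def Tg : Prop := ∃ (i j : ι) (c : F), i ≠ j ∧ c ≠ 0 ∧ HasT K (b i) (c • b.coord j)

section Odd

variable (h2 : (2 : F) ≠ 0) (hd : ∀ d, dg b d ∈ K)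
include h2 hd

theorem tg_of_b {i j : ι} {ψ : Dual F V} (h : HasT K (b i) ψ) (hi : ψ (b i) = 0) (hj : ψ (b j) ≠ 0) :
    Tg b K := by
  have hij : i ≠ j := by rintro rfl; exact hj hi
  have h1 := h.conj' (ψ := ψ - (2 * ψ (b j)) • b.coord j) (hd (Pi.mulSingle j (-1))) fun x => by
    simp [← hm_eq, hm_apply]; ring
  rw [← hm_eq, hm_b_ne hij.symm] at h1
  exact ⟨i, j, 2 * ψ (b j), hij, mul_ne_zero h2 hj, by
    simpa using h.sub_right h1 hi (by simp [hi, hij])⟩

theorem tg_of_coord {i j : ι} {u : V} {c : F} (hc : c ≠ 0) (h : HasT K u (c • b.coord i))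
    (hi : b.coord i u = 0) (hj : b.coord j u ≠ 0) : Tg b K := by
  have hij : i ≠ j := by rintro rfl; exact hj hi
  have h1 := h.conj' (ψ := c • b.coord i) (hd (Pi.mulSingle j (-1))) fun x => by
    simp [coord_dg, -Basis.coord_apply, hij]
  have h3 := h.sub_left h1 (by simp [coord_dg, -Basis.coord_apply, hi])
  rw [← hm_eq, hm_apply, sub_add_cancel_left, ← neg_smul, hasT_smul_iff, smul_smul] at h3
  refine ⟨j, i, _, hij.symm, ?_, h3⟩
  simp only [Units.val_neg, Units.val_one, ne_eq, mul_eq_zero, neg_eq_zero, hc, hj, or_false]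
  exact fun h => h2 (by linear_combination -h)

theorem Hm.tg_left {u : V} {ψ : Dual F V} (h : Hm K u ψ) {i : ι} (hu : b.coord i u ≠ 0)
    (hψ : ψ (b i) = 0) : Tg b K := by
  have h1 := (h.conj (ψ' := ψ) (hd (Pi.mulSingle i (-1))) fun x => by
    simp [← hm_eq, hm_apply, hψ]).left h
  rw [← hm_eq, hm_apply, add_sub_cancel_left, hasT_smul_iff] at h1
  obtain ⟨j, -, hj⟩ := exists_dual_ne (b := b) (h.1 ▸ one_ne_zero : ψ u ≠ 0)
  refine tg_of_b h2 hd h1 (by simp [hψ]) (j := j) ?_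
  simp only [Units.val_neg, Units.val_one, ne_eq, mul_eq_zero, hu, hj, h2, or_false,
    LinearMap.smul_apply, smul_eq_mul]
  exact fun h => h2 (by linear_combination -h)

theorem Hm.tg_right {u : V} {ψ : Dual F V} (h : Hm K u ψ) {i : ι} (hu : b.coord i u = 0)
    (hψ : ψ (b i) ≠ 0) : Tg b K := by
  have h1 := h.conj (ψ' := ψ - (2 * ψ (b i)) • b.coord i) (hd (Pi.mulSingle i (-1))) fun x => by
    simp [← hm_eq, hm_apply]; ring
  rw [← hm_eq, hm_apply, hu, mul_zero, zero_smul, add_zero] at h1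
  have h3 := h1.right h
  rw [sub_sub_cancel, smul_smul] at h3
  obtain ⟨j, hj, -⟩ := exists_dual_ne (b := b) (h.1 ▸ one_ne_zero : ψ u ≠ 0)
  exact tg_of_coord h2 hd (by simp [h2, hψ]) h3 hu hj

omit h2 hd in
theorem dual_dg_ite (ψ : Dual F V) (u : V) (I : Finset ι) (l : Fˣ) :
    ψ (dg b (fun i => if i ∈ I then l else 1) u) =
      ψ u + ((l : F) - 1) * ∑ i ∈ I, b.coord i u * ψ (b i) := by
  rw [dual_ext b, dual_ext b u, Finset.mul_sum, ← Finset.sum_ite_mem_eq I, ← Finset.sum_add_distrib]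
  refine Finset.sum_congr rfl fun i _ => ?_
  rw [coord_dg]
  split_ifs
  · ring
  · simp

theorem Hm.tg_step (hq : 5 ≤ Nat.card F) {u : V} {ψ : Dual F V} (h : Hm K u ψ) (I : Finset ι) {r : F}
    (hr : ∑ i ∈ I, b.coord i u * ψ (b i) = r) (h0 : r ≠ 0) (h1 : 2 * r ≠ 1) {k : ι} (hk : k ∉ I)
    (hψ : ψ (b k) ≠ 0) : Tg b K := by
  obtain ⟨l, hl0, hl1, hl2, hl3⟩ : ∃ l : F, l ≠ 0 ∧ l ≠ 1 ∧ 1 + (l - 1) * r ≠ 0 ∧
      1 + (l + l⁻¹ - 2) * r ≠ 0 := by
    by_cases h4 : 4 * r = 1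
    · obtain ⟨l, a1, a2, a3, a4⟩ := exists_ne_four hq 0 1 (-1) (-3)
      refine ⟨l, a1, a2, fun h => a4 (by linear_combination 4 * h - (l - 1) * h4), fun h => a3 ?_⟩
      have : (l + 1) ^ 2 = 0 := by
        field_simp at h
        linear_combination 4 * h - (l - 1) ^ 2 * h4
      linear_combination pow_eq_zero_iff two_ne_zero |>.1 this
    · exact ⟨-1, by simp, fun h => h2 (by linear_combination -h),
        fun h => h1 (by linear_combination -h), fun h => h4 (by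
          rw [inv_neg, inv_one] at h; linear_combination -h)⟩
  let t := Units.mk0 l hl0
  have h3 := h.conj (ψ' := ψ ∘ₗ (dg b (fun i => if i ∈ I then t⁻¹ else 1) : V →ₗ[F] V))
    (hd fun i => if i ∈ I then t else 1) fun x => by
      rw [LinearMap.comp_apply, LinearEquiv.coe_coe, ← le_mul_apply, ← map_mul]
      have : ((fun i => if i ∈ I then t⁻¹ else 1) * fun i => if i ∈ I then t else 1) = 1 := by
        funext i; by_cases hi : i ∈ I <;> simp [hi]
      rw [this, map_one]; rfl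
  have h4 : (l - 1) * r ≠ 0 := mul_ne_zero (sub_ne_zero.2 hl1) h0
  have h5 := h3.apply h (μ := 1 - (1 + (l - 1) * r)⁻¹) (by
    rw [sub_ne_zero]; intro h; exact h4 (by simpa using inv_eq_one.1 h.symm))
  refine h5.tg_right h2 hd (i := k) ?_ ?_
  · rw [map_add, map_smul, coord_dg, dual_dg_ite, hr, h.1, if_neg hk]
    simp only [t, Units.val_mk0, Units.val_one, smul_eq_mul]
    field_simp; ring
  · simp only [LinearMap.add_apply, LinearMap.smul_apply, LinearMap.comp_apply, LinearEquiv.coe_coe,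
      dual_dg_ite _ u, hr, h.1, dg_b, if_neg hk, t, Units.val_one, one_smul, smul_eq_mul,
      Units.val_inv_eq_inv_val, Units.val_mk0]
    intro h6
    refine mul_ne_zero hψ hl3 ?_
    rw [← mul_eq_zero_iff_left (inv_ne_zero h4), ← h6]
    have : 1 - (1 + (l - 1) * r)⁻¹ = (l - 1) * r / (1 + (l - 1) * r) := by field_simp; ring
    rw [this]
    field_simp; ring

theorem Hm.tg (hq : 5 ≤ Nat.card F) (hn : 4 ≤ Fintype.card ι) {i0 : ι}
    (hs : ∀ j k, j ≠ i0 → k ≠ i0 → pm b (Equiv.swap j k) ∈ K) {u : V} {ψ : Dual F V} (h : Hm K u ψ)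
    (h0 : b.coord i0 u = 0) {i j : ι} (hij : i ≠ j) (hi : b.coord i u ≠ 0) (hj : b.coord j u ≠ 0) :
    Tg b K := by
  by_contra hc
  have h1 : ∀ a, b.coord a u ≠ 0 → ψ (b a) ≠ 0 := fun a ha h' => hc (h.tg_left h2 hd ha h')
  have h3 : ∀ i j, i ≠ j → b.coord i u ≠ 0 → b.coord j u ≠ 0 → 2 * (b.coord i u * ψ (b i)) = 1 :=
    fun i j hij hi hj => by
      by_contra h3
      exact hc (h.tg_step h2 hd hq {i} (Finset.sum_singleton _ _) (mul_ne_zero hi (h1 i hi)) h3
        (by simpa using hij.symm) (h1 j hj))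
  have h4 := h3 i j hij hi hj
  have h5 := h3 j i hij.symm hj hi
  obtain ⟨k, hk⟩ := exists_notMem_of_card (S := {i, j, i0})
    (by have := Finset.card_le_three (a := i) (b := j) (c := i0); omega)
  simp only [Finset.mem_insert, Finset.mem_singleton, not_or] at hk
  have h6 : ψ (b k) = 0 := by
    by_contra h6
    refine hc (h.tg_step h2 hd hq {i, j} (r := 1) ?_ one_ne_zero
      (fun h => one_ne_zero (α := F) (by linear_combination h)) (by simp [hk.1, hk.2.1]) h6)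
    rw [Finset.sum_pair hij]
    exact mul_left_cancel₀ h2 (by linear_combination h4 + h5)
  have h7 : b.coord k u = 0 := by_contra fun h7 => h1 k h7 h6
  have hj0 : j ≠ i0 := by rintro rfl; exact hj h0
  obtain ⟨l, a1, a2, a3, -⟩ := exists_ne_four hq 0 1 (-1) 0
  have h8 := h.apply (h.conj (ψ' := ψ ∘ₗ (pm b (Equiv.swap j k) : V →ₗ[F] V)) (hs j k hj0 hk.2.2)
    fun x => by
      rw [LinearMap.comp_apply, LinearEquiv.coe_coe, ← le_mul_apply, ← map_mul, Equiv.swap_mul_self,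
        map_one]; rfl) a1
  have h9 : ψ (pm b (Equiv.swap j k) u) = 2⁻¹ := by
    rw [pm_swap_apply, map_add, map_smul, map_sub, h6, h.1, LinearMap.sub_apply, h7]
    field_simp
    linear_combination -h5
  have h10 : b.coord k (pm b (Equiv.swap j k) u) = b.coord j u := by
    simp [pm_swap_apply, -Basis.coord_apply, coord_self, coord_ne b hk.2.1]
  refine hc (h8.tg_step h2 hd hq {k} (r := (l - 1) * (l⁻¹ - 1) * 2⁻¹ * 2⁻¹ * 2⁻¹) ?_ ?_ ?_ (k := j)
    (by simpa using Ne.symm hk.2.1) ?_)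
  · simp only [Finset.sum_singleton, map_add, map_smul, h7, h10, LinearMap.add_apply,
      LinearMap.smul_apply, LinearMap.comp_apply, LinearEquiv.coe_coe, h9, h6, pm_b,
      Equiv.swap_apply_right, smul_eq_mul]
    field_simp
    linear_combination (l - 1) * (1 - l) * h5
  · simp [h2, sub_eq_zero, a2]
  · intro h
    have : (l + 1) ^ 2 = 0 := by
      field_simp at h
      linear_combination -h
    exact a3 (by linear_combination pow_eq_zero_iff two_ne_zero |>.1 this)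
  · simpa [pm_b, h6] using h1 j hj

end Odd

theorem SLV_le_odd [Finite F] (h2 : (2 : F) ≠ 0) (hq : 5 ≤ Nat.card F) (hn : 6 ≤ Fintype.card ι)
    (hM : Mon b ⊓ SLV F V ≤ M) (hM' : M ≤ SLV F V) (h : ¬ M ≤ Mon b) : SLV F V ≤ M := by
  by_contra hc
  have R := monLe_top hM
  refine h (Fr.le_Mon_of_odd (C := ⊤) ⟨R, trivial, fun x hx i hz => ?_⟩ h2 ?_ hn)
  · by_contra hx'
    obtain ⟨l, j, k, hjk, hj, hk⟩ := exists_two_of_notMem_Mon hx'
    have hd : ∀ d, dg b d ∈ Kx b ⊤ M i := fun d => R.dg_mem_Kx (fun _ => trivial) i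
    have hl : l ≠ i := by
      rintro rfl
      by_cases h : j = l
      · exact hk (hz k (h ▸ hjk.symm)).1
      · exact hj (hz j h).1
    have h1 : Hm (Kx b ⊤ M i) (b l) (b.coord l) := ⟨coord_self b l, fun μ hμ =>
      ⟨_, hd (Pi.mulSingle l (Units.mk0 μ hμ)), fun x => by rw [← hm_eq, hm_apply]; rfl⟩⟩
    have hx1 := mem_Kx_of_zr (C := ⊤) hx hz
    obtain ⟨p, q, c, hpq, hc0, h3⟩ := (h1.conj (ψ' := b.coord l ∘ₗ ((x⁻¹ : V ≃ₗ[F] V) : V →ₗ[F] V))
      hx1 fun y => by simp).tg h2 hd hq (by omega) (i0 := i)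
        (fun j k => R.swap_mem_Kx trivial) (by
          have := congrArg (fun g : V ≃ₗ[F] V => b.coord i (g (b l))) (hx1.1 (-1)).eq
          simp only [le_mul_apply, hm_b_ne hl.symm] at this
          rw [hm_eq, coord_dg] at this
          exact eq_zero_of_eq_neg h2 (by simpa using this)) hjk hj hk
    exact hc (SLV_le_of_elem hM (by omega) hpq hc0
      (has_of_Kx hM' h3 (hasT_SLV (by simp [hpq]))))
  · rw [Subgroup.card_top, Nat.card_units]; omega

theorem hm2_apply {k l : ι} (hkl : k ≠ l) (s t : Fˣ) (v : V) : (hm b k s * hm b l t) v =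
    v + ((((s : F) - 1) * b.coord k v) • b k + (((t : F) - 1) * b.coord l v) • b l) := by
  rw [le_mul_apply, hm_apply, hm_apply, map_add, map_smul, coord_ne b hkl]; module

theorem SLV_le_of_zero (hM : Mon b ⊓ SLV F V ≤ M) (t : Fˣ) (ht : t ≠ 1) {w : V} {ψ : Dual F V}
    (h : HasT M w ψ) {i k l m : ι} (hkl : k ≠ l) (hkm : k ≠ m) (hlm : l ≠ m) (hk : ψ (b k) = 0)
    (hl : ψ (b l) = 0) (hm' : ψ (b m) = 0) (hw : ψ w = 0) (hw0 : b.coord k w ≠ 0) (hi : ψ (b i) ≠ 0) :
    SLV F V ≤ M := by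
  have ht1 : (t : F) - 1 ≠ 0 := sub_ne_zero.2 (by simpa using ht)
  have key : ∀ w l, HasT M w ψ → ψ w = 0 → k ≠ l → ψ (b l) = 0 → HasT M
      ((((t : F) - 1) * b.coord k w) • b k + ((((t⁻¹ : Fˣ) : F) - 1) * b.coord l w) • b l) ψ :=
    fun w l h hw hkl hl => by
      have := (h.conj' (ψ := ψ) (hM (hm_mul_mem (i := k) (j := l) (mul_inv_cancel t))) fun x => by
        rw [hm2_apply hkl]; simp [hk, hl]).sub_left h hw
      rwa [hm2_apply hkl, add_sub_cancel_left] at this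
  have h1 := key _ m (key w l h hw hkl hl) (by simp [hk, hl]) hkm hm'
  simp only [map_add, map_smul, coord_self, coord_ne b hkl, coord_ne b hkm.symm, coord_ne b hlm.symm,
    smul_zero, add_zero, mul_zero, zero_smul, hasT_smul_iff] at h1
  have hik : i ≠ k := by rintro rfl; exact hi hk
  have hil : i ≠ l := by rintro rfl; exact hi hl
  generalize ha : ((t : F) - 1) * (((t : F) - 1) * b.coord k w) • (1 : F) = a at h1
  have h2 := h1.conj' (ψ := a • ψ + (a * ψ (b i) * (t - 1)) • b.coord i)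
    (hM (hm_mul_mem (i := i) (j := l) (inv_mul_cancel t))) fun x => by
      rw [hm2_apply hil]; simp [hl, hil.symm]; field_simp; ring
  rw [le_mul_apply, hm_b_ne hkl.symm, hm_b_ne hik] at h2
  refine SLV_le_of_elem hM ?_ hik.symm (c := a * ψ (b i) * (t - 1)) 
    (by simp [← ha, ht1, hi, hw0, -Basis.coord_apply]) ?_
  · rw [← Finset.card_univ]
    exact (Finset.card_eq_three.2 ⟨k, l, m, hkl, hkm, hlm, rfl⟩).ge.trans
      (Finset.card_le_card (Finset.subset_univ _))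
  · simpa using h2.sub_right h1 (by simp [hk, hik.symm]) (by simp [hk])

section Even

variable (h2 : (2 : F) = 0)
include h2

theorem hasT_mon {i j : ι} (hij : i ≠ j) {c : F} (hc : c ≠ 0) :
    HasT (Mon b ⊓ SLV F V) (b i + c • b j) (b.coord i + c⁻¹ • b.coord j) := by
  obtain ⟨g, hg, e⟩ := (hasT_SLV (u := b i + c • b j) (φ := b.coord i + c⁻¹ • b.coord j) (by
    simp [hij, hij.symm, hc]; linear_combination h2)).elim
  have h3 : ∀ v : V, v + v = 0 := fun v => by rw [← two_smul F, h2, zero_smul]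
  refine ⟨g, ⟨mem_Mon_of fun k => ?_, hg⟩, e⟩
  by_cases h1 : k = i
  · exact ⟨j, c, by simp [e, h1, hij, ← add_assoc, h3]⟩
  by_cases h4 : k = j
  · refine ⟨i, c⁻¹, ?_⟩
    simp only [e, h4, LinearMap.add_apply, LinearMap.smul_apply, coord_self, coord_ne b hij, smul_add,
      smul_smul, zero_add, smul_eq_mul, mul_one, inv_mul_cancel₀ hc, one_smul]
    rw [add_left_comm, h3, add_zero]
  · exact ⟨k, 1, by simp [e, h1, h4]⟩

theorem SLV_le_of_ne (hM : Mon b ⊓ SLV F V ≤ M) (hq : 5 ≤ Nat.card F) (hn : 5 ≤ Fintype.card ι)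
    {v : V} {χ : Dual F V} (h : HasT M v χ) (hv : χ v = 0) {i j k : ι} (hki : k ≠ i) (hkj : k ≠ j)
    (hi : b.coord i v ≠ 0) (hj : b.coord j v ≠ 0) (hk : b.coord k v ≠ 0)
    (hr : b.coord i v * χ (b i) ≠ b.coord j v * χ (b j)) : SLV F V ≤ M := by
  have hij : i ≠ j := by rintro rfl; exact hr rfl
  have h3 := h.comm ((hasT_mon h2 hij (div_ne_zero hj hi)).mono hM) hv (by
    simp [hij, hij.symm, hi, hj, -Basis.coord_apply, coord_self, coord_ne]; linear_combination h2) (by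
    simp [hi, hj, -Basis.coord_apply]; linear_combination b.coord i v * h2)
  obtain ⟨l, hl⟩ := exists_notMem_of_card (S := {i, j, k})
    (by have := Finset.card_le_three (a := i) (b := j) (c := k); omega)
  obtain ⟨m, hm⟩ := exists_notMem_of_card (S := {i, j, k, l})
    (by have := Finset.card_le_four (a := i) (b := j) (c := k) (d := l); omega)
  simp only [Finset.mem_insert, Finset.mem_singleton, not_or] at hl hm
  obtain ⟨t, t0, t1, -⟩ := exists_ne_four hq 0 1 0 0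
  refine SLV_le_of_zero hM (Units.mk0 t t0) (fun h => t1 (congrArg Units.val h)) h3 (i := i)
    (Ne.symm hl.2.2) (Ne.symm hm.2.2.1) (Ne.symm hm.2.2.2) (by simp [hki, hkj]) (by simp [hl.1, hl.2.1])
    (by simp [hm.1, hm.2.1]) ?_ hk ?_
  · simp [hi, hj, -Basis.coord_apply]
    linear_combination (χ (b i) + b.coord j v / b.coord i v * χ (b j)) * b.coord i v * h2
  · simp only [LinearMap.smul_apply, LinearMap.add_apply, coord_self, coord_ne b hij.symm, map_add,
      map_smul, smul_eq_mul, mul_zero, add_zero, mul_one]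
    intro h0
    field_simp at h0
    exact hr (by linear_combination h0 - b.coord j v * χ (b j) * h2)

theorem SLV_le_even [Finite F] (hq : 5 ≤ Nat.card F) (hn : 6 ≤ Fintype.card ι)
    (hM : Mon b ⊓ SLV F V ≤ M) (h : ¬ M ≤ Mon b) : SLV F V ≤ M := by
  obtain ⟨g, hg, hg'⟩ := SetLike.not_le_iff_exists.1 h
  obtain ⟨v, χ, h, hv, h0, i, j, k, hij, hki, hkj, hi, hj, hk⟩ : ∃ (v : V) (χ : Dual F V),
      HasT M v χ ∧ χ v = 0 ∧ (∃ x, χ x ≠ 0) ∧ ∃ i j k, i ≠ j ∧ k ≠ i ∧ k ≠ j ∧ b.coord i v ≠ 0 ∧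
        b.coord j v ≠ 0 ∧ b.coord k v ≠ 0 := by
    obtain ⟨l, i, j, hij, hi, hj⟩ := exists_two_of_notMem_Mon hg'
    obtain ⟨k, hki, hkj⟩ := exists_ne_two (by omega) i j
    obtain ⟨a, hal, ha⟩ : ∃ a, a ≠ l ∧ (b.coord k (g (b l)) ≠ 0 ∨ b.coord k (g (b a)) ≠ 0) := by
      obtain ⟨a, ha⟩ := exists_coord_ne (b := b) g k
      by_cases hal : a = l
      · obtain ⟨a', ha', -⟩ := exists_ne_two (by omega) l l
        exact ⟨a', ha', Or.inl (hal ▸ ha)⟩
      · exact ⟨a, hal, Or.inr ha⟩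
    obtain ⟨c, c0, c1, c2, c3⟩ := exists_ne_four hq 0 (-b.coord i (g (b l)) / b.coord i (g (b a)))
      (-b.coord j (g (b l)) / b.coord j (g (b a))) (-b.coord k (g (b l)) / b.coord k (g (b a)))
    have key : ∀ x y : F, x ≠ 0 ∨ y ≠ 0 → c ≠ -x / y → x + c * y ≠ 0 := fun x y h1 h3 h4 => by
      by_cases hy : y = 0
      · simp_all
      · exact h3 (by field_simp; linear_combination h4)
    refine ⟨_, _, ((hasT_mon h2 hal.symm c0).mono hM).conj hg, ?_, ⟨g (b l), by simp [hal.symm]⟩,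
      i, j, k, hij, hki, hkj, ?_, ?_, ?_⟩
    · simp [hal, hal.symm, c0]; linear_combination h2
    all_goals rw [map_add, map_add, map_smul, map_smul]
    exacts [key _ _ (Or.inl hi) c1, key _ _ (Or.inl hj) c2, key _ _ ha c3]
  by_contra hc
  have h1 : ∀ p, b.coord p v ≠ 0 → b.coord p v * χ (b p) = b.coord i v * χ (b i) := fun p hp => by
    by_contra h1
    by_cases hpj : p = j
    · exact hc (SLV_le_of_ne h2 hM hq (by omega) h hv (hpj ▸ hkj) hki hp hi hk h1)
    · exact hc (SLV_le_of_ne h2 hM hq (by omega) h hv (Ne.symm hpj) hij.symm hp hi hj h1)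
  obtain ⟨x, x0, x1, -⟩ := exists_ne_four hq 0 1 0 0
  by_cases hr : χ (b i) = 0
  · obtain ⟨_, h0⟩ := h0
    obtain ⟨p, -, hp⟩ := exists_dual_ne (b := b) h0
    have h3 : ∀ p, b.coord p v ≠ 0 → χ (b p) = 0 := fun p hp => by
      simpa [hr, hp, -Basis.coord_apply] using h1 p hp
    exact hc (SLV_le_of_zero hM (Units.mk0 x x0) (fun h => x1 (congrArg Units.val h)) h hij hki.symm
      hkj.symm hr (h3 j hj) (h3 k hk) hv hi hp)
  obtain ⟨p, q, hp, hq', hpq, h3⟩ : ∃ p q, p ∉ ({i, j, k} : Finset ι) ∧ q ∉ ({i, j, k} : Finset ι) ∧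
      p ≠ q ∧ b.coord p v * χ (b p) = b.coord q v * χ (b q) := by
    classical
    obtain ⟨p, hp, q, hq', hpq, h3⟩ := Finset.exists_ne_map_eq_of_card_lt_of_maps_to
      (s := ({i, j, k} : Finset ι)ᶜ) (t := ({0, b.coord i v * χ (b i)} : Finset F))
      (f := fun p => b.coord p v * χ (b p)) (by
        have := Finset.card_le_three (a := i) (b := j) (c := k)
        have := Finset.card_le_two (a := (0 : F)) (b := b.coord i v * χ (b i))
        rw [Finset.card_compl]; omega) fun p _ => by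
        by_cases hp : b.coord p v = 0
        · simp [hp, -Basis.coord_apply]
        · simp [h1 p hp, -Basis.coord_apply]
    exact ⟨p, q, Finset.mem_compl.1 hp, Finset.mem_compl.1 hq', hpq, h3⟩
  simp only [Finset.mem_insert, Finset.mem_singleton, not_or] at hp hq'
  obtain ⟨y, y0, y1, yx, yx1⟩ := exists_ne_four hq 0 1 x (x + 1)
  have z0 : x + y + 1 ≠ 0 := fun h => yx1 (by linear_combination h - (x + 1) * h2)
  obtain ⟨w, hw⟩ : IsSquare (x * y * (x + y + 1))⁻¹ := FiniteField.isSquare_of_char_two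
    ((ringChar.eq_iff.2 (CharTwo.of_one_ne_zero_of_two_eq_zero one_ne_zero h2))) _
  have w0 : w ≠ 0 := by rintro rfl; simp [x0, y0, z0] at hw
  let D : Fˣ → Fˣ → Fˣ → Fˣ → V ≃ₗ[F] V := fun x y z w => hm b i x * hm b j y * hm b k z * hm b p w * hm b q w
  have hD : ∀ x y z w, χ (D x y z w v) = (x + y + z + 1) * (b.coord i v * χ (b i)) := fun x y z w => by
    simp only [D, le_mul_apply, hm_apply, map_add, map_smul, smul_eq_mul, hv, coord_ne b hij,
      coord_ne b hki.symm, coord_ne b hkj.symm, coord_ne b hpq, coord_ne b (Ne.symm hp.1),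
      coord_ne b (Ne.symm hp.2.1), coord_ne b (Ne.symm hp.2.2), coord_ne b (Ne.symm hq'.1),
      coord_ne b (Ne.symm hq'.2.1), coord_ne b (Ne.symm hq'.2.2)]
    linear_combination (y - 1) * h1 j hj + (z - 1) * h1 k hk + (w - 1) * h3 +
      ((w - 1) * (b.coord q v * χ (b q)) - 2 * (b.coord i v * χ (b i))) * h2
  have hD' : ∀ x y z w, (D x y z w)⁻¹ = D x⁻¹ y⁻¹ z⁻¹ w⁻¹ := fun x y z w => by
    simp only [D, hm_eq, ← map_mul, ← map_inv, mul_inv, Pi.mulSingle_inv]
  have hc' : ∀ x y z w a, a ≠ p → a ≠ q → b.coord a (D x y z w v) =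
      (Pi.mulSingle i x * Pi.mulSingle j y * Pi.mulSingle k z : ι → Fˣ) a * b.coord a v :=
    fun x y z w a h1 h3 => by simp [D, hm_eq, ← map_mul, coord_dg, -Basis.coord_apply, h1, h3]
  have hd : D (.mk0 x x0) (.mk0 y y0) (.mk0 _ z0) (.mk0 w w0) ∈ M := by
    simp only [D, hm_eq, ← map_mul]
    refine (monLe_top hM).dg_mem (fun _ => trivial) (Units.ext ?_)
    simp only [Pi.mul_apply, Finset.prod_mul_distrib, prod_mulSingle, Units.val_mul, Units.val_mk0,
      mul_assoc, ← hw, Units.val_one]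
    field_simp
  have h4 : χ (D (.mk0 x x0) (.mk0 y y0) (.mk0 _ z0) (.mk0 w w0) v) = 0 := by
    rw [hD]; simp only [Units.val_mk0]
    linear_combination (x + y + 1) * (b.coord i v * χ (b i)) * h2
  have h5 := (h.conj hd).comm h (by simp [hv]) hv h4
  have h6 : (χ ∘ₗ (((D (.mk0 x x0) (.mk0 y y0) (.mk0 _ z0) (.mk0 w w0))⁻¹ : V ≃ₗ[F] V) : V →ₗ[F] V)) v
      ≠ 0 := by
    rw [LinearMap.comp_apply, LinearEquiv.coe_coe, hD', hD]
    refine mul_ne_zero (fun h => ?_) (mul_ne_zero hi hr)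
    simp only [Units.val_inv_eq_inv_val, Units.val_mk0] at h
    field_simp at h
    refine mul_ne_zero (mul_ne_zero (sub_ne_zero.2 x1) (sub_ne_zero.2 y1)) (sub_ne_zero.2 yx) ?_
    linear_combination h + (-x ^ 2 * y - y ^ 2 - 2 * x * y - x) * h2
  refine hc (SLV_le_of_ne h2 hM hq (by omega) h5 (by simp [h4]) hki hkj ?_ ?_ ?_ ?_)
  · simp [hc' _ _ _ _ i (Ne.symm hp.1) (Ne.symm hq'.1), hi, hij, hki.symm, x0, -Basis.coord_apply]
  · simp [hc' _ _ _ _ j (Ne.symm hp.2.1) (Ne.symm hq'.2.1), hj, hij.symm, hkj.symm, y0,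
      -Basis.coord_apply]
  · simp [hc' _ _ _ _ k (Ne.symm hp.2.2) (Ne.symm hq'.2.2), hk, hki, hkj, z0, -Basis.coord_apply]
  · rw [hc' _ _ _ _ i (Ne.symm hp.1) (Ne.symm hq'.1), hc' _ _ _ _ j (Ne.symm hp.2.1) (Ne.symm hq'.2.1)]
    simp only [LinearMap.smul_apply, smul_eq_mul]
    generalize (χ ∘ₗ _) v = κ at h6
    simp [hij, hij.symm, hki.symm, hkj.symm, -Basis.coord_apply]
    intro h
    refine mul_ne_zero (mul_ne_zero h6 (sub_ne_zero.2 yx)) (mul_ne_zero hi hr) ?_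
    linear_combination -h - y * κ * h1 j hj

end Even

theorem isMaximalIn_Mon_SLV [Finite F] (hq : 5 ≤ Nat.card F) (hn : 6 ≤ Fintype.card ι) :
    Geo.IsMaximalIn (SLV F V) (Mon b ⊓ SLV F V) := by
  refine isMaximalIn_of inf_le_right (fun hle => ?_) fun M h1 h3 ⟨g, hg, hg'⟩ => ?_
  · obtain ⟨i, j, hij⟩ : ∃ p q : ι, p ≠ q := Fintype.exists_pair_of_one_lt_card (by omega)
    obtain ⟨g, hg, e⟩ := (hasT_SLV (u := b j) (φ := b.coord i) (coord_ne b hij)).elim
    simpa [e, hij] using not_two_of_Mon (hle hg).1 i hij (by simp [e, hij.symm])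
  have h4 : ¬ M ≤ Mon b := fun h => hg' ⟨h hg, h3 hg⟩
  by_cases h2 : (2 : F) = 0
  · exact SLV_le_even h2 hq hn h1 h4
  · exact SLV_le_odd h2 hq hn h1 h3 h4

section Matrix

variable {F : Type*} [Field F] [Fintype F]

/-- `GL_1(q) ≀ S_n` in `SL_n(q)`. -/
theorem sl_frame_maximal {n : ℕ} (hn : 6 ≤ n) (hq : 5 ≤ Fintype.card F) {t : ℕ}
    (D : Fin t → Submodule F (Fin n → F)) (hD : Geo.IsMDecomposition 1 D) :
    Geo.IsMaximalIn (Geo.specialLinear (Fin n) F)
      (Geo.decompositionStabilizer D ⊓ Geo.specialLinear (Fin n) F) := by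
  rw [specialLinear_eq, decompositionStabilizer_eq, ← pull_inf]
  choose x hx hx0 using fun i => exists_ne_zero_mem (X := D i) (hD.finrank_eq i).ge
  obtain ⟨b, -, e⟩ := exists_basis_of_lines hD.indep hD.iSup_eq_top hD.finrank_eq hx hx0
  have := finrank_eq_card_basis b
  rw [e]
  refine isMaximalIn_pull (isMaximalIn_Mon_SLV (by rwa [Nat.card_eq_fintype_card]) ?_)
  simp only [finrank_fintype_fun_eq_card, Fintype.card_fin] at this ⊢
  omega

/-- `GL_m(q) ≀ S_t` in `SL_{mt}(q)`. -/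
theorem sl_decomp_maximal {n : ℕ} (hn : 6 ≤ n) {t : ℕ} (m : ℕ)
    (D : Fin t → Submodule F (Fin n → F)) (hD : Geo.IsMDecomposition m D)
    (h1 : ¬ (m = 1 ∧ Fintype.card F ≤ 4)) (h2 : ¬ (m = 2 ∧ Fintype.card F = 2)) :
    Geo.IsMaximalIn (Geo.specialLinear (Fin n) F)
      (Geo.decompositionStabilizer D ⊓ Geo.specialLinear (Fin n) F) := by
  by_cases hm : m = 1
  · subst hm
    exact sl_frame_maximal hn (by omega) D hD
  · exact sl_decomp_maximal_of_two (by omega) m (by have := hD.pos; omega) D hD h2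

end Matrix

end H98
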