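import Mathlib
import Cfsg.Agent.Base
import Cfsg.Agent.Lib.Imprim.FrameSL
import Cfsg.Agent.Lib.Imprim.Circle

/-!
Overgroups of unitary monomial groups: extraction of a root group, odd characteristic.
-/

set_option autoImplicit false
set_option linter.unusedSectionVars false

namespace H98

open Module Cfsg H28 H97

variable {F V : Type*} [Field F] [AddCommGroup V] [Module F V] [FiniteDimensional F V]
  {ι : Type*} [Fintype ι] [DecidableEq ι] {σ : F →+* F} {P : PQ F V σ} {b : Basis ι F V}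
  {M K : Subgroup (V ≃ₗ[F] V)}

variable (P b) in
/-- An orthonormal basis of a unitary space. -/
structure Onb : Prop extends Uni P where
  left : ∀ i v, P.B (b i) v = b.coord i v

/-- The vector parameters of the elements of `X_d` lying in `M`. -/
def Sw (M : Subgroup (V ≃ₗ[F] V)) {d : V} (hd : P.q d ∈ P.Λ) : AddSubgroup V where
  carrier := {w | P.B d w = 0 ∧ ∃ c, c - P.q w ∈ P.Λ ∧ Has M (eu P d w c)}
  zero_mem' := ⟨by simp, 0, by simpa using P.Λ.neg_mem P.q_zero, has_id.congr fun x => (eu_zero d x).symm⟩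
  add_mem' := by
    rintro w w' ⟨hw, c, hc, h1⟩ ⟨hw', c', hc', h2⟩
    exact ⟨by simp [hw, hw'], _, valid_add hc hc', has_eu_add hd hw hw' h1 h2⟩
  neg_mem' := by
    rintro w ⟨hw, c, hc, h1⟩
    exact ⟨by simp [hw], _, valid_neg hc, has_eu_neg hd hw h1⟩

theorem Sw_apply {d w : V} {hd : P.q d ∈ P.Λ} (hw : w ∈ Sw M hd) {g : V ≃ₗ[F] V} (hg : g ∈ M)
    (hg' : g ∈ P.Isom) (e : g d = d) : g w ∈ Sw M hd := by
  obtain ⟨h0, c, hc, h1⟩ := hw
  have := has_eu_conj h1 hg hg'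
  rw [e] at this
  exact ⟨by rw [← e, hg'.1, h0], c, isom_valid hg' hc, this⟩

theorem Sw_comm {d w w' : V} {hd : P.q d ∈ P.Λ} (hw : w ∈ Sw M hd) (hw' : w' ∈ Sw M hd) :
    Has M (eu P d 0 (P.B w w' - P.B w' w)) := by
  obtain ⟨h0, c, -, h1⟩ := hw
  obtain ⟨h0', c', -, h2⟩ := hw'
  have h3 := has_eu_add hd (by simp [h0, h0']) (by simp [h0, h0']) (has_eu_add hd h0 h0' h1 h2)
    (has_eu_neg hd (by simp [h0, h0']) (has_eu_add hd h0' h0 h2 h1))
  convert h3 using 3
  · abel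
  · simp only [map_neg, map_add, LinearMap.add_apply]; ring

variable (P b K) in
/-- `K` contains a suitable element of `X_f` with `f` of weight two. -/
def Ex : Prop := ∃ (i j k : ι) (x y c : F) (w : V), i ≠ j ∧ k ≠ i ∧ k ≠ j ∧ x ≠ 0 ∧
  σ x * x + σ y * y = 0 ∧ P.B (x • b i + y • b j) w = 0 ∧ c - P.q w ∈ P.Λ ∧ b.coord k w ≠ 0 ∧
    Has K (eu P (x • b i + y • b j) w c)

namespace Onb

variable (O : Onb P b)
include O

theorem right (i : ι) (v : V) : P.B v (b i) = σ (b.coord i v) := by rw [← O.symm, O.left]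

theorem B_sum (u v : V) : P.B u v = ∑ i, σ (b.coord i u) * b.coord i v := by
  rw [dual_ext b (φ := P.B u)]
  exact Finset.sum_congr rfl fun i _ => by rw [O.right, mul_comm]

theorem isom {g : V ≃ₗ[F] V} {τ : Equiv.Perm ι} {c : ι → Fˣ} (hc : ∀ i, c i ∈ Cn σ)
    (h : ∀ i, g (b i) = (c i : F) • b (τ i)) : g ∈ P.Isom := O.lmax.mem_isom fun x y => by
  rw [O.B_sum, O.B_sum, ← Equiv.sum_comp τ]
  refine Finset.sum_congr rfl fun i _ => ?_
  rw [coord_mon h, coord_mon h, map_mul]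
  linear_combination σ (b.coord i x) * b.coord i y * mem_Cn.1 (hc i)

theorem monLe (h : Mon b ⊓ EG P ≤ M) : MonLe b (Cn σ) M :=
  fun _ τ _ hc e hg => h ⟨mem_Mon.2 ⟨τ, _, e⟩, O.eg ▸ ⟨O.isom hc e, hg⟩⟩

theorem hm_isom (i : ι) {t : Fˣ} (ht : t ∈ Cn σ) : hm b i t ∈ P.Isom :=
  O.isom (τ := 1) (mulSingle_mem ht) (dg_b b _)

theorem pm_isom (τ : Equiv.Perm ι) : pm b τ ∈ P.Isom :=
  O.isom (c := 1) (τ := τ) (fun _ => (Cn σ).one_mem) fun i => by simp [pm_b]

theorem exists_third {u : V} {i j : ι} (hij : i ≠ j)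
    (h : P.B u u ≠ σ (b.coord i u) * b.coord i u + σ (b.coord j u) * b.coord j u) :
    ∃ k, k ≠ i ∧ k ≠ j ∧ b.coord k u ≠ 0 := by
  by_contra hc
  push Not at hc
  refine h ?_
  rw [O.B_sum, ← Finset.sum_pair (f := fun i => σ (b.coord i u) * b.coord i u) hij]
  exact (Finset.sum_subset (Finset.subset_univ _) fun k _ hk => by
    simp only [Finset.mem_insert, Finset.mem_singleton, not_or] at hk
    rw [hc k hk.1 hk.2, mul_zero]).symm

theorem B_two {i j : ι} (x y : F) (w : V) :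
    P.B (x • b i + y • b j) w = σ x * b.coord i w + σ y * b.coord j w := by
  rw [map_add, LinearMap.add_apply, B_smul_left, B_smul_left, O.left, O.left]

theorem sing_two {i j : ι} (hij : i ≠ j) {x y : F} (h : σ x * x + σ y * y = 0) :
    P.q (x • b i + y • b j) ∈ P.Λ := O.sing_iff.2 (by
  simpa [O.left, hij, hij.symm] using h)

theorem ex_of_diff {u : V} {c : F} (hc0 : c ≠ 0) (hc : σ c * c * P.B u u + c + σ c = 0)
    (h : Has K (P.qrefl c u)) {i j k : ι} (hij : i ≠ j) (hki : k ≠ i) (hkj : k ≠ j)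
    (hi : b.coord i u ≠ 0) (hk : b.coord k u ≠ 0)
    (hn : σ (b.coord i u) * b.coord i u + σ (b.coord j u) * b.coord j u = 0) {t : Fˣ} (ht : t ≠ 1)
    {g : V ≃ₗ[F] V} (hg : g ∈ K) (hg' : g ∈ P.Isom) (e : g u = (hm b i t * hm b j t) u) :
    Ex P b K := by
  have h1 := (h.conj hg).congr (qrefl_conj hg' c u)
  rw [e, hm2_apply hij] at h1
  have h2 : P.B ((((t : F) - 1) * b.coord i u) • b i + (((t : F) - 1) * b.coord j u) • b j) u = 0 := by
    rw [O.B_two, map_mul, map_mul]; linear_combination σ (t - 1) * hn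
  refine ⟨i, j, k, _, _, _, _, hij, hki, hkj, mul_ne_zero (sub_ne_zero.2 (by simpa using ht)) hi, ?_,
    by rw [map_smul, h2, smul_zero], valid_diff (O.valid_iff.2 hc), by simp [O.eps, hc0, hk, -Basis.coord_apply],
    has_eu_of_qrefl h2 (O.valid_iff.2 hc) h h1⟩
  simp only [map_mul]; linear_combination σ (t - 1) * (t - 1) * hn

theorem ex_of_Kx (hM : M ≤ EG P) {i : ι} (h : Ex P b (Kx b (Cn σ) M i)) : Ex P b M := by
  obtain ⟨i, j, k, x, y, c, w, h1, h2, h3, h4, h5, h6, h7, h8, h9⟩ := h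
  exact ⟨i, j, k, x, y, c, w, h1, h2, h3, h4, h5, h6, h7, h8, has_of_Kx (hM.trans EG_le_SLV) h9
    (has_eu_SLV (P.self_eq_zero (O.sing_two h1 h5)) h6 c)⟩

variable [Finite F]

theorem EG_le_of_ex (hn : 5 ≤ Fintype.card ι) (hM : Mon b ⊓ EG P ≤ M) (h : Ex P b M) : EG P ≤ M := by
  classical
  have := Fintype.ofFinite F
  obtain ⟨i, j, k, x, y, c, w, hij, hki, hkj, hx, hxy, h6, h7, hk, h9⟩ := h
  have R := O.monLe hM
  have hf := O.sing_two hij hxy
  have h1 : ∀ k l, k ≠ i → k ≠ j → l ≠ i → l ≠ j → k ≠ l → ∀ t ∈ Cn σ, ∀ w ∈ Sw M hf,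
      w + ((((t : F) - 1) * b.coord k w) • b k + ((((t⁻¹ : Fˣ) : F) - 1) * b.coord l w) • b l) ∈
        Sw M hf := fun k l h1 h2 h3 h4 hkl t ht w hw => by
    rw [← hm2_apply hkl]
    refine Sw_apply hw (R.hm_mem ht) (P.Isom.mul_mem (O.hm_isom k ht) (O.hm_isom l ((Cn σ).inv_mem ht)))
      (by rw [hm2_apply hkl]; simp [h1.symm, h2.symm, h3.symm, h4.symm])
  have h2 : ∀ k l, k ≠ i → k ≠ j → l ≠ i → l ≠ j → k ≠ l → ∀ a : F, a ≠ 0 → a • b k ∈ Sw M hf →
      ∀ a : F, a • b k ∈ Sw M hf := fun k l h2 h3 h4 h5 hkl a ha0 ha =>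
    eq_top_of_circle O.ne P.σσ ((Sw M hf).comap ((smulAddHom F V).flip (b k))) (fun c hc s hs => by
      obtain ⟨t, ht, rfl⟩ := exists_Cn hc
      have := h1 k l h2 h3 h4 h5 hkl t ht _ hs
      change ((t : F) * s) • b k ∈ Sw M hf
      convert this using 1
      simp [hkl, sub_mul, sub_smul]) (a := a) ha ha0
  obtain ⟨l, hl⟩ := exists_notMem_of_card (S := {i, j, k})
    (by have := Finset.card_le_three (a := i) (b := j) (c := k); omega)
  obtain ⟨m, hm'⟩ := exists_notMem_of_card (S := {i, j, k, l})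
    (by have := Finset.card_le_four (a := i) (b := j) (c := k) (d := l); omega)
  simp only [Finset.mem_insert, Finset.mem_singleton, not_or] at hl hm'
  obtain ⟨t, ht, ht1, -⟩ := exists_circle_two O.ne P.σσ 1 1
  obtain ⟨t, ht, rfl⟩ := exists_Cn ht
  have hw : w ∈ Sw M hf := ⟨h6, c, h7, h9⟩
  have h3 := ((Sw M hf).add_mem_cancel_left hw).1 (h1 k l hki hkj hl.1 hl.2.1 (Ne.symm hl.2.2) t ht w hw)
  have h4 := ((Sw M hf).add_mem_cancel_left h3).1
    (h1 k m hki hkj hm'.1 hm'.2.1 (Ne.symm hm'.2.2.1) t ht _ h3)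
  simp only [map_add, map_smul, coord_self, coord_ne b (Ne.symm hl.2.2), coord_ne b hm'.2.2.1,
    coord_ne b hm'.2.2.2, smul_zero, add_zero, mul_zero, zero_smul] at h4
  have h5 := h2 k l hki hkj hl.1 hl.2.1 (Ne.symm hl.2.2) _
    (by simp [sub_eq_zero, ht1, hk, -Basis.coord_apply]) h4
  have hs : ∀ p q, p ≠ q → pm b (Equiv.swap p q) * hm b p (-1) ∈ M ⊓ P.Isom := fun p q hpq =>
    ⟨R _ (Equiv.swap p q) (Pi.mulSingle p (-1)) (mulSingle_mem neg_one_mem_Cn)
      (fun l => by rw [le_mul_apply, hm_eq, dg_b, map_smul, pm_b]) (mem_SLV.2 (by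
        rw [LinearEquiv.coe_toLinearMap_mul, map_mul, det_pm_swap b hpq, det_hm]; simp)),
      P.Isom.mul_mem (O.pm_isom _) (O.hm_isom p neg_one_mem_Cn)⟩
  have h8 : ∀ p, p ≠ i → p ≠ j → ∀ a : F, a • b p ∈ Sw M hf := fun p hpi hpj a => by
    by_cases hpk : p = k
    · exact hpk ▸ h5 a
    have := Sw_apply (h5 a) (hs p k hpk).1 (hs p k hpk).2 (by
      simp [le_mul_apply, hm_b_ne hpi, hm_b_ne hpj, pm_b, Equiv.swap_apply_of_ne_of_ne hpi.symm hki.symm,
        Equiv.swap_apply_of_ne_of_ne hpj.symm hkj.symm])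
    simpa [le_mul_apply, hm_b_ne hpk, pm_b] using this
  have hr : Rt P M (x • b i + y • b j) := rt_of_eu hf fun l hl => by
    obtain ⟨τ, hτ⟩ := O.exists_tr
    convert Sw_comm (h5 1) (h5 (τ * l)) using 3
    simp only [B_smul_left, map_smul, O.left, coord_self, map_mul, map_one, smul_eq_mul]
    linear_combination σ τ * O.mem_lam.1 hl - l * hτ
  have hX : XLe P M (x • b i + y • b j) := xle_of_Sd (hd := hf) (h := hr) fun w hw => by
    rw [← sub_add_cancel w ((b.coord i w / x) • (x • b i + y • b j))]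
    refine AddSubgroup.add_mem _ ?_ (smul_mem_Sd _)
    rw [← sum_coord b (w - _)]
    refine AddSubgroup.sum_mem _ fun p _ => ?_
    by_cases hpi : p = i
    · simp [hpi, hx, hij.symm]
    by_cases hpj : p = j
    · have hy : σ y ≠ 0 := by rintro h; simp [h, hx] at hxy
      have : b.coord j (w - (b.coord i w / x) • (x • b i + y • b j)) = 0 := by
        rw [O.B_two] at hw
        simp only [map_sub, map_add, map_smul, coord_self, coord_ne b hij.symm, smul_eq_mul]
        field_simp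
        apply mul_left_cancel₀ hy
        linear_combination x * hw - b.coord i w * hxy
      rw [hpj, this, zero_smul]; exact AddSubgroup.zero_mem _
    obtain ⟨h1, c, h2, h3⟩ := h8 p hpi hpj (b.coord p (w - (b.coord i w / x) • (x • b i + y • b j)))
    exact mem_Sd h1 h2 h3
  refine EG_le_of_xle O.nd hf (isom_q (hs k j hkj).2 hf) hX (hX.apply (hs k j hkj).1 (hs k j hkj).2) ?_
  simp [O.left, le_mul_apply, hm_b_ne hki, hm_b_ne hkj, pm_b, hx, hij, hki, hkj,
    Equiv.swap_apply_of_ne_of_ne hki.symm hij]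

theorem ex_of_odd (h2 : (2 : F) ≠ 0) (hn : 5 ≤ Fintype.card ι) (hd : ∀ i, ∀ t ∈ Cn σ, hm b i t ∈ K)
    {i0 : ι} (hs : ∀ j k, j ≠ i0 → k ≠ i0 → pm b (Equiv.swap j k) ∈ K) {u : V} (h : Rt P K u)
    (h1 : P.B u u = 1) (h0 : b.coord i0 u = 0) {i j : ι} (hij : i ≠ j) (hi : b.coord i u ≠ 0)
    (hj : b.coord j u ≠ 0) : Ex P b K := by
  classical
  have := Fintype.ofFinite F
  have hi0 : i ≠ i0 := by rintro rfl; exact hi h0
  have hj0 : j ≠ i0 := by rintro rfl; exact hj h0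
  have hN : ∀ x : F, σ (σ x * x) = σ x * x := fun x => by rw [map_mul, P.σσ, mul_comm]
  obtain ⟨x, y, hx, hy, hxy, h⟩ : ∃ x y : F, x ≠ 0 ∧ y ≠ 0 ∧ σ x * x + σ y * y = 1 ∧
      Rt P K (x • b i + y • b j) := by
    obtain ⟨c, d, hc, hd', c1, d1, e⟩ := exists_circle_odd O.ne P.σσ h2 (hN (b.coord i u))
      (hN (b.coord j u)) (map_one σ) (by simpa using hi) (by simpa using hj)
    obtain ⟨s, hs, rfl⟩ := exists_Cn hc
    obtain ⟨t, ht, rfl⟩ := exists_Cn hd'
    have h3 := h.apply (K.mul_mem (hd i s hs) (hd j t ht))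
      (P.Isom.mul_mem (O.hm_isom i hs) (O.hm_isom j ht))
    rw [hm2_apply hij] at h3
    generalize hδ : (((s : F) - 1) * b.coord i u) • b i + (((t : F) - 1) * b.coord j u) • b j = δ at h3
    have h4 : P.B u (u + δ) + σ (P.B u (u + δ)) = 1 := by
      simp only [← hδ, map_add, map_smul, O.right, h1, smul_eq_mul, map_mul, map_sub, map_one, P.σσ] at e ⊢
      linear_combination -e + σ (b.coord i u) * b.coord i u * hc + σ (b.coord j u) * b.coord j u * hd'
    have h5 : P.B u (u + δ) ≠ 0 := fun h => by simp [h] at h4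
    have h6 := h3.qrefl O.nd h (c := -(P.B u (u + δ))⁻¹) (O.valid_iff.2 (by
      have : σ (P.B u (u + δ)) ≠ 0 := (map_ne_zero σ).2 h5
      rw [h1, map_neg, map_inv₀]
      field_simp
      linear_combination -h4))
    rw [neg_mul, inv_mul_cancel₀ h5, neg_smul, one_smul, add_neg_cancel_comm, ← hδ] at h6
    refine ⟨_, _, mul_ne_zero (sub_ne_zero.2 c1) hi, mul_ne_zero (sub_ne_zero.2 d1) hj, ?_, h6⟩
    simp only [map_mul]
    linear_combination e
  obtain ⟨k, hk⟩ := exists_notMem_of_card (S := {i, j, i0})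
    (by have := Finset.card_le_three (a := i) (b := j) (c := i0); omega)
  obtain ⟨l, hl⟩ := exists_notMem_of_card (S := {i, j, k, i0})
    (by have := Finset.card_le_four (a := i) (b := j) (c := k) (d := i0); omega)
  simp only [Finset.mem_insert, Finset.mem_singleton, not_or] at hk hl
  obtain ⟨c, d, hc, hd', c1, d1, e⟩ := exists_circle_odd O.ne P.σσ h2 (hN x) (hN y) (map_zero σ)
    (by simpa using hx) (by simpa using hy)
  have h3 := h.apply (hs j k hj0 hk.2.2) (O.pm_isom _)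
  have h4 := h.apply (hs i l hi0 hl.2.2.2) (O.pm_isom _)
  simp only [map_add, map_smul, pm_b, Equiv.swap_apply_left,
    Equiv.swap_apply_of_ne_of_ne hij (Ne.symm hk.1),
    Equiv.swap_apply_of_ne_of_ne hij.symm (Ne.symm hl.2.1)] at h3 h4
  have v1 : σ (c - 1) * (c - 1) * P.q (x • b i + y • b k) + P.ε * (c - 1) ∈ P.Λ := O.valid_iff.2 (by
    rw [O.B_two]
    simp only [map_add, map_smul, coord_self, coord_ne b hk.1, coord_ne b (Ne.symm hk.1),
      smul_eq_mul, map_sub, map_one]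
    linear_combination (σ c - 1) * (c - 1) * hxy + hc)
  have v2 : σ (d - 1) * (d - 1) * P.q (x • b l + y • b j) + P.ε * (d - 1) ∈ P.Λ := O.valid_iff.2 (by
    rw [O.B_two]
    simp only [map_add, map_smul, coord_self, coord_ne b hl.2.1, coord_ne b (Ne.symm hl.2.1),
      smul_eq_mul, map_sub, map_one]
    linear_combination (σ d - 1) * (d - 1) * hxy + hd')
  have h5 := (h.qrefl O.nd h3 v1).qrefl O.nd h4 v2
  have h6 := (P.qrefl_B v2 _ _).trans (P.qrefl_B v1 (x • b i + y • b j) (x • b i + y • b j))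
  simp only [PQ.qrefl_apply] at h6
  generalize hv : x • b i + y • b j + ((c - 1) * P.B (x • b i + y • b k) (x • b i + y • b j)) •
    (x • b i + y • b k) + ((d - 1) * P.B (x • b l + y • b j) (x • b i + y • b j +
      ((c - 1) * P.B (x • b i + y • b k) (x • b i + y • b j)) • (x • b i + y • b k))) •
        (x • b l + y • b j) = v at h5 h6
  have h7 : P.B v v = 1 := by simpa [h6, O.left, hij, hij.symm] using hxy
  have h8 : b.coord k v = (c - 1) * (σ x * x) * y := by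
    simp [← hv, O.left, Ne.symm hk.1, Ne.symm hk.2.1, hij.symm, hl.2.2.1]
  have h9 : b.coord l v = (d - 1) * (σ y * y) * x := by
    simp [← hv, O.left, Ne.symm hl.1, Ne.symm hl.2.1, hij, Ne.symm hl.2.2.1, hk.2.1]
  have h10 : σ (b.coord k v) * b.coord k v + σ (b.coord l v) * b.coord l v = 0 := by
    simp only [h8, h9, map_mul, P.σσ]
    linear_combination σ x * x * σ y * y * e
  obtain ⟨m, hmk, hml, hm'⟩ := O.exists_third (Ne.symm hl.2.2.1) (by rw [h7, h10]; exact one_ne_zero)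
  have h11 : σ (-2) * (-2) * P.B v v + -2 + σ (-2) = 0 := by
    rw [h7, map_neg, map_ofNat]; ring
  exact O.ex_of_diff (neg_ne_zero.2 h2) h11 (h5 _ (O.valid_iff.2 h11)) (Ne.symm hl.2.2.1) hmk hml
    (by simp [h8, sub_eq_zero, c1, hx, hy]) hm' h10 (neg_one_ne h2)
    (K.mul_mem (hd k _ neg_one_mem_Cn) (hd l _ neg_one_mem_Cn))
    (P.Isom.mul_mem (O.hm_isom k neg_one_mem_Cn) (O.hm_isom l neg_one_mem_Cn)) rfl

theorem EG_le_odd (h2 : (2 : F) ≠ 0) (hn : 6 ≤ Fintype.card ι) (hM : Mon b ⊓ EG P ≤ M)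
    (hM' : M ≤ EG P) (h : ¬ M ≤ Mon b) : EG P ≤ M := by
  classical
  have := Fintype.ofFinite F
  by_contra hc
  have R := O.monLe hM
  refine h (Fr.le_Mon_of_odd (C := Cn σ) ⟨R, neg_one_mem_Cn, fun x hx i hz => ?_⟩ h2 ?_ hn)
  · by_contra hx'
    obtain ⟨l, j, k, hjk, hj, hk⟩ := exists_two_of_notMem_Mon hx'
    have hd : ∀ l, ∀ t ∈ Cn σ, hm b l t ∈ Kx b (Cn σ) M i := fun l t ht =>
      R.dg_mem_Kx (mulSingle_mem ht) i
    have hl : l ≠ i := by
      rintro rfl
      by_cases h : j = l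
      · exact hk (hz k (h ▸ hjk.symm)).1
      · exact hj (hz j h).1
    have h1 : Rt P (Kx b (Cn σ) M i) (b l) := fun c hc => by
      rw [O.valid_iff, O.left, coord_self] at hc
      obtain ⟨t, ht, e⟩ := exists_Cn (σ := σ) (c := 1 + c) (by
        rw [map_add, map_one]; linear_combination hc)
      exact ⟨_, hd l t ht, fun x => by rw [hm_apply, PQ.qrefl_apply, e, O.left, add_sub_cancel_left]⟩
    have hxI := EG_le_isom (hM' hx)
    refine hc (O.EG_le_of_ex (by omega) hM (O.ex_of_Kx hM' (O.ex_of_odd h2 (by omega) hd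
      (fun j k => R.swap_mem_Kx neg_one_mem_Cn) (h1.apply (mem_Kx_of_zr hx hz) hxI)
      (by rw [hxI.1, O.left, coord_self]) ?_ hjk hj hk)))
    rw [← O.left, eq_smul_of_coord (v := b i) (j := i) fun k hk => coord_ne b hk, coord_self,
      ← inv_mul_cancel₀ (coef_ne_zero (eq_smul_of_coord (v := x (b i)) fun k hk => (hz k hk).1)),
      mul_smul, ← eq_smul_of_coord (v := x (b i)) fun k hk => (hz k hk).1, B_smul_left, hxI.1, O.left,
      coord_ne b hl.symm, mul_zero]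
  · have h1 := lt_card_Cf O.ne P.σσ
    have h3 := two_le_card_traceZero O.ne P.σσ
    have h4 := mt (even_card_traceZero O.ne P.σσ).1 h2
    have h5 := card_Cf_le (σ := σ)
    rw [Nat.even_iff] at h4; omega

end Onb

end H98
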