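import Mathlib
import Cfsg.Agent.Base
import Cfsg.Agent.Lib.Imprim.FrameU

/-!
The stabiliser of an orthonormal frame is maximal in `SU_n(q)` for `n ≥ 6`, `(n, q) ≠ (6, 2)`.
-/

set_option autoImplicit false
set_option linter.unusedSectionVars false

namespace H98

open Module Cfsg H28 H97

variable {F V : Type*} [Field F] [AddCommGroup V] [Module F V] [FiniteDimensional F V]
  {ι : Type*} [Fintype ι] [DecidableEq ι] {σ : F →+* F} {P : PQ F V σ} {b : Basis ι F V}
  {M : Subgroup (V ≃ₗ[F] V)}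

variable (P M) in
/-- The normalised transvection with centre `v` lies in `M` (characteristic two). -/
def Ph (v : V) : Prop := P.B v v = 0 ∧ Has M (P.qrefl 1 v)

theorem Ph.apply {v : V} (h : Ph P M v) {g : V ≃ₗ[F] V} (hg : g ∈ M) (hg' : g ∈ P.Isom) :
    Ph P M (g v) := ⟨by rw [hg'.1, h.1], (h.2.conj hg).congr (qrefl_conj hg' 1 v)⟩

theorem Ph.add (hM' : M ≤ EG P) {u v : V} (h : Ph P M u) (h' : Ph P M v) :
    Ph P M (u + P.B v u • v) := by
  obtain ⟨g, hg, e⟩ := h'.2
  simpa [e, PQ.qrefl_apply] using h.apply hg (EG_le_isom (hM' hg))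

namespace Onb

variable (O : Onb P b) (h2 : (2 : F) = 0) (hM : Mon b ⊓ EG P ≤ M) (hM' : M ≤ EG P)
include O h2 hM hM'

omit O hM in
theorem ph_sub {v y : V} (h : Ph P M v) (h' : Ph P M (v + y)) (e : P.B v y = 1) : Ph P M y := by
  have := h'.add hM' h
  rwa [map_add, h.1, e, zero_add, one_smul, add_right_comm, ← two_smul F, h2, zero_smul,
    zero_add] at this

omit h2 hM hM' in
theorem B_mon (i j : ι) (c : F) (v : V) :
    P.B (b i + σ c • b j) v = b.coord i v + c * b.coord j v := by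
  rw [map_add, LinearMap.add_apply, B_smul_left, P.σσ, O.left, O.left]

omit hM' in
theorem ph_mon {i j : ι} (hij : i ≠ j) {c : F} (hc : σ c * c = 1) : Ph P M (b i + σ c • b j) := by
  have h1 : P.B (b i + σ c • b j) (b i + σ c • b j) = 0 := by
    rw [O.B_mon]; simp [hij, hij.symm]; linear_combination hc + h2
  obtain ⟨g, hg, e⟩ := (hasT_mon (b := b) h2 hij (left_ne_zero_of_mul_eq_one hc)).elim
  have e' : ∀ x, g x = P.qrefl 1 (b i + σ c • b j) x := fun x => by
    rw [e, PQ.qrefl_apply, O.B_mon, inv_eq_of_mul_eq_one_right hc]; simp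
  exact ⟨h1, g, hM ⟨hg.1, (has_qrefl_EG_of_sing (O.sing_iff.2 h1)
    (O.valid_iff.2 (by rw [h1, map_one]; linear_combination h2))).mem e'⟩, e'⟩

variable [Finite F]

theorem ex_of_pair {v : V} (h : Ph P M v) {i j k l : ι} (hij : i ≠ j) (hki : k ≠ i) (hkj : k ≠ j)
    (hi : b.coord i v ≠ 0) (hk : b.coord k v ≠ 0) (hl : b.coord l v = 0)
    (hn : σ (b.coord i v) * b.coord i v = σ (b.coord j v) * b.coord j v) : Ex P b M := by
  classical
  have := Fintype.ofFinite F
  obtain ⟨t, ht, ht1, -⟩ := exists_circle_two O.ne P.σσ 1 1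
  obtain ⟨t, ht, rfl⟩ := exists_Cn ht
  have R := O.monLe hM
  have hg : hm b i t * hm b j t * (hm b l t⁻¹ * hm b l t⁻¹) ∈ M := by
    convert M.mul_mem (R.hm_mem (i := i) (j := l) ht) (R.hm_mem (i := j) (j := l) ht) using 1
    simp only [hm_eq, ← map_mul]
    rw [mul_mul_mul_comm]
  refine O.ex_of_diff one_ne_zero (by simp [h.1]; linear_combination h2) h.2 hij hki hkj hi hk
    (by linear_combination hn + σ (b.coord j v) * b.coord j v * h2) (t := t) (by simpa using ht1) hg
    (EG_le_isom (hM' hg)) ?_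
  rw [le_mul_apply _ (_ * _), le_mul_apply (hm b l _), hm_apply l _ v, hl, mul_zero, zero_smul, add_zero,
    hm_apply l _ v, hl, mul_zero, zero_smul, add_zero]

theorem ex_of_four (hn : 5 ≤ Fintype.card ι) {v : V} (h : Ph P M v) {i j k l : ι} (hki : k ≠ i)
    (hkj : k ≠ j) (hli : l ≠ i) (hlj : l ≠ j) (hkl : k ≠ l) (hi : b.coord i v ≠ 0)
    (hj : b.coord j v ≠ 0) (hk : b.coord k v ≠ 0) (hl : b.coord l v ≠ 0)
    (hN : σ (b.coord i v) * b.coord i v ≠ σ (b.coord j v) * b.coord j v) : Ex P b M := by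
  classical
  have := Fintype.ofFinite F
  have hij : i ≠ j := by rintro rfl; exact hN rfl
  obtain ⟨c, d, hc, hd, h1, e⟩ := exists_circle_even O.ne P.σσ h2 hi hj hk hl
  have h0 : b.coord i v + c * b.coord j v ≠ 0 := fun h => hN (by
    rw [eq_neg_of_add_eq_zero_left h, map_neg, map_mul]
    linear_combination σ (b.coord j v) * b.coord j v * hc)
  have h3 := (h.add hM' (O.ph_mon h2 hM hij hc)).add hM' (O.ph_mon h2 hM hkl hd)
  simp only [O.B_mon] at h3
  simp only [map_add, map_smul, coord_ne b hki, coord_ne b hkj, coord_ne b hli,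
    coord_ne b hlj, smul_zero, add_zero, add_assoc v] at h3
  have h4 := ph_sub h2 hM' h h3 (by
    simp only [map_add, map_smul, O.right, smul_eq_mul, map_mul] at e ⊢
    linear_combination e)
  obtain ⟨m, hm'⟩ := exists_notMem_of_card (S := {i, j, k, l})
    (by have := Finset.card_le_four (a := i) (b := j) (c := k) (d := l); omega)
  simp only [Finset.mem_insert, Finset.mem_singleton, not_or] at hm'
  generalize b.coord i v + c * b.coord j v = x at *
  generalize b.coord k v + d * b.coord l v = y at *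
  refine O.ex_of_pair h2 hM hM' h4 hij hki hkj (l := m) ?_ ?_ ?_ ?_
  · simpa [hij.symm, hki, hli] using h0
  · simpa [hki.symm, hkj.symm, hkl.symm] using h1
  · simp [Ne.symm hm'.1, Ne.symm hm'.2.1, Ne.symm hm'.2.2.1, Ne.symm hm'.2.2.2]
  · simp [hij, hij.symm, hki, hli, hkj, hlj, P.σσ]
    linear_combination -σ x * x * hc

theorem ex_of_three (hn : 5 ≤ Fintype.card ι) {v : V} (h : Ph P M v) {i j k l : ι} (hji : j ≠ i)
    (hki : k ≠ i) (hi : b.coord i v ≠ 0) (hj : b.coord j v ≠ 0) (hk : b.coord k v ≠ 0)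
    (hl : b.coord l v = 0) (h1 : σ (b.coord i v) * b.coord i v ≠ 1)
    (hN : σ (b.coord j v) * b.coord j v ≠ σ (b.coord k v) * b.coord k v) : Ex P b M := by
  have hli : l ≠ i := by rintro rfl; exact hi hl
  have hlj : l ≠ j := by rintro rfl; exact hj hl
  have hlk : l ≠ k := by rintro rfl; exact hk hl
  have h3 := h.add hM' (h.add hM' (O.ph_mon h2 hM hli.symm (c := 1) (by simp)))
  have h4 : P.B (v + P.B (b i + σ 1 • b l) v • (b i + σ 1 • b l)) v = σ (b.coord i v) * b.coord i v := by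
    rw [map_add, LinearMap.add_apply, B_smul_left, O.B_mon, h.1, hl]; simp
  rw [h4, O.B_mon, hl, mul_zero, add_zero, map_one, one_smul] at h3
  have h5 : 1 + σ (b.coord i v) * b.coord i v ≠ 0 := fun h => h1 (by linear_combination h - h2)
  generalize hw : v + (σ (b.coord i v) * b.coord i v) • (v + b.coord i v • (b i + b l)) = w at h3
  have e : ∀ p, p ≠ i → p ≠ l → b.coord p w = (1 + σ (b.coord i v) * b.coord i v) * b.coord p v :=
    fun p h6 h7 => by simp [← hw, h6.symm, h7.symm]; ring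
  refine O.ex_of_four h2 hM hM' hn h3 hji.symm hki.symm hlj hlk hli.symm ?_ ?_ ?_ ?_ ?_
  · rw [e j hji hlj.symm]; exact mul_ne_zero h5 hj
  · rw [e k hki hlk.symm]; exact mul_ne_zero h5 hk
  · convert hi using 1
    simp [← hw, hli, -Basis.coord_apply, coord_self, coord_ne b hli.symm]
    linear_combination σ (b.coord i v) * b.coord i v * b.coord i v * h2
  · simp [← hw, hl, hi, -Basis.coord_apply, coord_self, coord_ne b hli]
  · rw [e j hji hlj.symm, e k hki hlk.symm, map_mul, map_mul, mul_mul_mul_comm, mul_mul_mul_comm _ (σ _)]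
    exact fun h => hN (mul_left_cancel₀ (mul_ne_zero ((map_ne_zero σ).2 h5) h5) h)

theorem ex_of_ph (hn : 5 ≤ Fintype.card ι) (hq : 3 ≤ Nat.card (traceZero σ)) {v : V} (h : Ph P M v)
    {i j k : ι} (hij : i ≠ j) (hki : k ≠ i) (hkj : k ≠ j) (hi : b.coord i v ≠ 0)
    (hj : b.coord j v ≠ 0) (hk : b.coord k v ≠ 0) : Ex P b M := by
  classical
  have := Fintype.ofFinite F
  by_contra hc
  by_cases h4 : ∃ l, l ∉ ({i, j, k} : Finset ι) ∧ b.coord l v ≠ 0
  swap
  · push Not at h4
    obtain ⟨l, hl⟩ := exists_notMem_of_card (S := {i, j, k})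
      (by have := Finset.card_le_three (a := i) (b := j) (c := k); omega)
    have h5 := h.1
    rw [O.B_sum, ← Finset.sum_subset (Finset.subset_univ {i, j, k}) fun p _ hp => by
      rw [h4 p hp, mul_zero], Finset.sum_insert (by simp [hij, hki.symm]), Finset.sum_pair hkj.symm] at h5
    by_cases h1 : σ (b.coord i v) * b.coord i v = 1
    · refine hc (O.ex_of_three h2 hM hM' hn h hij hkj hj hi hk (h4 l hl) (fun h => ?_) fun h => ?_)
      · exact mul_ne_zero ((map_ne_zero σ).2 hk) hk (by linear_combination h5 - h1 - h - h2)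
      · exact mul_ne_zero ((map_ne_zero σ).2 hj) hj (by
          linear_combination h5 - h - σ (b.coord k v) * b.coord k v * h2)
    · exact hc (O.ex_of_three h2 hM hM' hn h hij.symm hki hi hj hk (h4 l hl) h1 fun h =>
        mul_ne_zero ((map_ne_zero σ).2 hi) hi (by
          linear_combination h5 - h - σ (b.coord k v) * b.coord k v * h2))
  obtain ⟨l, hl, hl0⟩ := h4
  simp only [Finset.mem_insert, Finset.mem_singleton, not_or] at hl
  have h5 : ∀ p, b.coord p v ≠ 0 →
      σ (b.coord p v) * b.coord p v = σ (b.coord i v) * b.coord i v := fun p hp => by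
    by_contra h5
    by_cases hpj : p = j
    · exact hc (O.ex_of_four h2 hM hM' hn h (hpj ▸ hkj) hki (hpj ▸ hl.2.1) hl.1 (Ne.symm hl.2.2) hp hi
        hk hl0 h5)
    by_cases hpk : p = k
    · exact hc (O.ex_of_four h2 hM hM' hn h (Ne.symm hpj) hij.symm (hpk ▸ hl.2.2) hl.1 (Ne.symm hl.2.1)
        hp hi hj hl0 h5)
    · exact hc (O.ex_of_four h2 hM hM' hn h (Ne.symm hpj) hij.symm (Ne.symm hpk) hki hkj.symm hp hi hj
        hk h5)
  have h6 : ∀ p, b.coord p v ≠ 0 := fun p hp =>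
    hc (O.ex_of_pair h2 hM hM' h hij hki hkj hi hk hp (h5 j hj).symm)
  obtain ⟨c, hc1, h7, h8⟩ := exists_circle_ne O.ne P.σσ h2 hq hi hj
  have h9 := (O.ph_mon h2 hM hij hc1).add hM' h
  rw [← O.symm, O.B_mon] at h9
  obtain ⟨m, hm'⟩ := exists_notMem_of_card (S := {i, j, k, l})
    (by have := Finset.card_le_four (a := i) (b := j) (c := k) (d := l); omega)
  simp only [Finset.mem_insert, Finset.mem_singleton, not_or] at hm'
  generalize hw : b i + σ c • b j + σ (b.coord i v + c * b.coord j v) • v = w at h9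
  have e : ∀ p, p ≠ i → p ≠ j → b.coord p w = σ (b.coord i v + c * b.coord j v) * b.coord p v :=
    fun p h6 h7 => by simp [← hw, h6.symm, h7.symm]
  have e0 : ∀ p, p ≠ i → p ≠ j → b.coord p w ≠ 0 := fun p a1 a2 => by
    rw [e p a1 a2]; exact mul_ne_zero ((map_ne_zero σ).2 h7) (h6 p)
  have h10 : ∀ p, b.coord p w ≠ 0 := fun p hp => hc (O.ex_of_pair h2 hM hM' h9 (Ne.symm hl.2.2)
    hm'.2.2.1 hm'.2.2.2 (e0 k hki hkj) (e0 m hm'.1 hm'.2.1) hp (by
      rw [e k hki hkj, e l hl.1 hl.2.1, map_mul, map_mul, mul_mul_mul_comm, h5 k hk,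
        mul_mul_mul_comm _ (σ (b.coord l v)), h5 l hl0]))
  refine hc (O.ex_of_four h2 hM hM' hn h9 hij.symm hkj.symm hl.1 hl.2.2 (Ne.symm hl.2.1) (h10 i) (h10 k)
    (h10 j) (h10 l) fun h => h8 ?_)
  have e1 : b.coord i w = 1 + σ (b.coord i v + c * b.coord j v) * b.coord i v := by
    simp [← hw, hij.symm]
  rw [e1, e k hki hkj] at h
  have h11 := h5 j hj
  have h12 := h5 k hk
  simp only [map_add, map_mul, map_one, P.σσ] at h ⊢
  generalize b.coord i v = x at *
  generalize b.coord j v = y at *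
  generalize b.coord k v = z at *
  linear_combination -h - (σ x + σ c * σ y) * (x + c * y) * h12 + σ y * y * hc1 + h11 +
    (σ x * x + σ x * x + σ c * σ y * x + σ x * c * y) * h2

theorem ex_of_ph_two (hn : 7 ≤ Fintype.card ι) (hq : ∀ x : F, x ≠ 0 → σ x * x = 1) {v : V}
    (h : Ph P M v) {i j k : ι} (hij : i ≠ j) (hki : k ≠ i) (hkj : k ≠ j) (hi : b.coord i v ≠ 0)
    (hj : b.coord j v ≠ 0) (hk : b.coord k v ≠ 0) : Ex P b M := by
  classical
  have := Fintype.ofFinite F
  by_contra hc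
  have h6 : ∀ p, b.coord p v ≠ 0 := fun p hp =>
    hc (O.ex_of_pair h2 hM hM' h hij hki hkj hi hk hp (by rw [hq _ hi, hq _ hj]))
  obtain ⟨f⟩ : Nonempty (Fin 7 ↪ ι) := Function.Embedding.nonempty_of_card_le (by simpa using hn)
  have h1 : ∀ p q : Fin 7, ∃ c, σ c * c = 1 ∧ b.coord (f p) v + c * b.coord (f q) v ≠ 0 := fun p q => by
    obtain ⟨c, hc, h1, -⟩ := exists_circle_two O.ne P.σσ (-b.coord (f p) v / b.coord (f q) v) 0
    exact ⟨c, hc, fun h => h1 (by rw [eq_div_iff (h6 _)]; linear_combination h)⟩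
  obtain ⟨c, hc1, x0⟩ := h1 0 1
  obtain ⟨d, hd1, y0⟩ := h1 2 3
  obtain ⟨e, he1, z0⟩ := h1 4 5
  have hf : ∀ p q : Fin 7, b.coord (f p) (b (f q)) = if q = p then 1 else 0 := fun p q => by
    simp [Finsupp.single_apply]
  have h3 := ((h.add hM' (O.ph_mon h2 hM (i := f 0) (j := f 1) (by simp) hc1)).add hM'
    (O.ph_mon h2 hM (i := f 2) (j := f 3) (by simp) hd1)).add hM'
    (O.ph_mon h2 hM (i := f 4) (j := f 5) (by simp) he1)
  simp only [O.B_mon] at h3
  simp only [map_add, map_smul, hf, Fin.reduceEq, if_false, smul_zero, add_zero,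
    add_assoc v] at h3
  have h4 := ph_sub h2 hM' h h3 (by
    have a1 := hq _ x0
    have a2 := hq _ y0
    have a3 := hq _ z0
    simp only [map_add, map_smul, O.right, smul_eq_mul, map_mul] at a1 a2 a3 ⊢
    linear_combination a1 + a2 + a3 + h2)
  generalize b.coord (f 0) v + c * b.coord (f 1) v = x at *
  generalize b.coord (f 2) v + d * b.coord (f 3) v = y at *
  refine hc (O.ex_of_pair h2 hM hM' h4 (i := f 0) (j := f 1) (k := f 2) (l := f 6) (by simp) (by simp)
    (by simp) (by simpa using x0) (by simpa using y0) (by simp) ?_)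
  simp [P.σσ]
  linear_combination -σ x * x * hc1

theorem EG_le_even (hn : 7 ≤ Fintype.card ι ∨ (5 ≤ Fintype.card ι ∧ 3 ≤ Nat.card (traceZero σ)))
    (h : ¬ M ≤ Mon b) : EG P ≤ M := by
  classical
  have := Fintype.ofFinite F
  obtain ⟨g, hg, hg'⟩ := SetLike.not_le_iff_exists.1 h
  have hgI := EG_le_isom (hM' hg)
  obtain ⟨l, i, j, hij, hi, hj⟩ := exists_two_of_notMem_Mon hg'
  have h1 : ∀ k, ∃ a, a ≠ l ∧ (b.coord k (g (b l)) ≠ 0 ∨ b.coord k (g (b a)) ≠ 0) := fun k => by
    obtain ⟨a, ha⟩ := exists_coord_ne (b := b) g k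
    by_cases hal : a = l
    · obtain ⟨a', ha', -⟩ := exists_ne_two (by omega) l l
      exact ⟨a', ha', Or.inl (hal ▸ ha)⟩
    · exact ⟨a, hal, Or.inr ha⟩
  have h3 : ∀ a, a ≠ l → ∀ c, σ c * c = 1 → Ph P M (g (b l + c • b a)) := fun a hal c hc => by
    simpa [P.σσ] using (O.ph_mon h2 hM hal.symm (c := σ c) (by rw [P.σσ, mul_comm, hc])).apply hg hgI
  have key : ∀ a c k, σ c * c = 1 → b.coord k (g (b l)) ≠ 0 ∨ b.coord k (g (b a)) ≠ 0 →
      c ≠ -b.coord k (g (b l)) / b.coord k (g (b a)) → b.coord k (g (b l + c • b a)) ≠ 0 :=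
    fun a c k hc h1 h3 h4 => by
      rw [map_add, map_add, map_smul, map_smul, smul_eq_mul] at h4
      by_cases hy : b.coord k (g (b a)) = 0
      · simp_all
      · exact h3 (by field_simp; linear_combination h4)
  refine O.EG_le_of_ex (by omega) hM ?_
  by_cases hq : 3 ≤ Nat.card (traceZero σ)
  · obtain ⟨k, hki, hkj⟩ := exists_ne_two (by omega) i j
    obtain ⟨a, hal, ha⟩ := h1 k
    obtain ⟨c, hc, c1, c2, c3⟩ := exists_circle_three O.ne P.σσ hq _ _ _
    exact O.ex_of_ph h2 hM hM' (by omega) hq (h3 a hal c hc) hij hki hkj (key a c i hc (Or.inl hi) c1)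
      (key a c j hc (Or.inl hj) c2) (key a c k hc ha c3)
  have hq' := fun x hx => norm_eq_one O.ne P.σσ hq (x := x) hx
  obtain ⟨k, hki, hkj, hk⟩ := O.exists_third (u := g (b l)) hij (by
    rw [hgI.1, O.left, coord_self, hq' _ hi, hq' _ hj]
    exact fun h => one_ne_zero (α := F) (by linear_combination h + h2))
  obtain ⟨m, hm'⟩ := exists_notMem_of_card (S := {i, j, k})
    (by have := Finset.card_le_three (a := i) (b := j) (c := k); omega)
  simp only [Finset.mem_insert, Finset.mem_singleton, not_or] at hm'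
  obtain ⟨a, hal, ha⟩ := h1 m
  obtain ⟨c, hc, c1, c2⟩ := exists_circle_two O.ne P.σσ (-b.coord i (g (b l)) / b.coord i (g (b a)))
    (-b.coord j (g (b l)) / b.coord j (g (b a)))
  have h4 := fun k => O.ex_of_ph_two h2 hM hM' (by omega) hq' (h3 a hal c hc) hij (k := k)
  by_cases c3 : c = -b.coord k (g (b l)) / b.coord k (g (b a))
  swap
  · exact h4 k hki hkj (key a c i hc (Or.inl hi) c1) (key a c j hc (Or.inl hj) c2)
      (key a c k hc (Or.inl hk) c3)
  by_cases c4 : c = -b.coord m (g (b l)) / b.coord m (g (b a))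
  swap
  · exact h4 m hm'.1 hm'.2.1 (key a c i hc (Or.inl hi) c1) (key a c j hc (Or.inl hj) c2)
      (key a c m hc ha c4)
  obtain ⟨d, hd, d1, d2⟩ := exists_circle_two O.ne P.σσ _ c
  exact O.ex_of_ph_two h2 hM hM' (by omega) hq' (h3 a hal d hd) hki.symm hm'.1 hm'.2.2
    (key a d i hd (Or.inl hi) d1) (key a d k hd (Or.inl hk) (c3 ▸ d2)) (key a d m hd ha (c4 ▸ d2))

omit h2 hM hM' in
theorem isMaximalIn (hn : 7 ≤ Fintype.card ι ∨ (6 ≤ Fintype.card ι ∧ 3 ≤ Nat.card (traceZero σ))) :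
    Geo.IsMaximalIn (EG P) (Mon b ⊓ EG P) := by
  refine isMaximalIn_of inf_le_right (fun hle => ?_) fun M h1 h3 ⟨g, hg, hg'⟩ => ?_
  · obtain ⟨i, j, hij⟩ : ∃ p q : ι, p ≠ q := Fintype.exists_pair_of_one_lt_card (by omega)
    obtain ⟨k, hki, hkj⟩ := exists_ne_two (by omega) i j
    obtain ⟨y, hy⟩ := exists_norm_eq O.ne P.σσ (t := -1) (by simp)
    obtain ⟨g, hg, e⟩ := has_eu_EG (O.sing_two hij (x := 1) (y := y) (by simp [hy])) (w := b k)
      (by simp [O.left, hki, hkj]) (c := P.q (b k)) (by simp)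
    simpa [e, eu_apply, O.left, hki, hkj, hij.symm] using not_two_of_Mon (hle hg).1 k hki
      (by simp [e, eu_apply, O.left, hki, hkj, hki.symm, hkj.symm])
  have h4 : ¬ M ≤ Mon b := fun h => hg' ⟨h hg, h3 hg⟩
  by_cases h2 : (2 : F) = 0
  · exact O.EG_le_even h2 h1 h3 (by omega) h4
  · exact O.EG_le_odd h2 (by omega) h1 h3 h4

end Onb

section Matrix

variable {F : Type*} [Field F] [Fintype F] {n q : ℕ} [H11.U.IsSq F q]

/-- `GU_1(q) ≀ S_n` in `SU_n(q)`. -/
theorem su_frame_maximal (hn : 7 ≤ n ∨ (6 ≤ n ∧ q ≠ 2)) {t : ℕ} (D : Fin t → Submodule F (Fin n → F))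
    (hD : Geo.IsNondegenerateMDecomposition (hermForm n F q) 1 D) :
    Geo.IsMaximalIn (GU n F q ⊓ Geo.specialLinear (Fin n) F)
      (Geo.decompositionStabilizer D ⊓ (GU n F q ⊓ Geo.specialLinear (Fin n) F)) := by
  classical
  rw [SU_eq (by omega), decompositionStabilizer_eq, ← pull_inf]
  have U := uni_uP (F := F) (n := n) (q := q) (by omega)
  obtain ⟨X⟩ := nonempty_odec (P := uP n F q) (fun _ _ h => H11.U.form_eq_zero_comm.1 h) hD
  have h1 : ∀ i, ∃ x ∈ D i, (uP n F q).B x x = 1 := fun i => by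
    obtain ⟨z, hz, hz'⟩ := U.exists_nonsing_of_nd (X.nd U.nd i) (hD.decomp.finrank_eq i).ge
    obtain ⟨a, ha⟩ := U.exists_norm hz' (map_one _)
    exact ⟨_, (D i).smul_mem a hz, ha⟩
  choose x hx hx1 using h1
  obtain ⟨b, hb, e⟩ := exists_basis_of_lines hD.decomp.indep hD.decomp.iSup_eq_top
    hD.decomp.finrank_eq hx fun i h => by simpa [h] using hx1 i
  have h2 := finrank_eq_card_basis b
  simp only [finrank_fintype_fun_eq_card, Fintype.card_fin] at h2
  rw [e]
  refine isMaximalIn_pull (Onb.isMaximalIn ⟨U, fun i v => ?_⟩ ?_)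
  · refine congrArg (fun φ : Dual F (Fin n → F) => φ v) (b.ext fun j => ?_ : _ = b.coord i)
    by_cases hij : i = j
    · rw [← hij, coord_self, hb, hx1]
    · rw [coord_ne b hij, hb, hb, X.orth i j hij _ (hx i) _ (hx j)]
  · rw [Fintype.card_fin, ← h2]
    refine hn.imp_right fun h => ⟨h.1, ?_⟩
    have h3 := card_traceZero_sq U.ne (uP n F q).σσ
    have h4 := two_le_card_traceZero U.ne (uP n F q).σσ
    rw [Nat.card_eq_fintype_card (α := F), H11.U.IsSq.card_eq (q := q)] at h3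
    have := Nat.pow_left_injective two_ne_zero h3
    omega

/-- `GU_k(q) ≀ S_t` in `SU_{kt}(q)`. -/
theorem su_nondeg_decomp_maximal (hn : 6 ≤ n) {t : ℕ} (k : ℕ) (D : Fin t → Submodule F (Fin n → F))
    (hD : Geo.IsNondegenerateMDecomposition (hermForm n F q) k D) (hex : ¬ (k = 2 ∧ q = 2))
    (hex' : ¬ (k = 1 ∧ n = 6 ∧ q = 2)) :
    Geo.IsMaximalIn (GU n F q ⊓ Geo.specialLinear (Fin n) F)
      (Geo.decompositionStabilizer D ⊓ (GU n F q ⊓ Geo.specialLinear (Fin n) F)) := by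
  by_cases hk : k = 1
  · subst hk
    exact su_frame_maximal (by omega) D hD
  · exact su_nondeg_decomp_maximal_of_two (by omega) k (by have := hD.decomp.pos; omega) D hD hex

end Matrix

end H98
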