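import Mathlib
import Cfsg.Agent.Base
import Cfsg.Agent.Lib.Imprim.FrameSU

/-!
The imprimitive subgroups over small fields that are not maximal.
-/

set_option autoImplicit false
set_option linter.unusedSectionVars false

namespace H98

open Module Cfsg H28 H97

section General

variable {F V : Type*} [Field F] [AddCommGroup V] [Module F V] [FiniteDimensional F V]
  {κ : Type*} [Fintype κ] [DecidableEq κ] {D : κ → Submodule F V}

variable (F) in
/-- The stabiliser of a function. -/
def stabF {α : Type*} (f : V → α) : Subgroup (V ≃ₗ[F] V) where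
  carrier := {g | ∀ v, f (g v) = f v}
  one_mem' _ := rfl
  mul_mem' {a b} ha hb v := (ha _).trans (hb v)
  inv_mem' {a} ha v := by rw [← ha, le_apply_inv]

theorem exists_between_stabF {α : Type*} (f : V → α) {G H : Subgroup (V ≃ₗ[F] V)}
    (h1 : ∀ g ∈ H ⊓ G, ∀ v, f (g v) = f v) (h2 : ∃ g ∈ G, g ∉ H ∧ ∀ v, f (g v) = f v)
    (h3 : ∃ g ∈ G, ∃ v, f (g v) ≠ f v) : ∃ K, H ⊓ G < K ∧ K < G := by
  obtain ⟨g, a1, a2, a3⟩ := h2
  obtain ⟨g', b1, v, b2⟩ := h3
  exact exists_between_of (stabF F f ⊓ G) (fun g hg => ⟨h1 g hg, hg.2⟩) inf_le_right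
    ⟨g, ⟨a3, a1⟩, fun h => a2 h.1⟩ ⟨g', b1, fun h => b2 (h.1 v)⟩

theorem mem_span_pair_of {W : Submodule F V} (hW : finrank F W = 2) {x y : V} (hx : x ∈ W)
    (hy : y ∈ W) (hx0 : x ≠ 0) (h : y ∉ F ∙ x) {z : V} (hz : z ∈ W) : ∃ a c : F, a • x + c • y = z := by
  rw [← Submodule.mem_span_pair]
  have h1 : LinearIndependent F ![x, y] := by
    rw [LinearIndependent.pair_iff' hx0]
    exact fun a e => h (Submodule.mem_span_singleton.2 ⟨a, e⟩)
  have h2 := finrank_span_eq_card h1
  rw [Matrix.range_cons_cons_empty] at h2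
  rwa [Submodule.eq_of_le_of_finrank_eq (Submodule.span_le.2 (Set.pair_subset hx hy))
    (by rw [h2, hW]; rfl)]

theorem between_two [Fintype F] (X : Dec D) (hF : Fintype.card F = 2) (hd : ∀ i, finrank F (D i) = 2)
    (h3 : 3 ≤ Fintype.card κ) {G : Subgroup (V ≃ₗ[F] V)} {u y : κ → V} {η : κ → Dual F V}
    (hu : ∀ i, u i ∈ D i) (hy : ∀ i, y i ∈ D i) (hu0 : ∀ i, u i ≠ 0) (hη : ∀ i, On D i (η i))
    (h0 : ∀ i, η i (u i) = 0) (h1 : ∀ i, η i (y i) ≠ 0)
    (hG : ∀ I : Finset κ, HasT G (∑ i ∈ I, u i) (∑ i ∈ I, η i)) :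
    ∃ K, dstab D ⊓ G < K ∧ K < G := by
  classical
  have h2 : (2 : F) = 0 := by exact_mod_cast hF ▸ FiniteField.cast_card_eq_zero F
  have h01 : ∀ a : F, a ≠ 0 → a = 1 := fun a ha => by
    simpa [hF] using FiniteField.pow_card_sub_one_eq_one a ha
  let f : V → F := fun v => ∑ i, if X.π i v = 0 then 0 else 1
  have k1 : ∀ i, ∀ x ∈ D i, (if x + u i = 0 then 0 else 1 : F) = (if x = 0 then 0 else 1) + 1 + η i x := by
    intro i x hx
    by_cases hx0 : x = 0
    · simp [hx0, hu0]
    by_cases hxu : x + u i = 0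
    · rw [if_pos hxu, if_neg hx0, eq_neg_of_add_eq_zero_left hxu, map_neg, h0]
      linear_combination -h2
    have h4 : η i x ≠ 0 := fun h => by
      obtain ⟨a, c, e⟩ := mem_span_pair_of (hd i) (hu i) hx (hu0 i) (fun h => by
        obtain ⟨a, rfl⟩ := Submodule.mem_span_singleton.1 h
        rw [h01 a (by rintro rfl; simp at hx0), one_smul, ← two_smul F, h2, zero_smul] at hxu
        exact hxu rfl) (hy i)
      exact h1 i (by simp [← e, h0, h])
    rw [if_neg hxu, if_neg hx0, h01 _ h4]
    linear_combination -h2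
  have k2 : ∀ (I : Finset κ) j, X.π j (∑ i ∈ I, u i) = if j ∈ I then u j else 0 := fun I j => by
    rw [map_sum, ← Finset.sum_ite_eq]
    exact Finset.sum_congr rfl fun i _ => by
      split_ifs with h
      · rw [← h, X.self j _ (hu j)]
      · exact X.other j i h _ (hu i)
  have k3 : ∀ (I : Finset κ) x, f (x + ∑ i ∈ I, u i) = f x + I.card + (∑ i ∈ I, η i) x := fun I x => by
    simp only [f, map_add, k2, LinearMap.sum_apply, Finset.card_eq_sum_ones, Nat.cast_sum, Nat.cast_one]
    rw [← Finset.sum_ite_mem_eq I, ← Finset.sum_ite_mem_eq I (fun i => η i x), ← Finset.sum_add_distrib,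
      ← Finset.sum_add_distrib]
    refine Finset.sum_congr rfl fun i _ => ?_
    by_cases hi : i ∈ I
    · simp only [if_pos hi, k1 i _ (X.mem i x), X.on_apply (hη i)]
    · simp [hi]
  have k4 : ∀ (I : Finset κ), ∀ i ∈ I, (∑ i ∈ I, η i) (y i) = 1 := fun I i hi => by
    rw [LinearMap.sum_apply, Finset.sum_eq_single_of_mem i hi fun j _ hj => hη j i hj.symm _ (hy i),
      h01 _ (h1 i)]
  obtain ⟨I, -, hI⟩ := Finset.exists_subset_card_eq (s := (Finset.univ : Finset κ)) (n := 3) h3
  obtain ⟨a, b, c, hab, hac, hbc, rfl⟩ := Finset.card_eq_three.1 hI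
  refine exists_between_stabF f (fun g hg v => ?_) ?_ ?_
  · obtain ⟨τ, hτ⟩ := hg.1
    simp only [f]
    rw [← Equiv.sum_comp τ]
    simp [X.π_apply_of_map hτ]
  · obtain ⟨g, hg, e⟩ := (hG {a, b, c}).elim
    refine ⟨g, hg, fun h => X.not_two_of_mem h (hy a) ⟨b, c, hbc, ?_, ?_⟩, fun v => ?_⟩
    · simpa [e, k4, k2, -map_sum, X.other b a hab.symm _ (hy a), -LinearMap.coe_sum] using hu0 b
    · simpa [e, k4, k2, -map_sum, X.other c a hac.symm _ (hy a), -LinearMap.coe_sum] using hu0 c
    · rw [e]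
      by_cases h : (∑ i ∈ {a, b, c}, η i) v = 0
      · rw [h, zero_smul, add_zero]
      · rw [h01 _ h, one_smul, k3, h01 _ h, hI]
        linear_combination 2 * h2
  · obtain ⟨g, hg, e⟩ := (hG {a, b}).elim
    refine ⟨g, hg, y a, fun h => one_ne_zero (α := F) ?_⟩
    rw [e, k4 _ a (by simp), one_smul, k3, k4 _ a (by simp), Finset.card_pair hab] at h
    linear_combination h - h2

theorem between_Mon [Fintype F] (b : Basis κ F V) (hF : Fintype.card F ≤ 4) (h4 : 5 ≤ Fintype.card κ) :
    ∃ K, Mon b ⊓ SLV F V < K ∧ K < SLV F V := by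
  have h1 : 1 < Fintype.card F := Fintype.one_lt_card
  have hc := FiniteField.cast_card_eq_zero F
  let f : V → F := fun v => ∑ i, b.coord i v ^ (Fintype.card F - 1)
  have k1 : ∀ g ∈ Mon b, ∀ v, f (g v) = f v := fun g hg v => by
    obtain ⟨τ, c, e⟩ := mem_Mon.1 hg
    simp only [f]
    rw [← Equiv.sum_comp τ]
    simp only [coord_mon e, mul_pow, FiniteField.pow_card_sub_one_eq_one _ (coef_ne_zero (e _)), one_mul]
  obtain ⟨e⟩ : Nonempty (Fin 5 ↪ κ) := Function.Embedding.nonempty_of_card_le (by simpa using h4)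
  refine exists_between_stabF f (fun g hg => k1 g hg.1) ?_ ?_
  · have h5 : (5 : F) ≠ 0 := fun h => one_ne_zero (α := F) (by
      interval_cases Fintype.card F <;> push_cast at hc
      · linear_combination h - 2 * hc
      · linear_combination 2 * hc - h
      · linear_combination h - hc)
    obtain ⟨g, eg⟩ := exists_T (u := b (e 0) + b (e 1) + b (e 2) + b (e 3))
      (φ := b.coord (e 0) + b.coord (e 1) + b.coord (e 2) + b.coord (e 3)) (by
        simp [Finsupp.single_apply]; exact fun h => h5 (by linear_combination h))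
    refine ⟨g * hm b (e 4) (LinearEquiv.det g)⁻¹, mem_SLV.2 ?_, fun h => ?_, fun v => ?_⟩
    · rw [LinearEquiv.coe_toLinearMap_mul, map_mul, det_hm, ← LinearEquiv.coe_det, Units.mul_inv]
    · have := not_two_of_Mon (((Mon b).mul_mem_cancel_right (hm_mem_Mon _ _)).1 h) (e 0)
        (i := e 1) (j := e 2) (by simp) (by simp [eg, Finsupp.single_apply])
      simp [eg, Finsupp.single_apply] at this
    rw [le_mul_apply, ← k1 _ (hm_mem_Mon (e 4) (LinearEquiv.det g)⁻¹) v]
    generalize hm b (e 4) (LinearEquiv.det g)⁻¹ v = w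
    simp only [f]
    rw [← sub_eq_zero, ← Finset.sum_sub_distrib, ← Finset.sum_subset (Finset.subset_univ
      (Finset.univ.map e)) fun i _ hi => by
        have : ∀ j, e j ≠ i := by simpa using hi
        simp [eg, this], Finset.sum_map]
    simp only [Fin.sum_univ_five, eg, map_add, map_smul, LinearMap.add_apply, coord_b, smul_eq_mul,
      EmbeddingLike.apply_eq_iff_eq, Fin.reduceEq, if_true, if_false]
    generalize b.coord (e 0) w = x, b.coord (e 1) w = y, b.coord (e 2) w = z, b.coord (e 3) w = t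
    interval_cases Fintype.card F <;> push_cast at hc ⊢
    · linear_combination 2 * (x + y + z + t) * hc
    · linear_combination 2 * (x + y + z + t) ^ 2 * hc
    · have h2 : (2 : F) = 0 := pow_eq_zero_iff two_ne_zero |>.1 (by linear_combination hc)
      linear_combination (5 * (x + y + z + t) ^ 3 -
        3 * (x + y + z + t) * (x * y + x * z + x * t + y * z + y * t + z * t)) * h2
  · obtain ⟨g, hg, eg⟩ := (hasT_SLV (u := b (e 1)) (φ := b.coord (e 0)) (by simp)).elim
    refine ⟨g, hg, b (e 0), fun h => one_ne_zero (α := F) ?_⟩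
    have h0 : Fintype.card F - 1 ≠ 0 := by omega
    have k2 : ∀ j, f (b j) = 1 := fun j => by
      simp only [f]
      rw [Finset.sum_eq_single j (fun i _ hi => by simp [hi.symm, h0]) (by simp)]; simp
    have k3 : f (b (e 0) + b (e 1)) = 1 + 1 := by
      simp only [f]
      rw [← Finset.sum_subset (Finset.subset_univ {e 0, e 1}) fun i _ hi => by
        simp only [Finset.mem_insert, Finset.mem_singleton, not_or] at hi
        simp [Ne.symm hi.1, Ne.symm hi.2, h0], Finset.sum_pair (by simp)]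
      simp
    rw [eg, coord_self, one_smul, k2, k3] at h
    linear_combination h

variable {σ : F →+* F} {P : PQ F V σ}

theorem Uni.between [Fintype F] (U : Uni P) (X : ODec P D) (hF : Fintype.card F = 4)
    (hd : ∀ i, finrank F (D i) = 2) {a b : κ} (hab : a ≠ b) : ∃ K, dstab D ⊓ EG P < K ∧ K < EG P := by
  classical
  have h2 : (2 : F) = 0 := pow_eq_zero_iff two_ne_zero |>.1 (by
    have := FiniteField.cast_card_eq_zero F
    rw [hF] at this; push_cast at this; linear_combination this)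
  have hN : ∀ x : F, x ≠ 0 → σ x * x = 1 := fun x => norm_eq_one U.ne P.σσ (by
    have := card_traceZero_sq U.ne P.σσ
    rw [Nat.card_eq_fintype_card (α := F), hF] at this
    nlinarith)
  have hone : ∀ v, P.B v v ≠ 0 → P.B v v = 1 := fun v hv => by
    have := hN _ hv
    rw [U.symm] at this
    exact sub_eq_zero.1 (pow_eq_zero_iff two_ne_zero |>.1 (by
      linear_combination this + (1 - P.B v v) * h2))
  have h1 : ∀ i, ∃ x ∈ D i, P.B x x = 1 := fun i => by
    obtain ⟨z, hz, hz'⟩ := U.exists_nonsing_of_nd (X.nd U.nd i) (by rw [hd]; omega)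
    exact ⟨z, hz, hone z hz'⟩
  choose x hx hx1 using h1
  have hx0 : ∀ i, x i ≠ 0 := fun i h => by simpa [h] using hx1 i
  have k1 : ∀ i, ∀ v ∈ D i, P.B v v ≠ 0 → P.B (x i) v = 0 ∨ v = P.B (x i) v • x i := fun i v hv h => by
    by_contra hc
    push Not at hc
    have hw := (D i).sub_mem hv ((D i).smul_mem (P.B (x i) v) (hx i))
    have h3 : P.B (x i) (v - P.B (x i) v • x i) = 0 := by simp [hx1]
    have h4 : P.B (v - P.B (x i) v • x i) (v - P.B (x i) v • x i) = 0 := by
      rw [map_sub (P.B _), map_smul, P.eq_zero_symm h3, map_sub, LinearMap.sub_apply, B_smul_left,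
        hN _ hc.1, hone v h]; simp
    obtain ⟨y, hy, hy'⟩ := exists_B_ne_zero (X.nd U.nd i) hw (sub_ne_zero.2 hc.2)
    obtain ⟨s, t, rfl⟩ := mem_span_pair_of (hd i) (hx i) hw (hx0 i) (fun h => by
      obtain ⟨s, hs⟩ := Submodule.mem_span_singleton.1 h
      rw [← hs, map_smul, hx1, smul_eq_mul, mul_one] at h3
      rw [h3, zero_smul] at hs
      exact sub_ne_zero.2 hc.2 hs.symm) hy
    exact hy' (by rw [map_add, LinearMap.add_apply, B_smul_left, B_smul_left, h3, h4]; simp)
  refine exists_between_stabF (fun v => P.B v v ≠ 0 ∧ ∃ i, v ∈ D i) (fun g hg v => ?_) ?_ ?_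
  · obtain ⟨τ, hτ⟩ := hg.1
    rw [(EG_le_isom hg.2).1]
    refine propext (and_congr_right fun _ => ⟨fun ⟨i, hi⟩ => ⟨τ.symm i, ?_⟩,
      fun ⟨i, hi⟩ => ⟨τ i, hτ i ▸ ⟨v, hi, rfl⟩⟩⟩)
    have := hτ (τ.symm i)
    rw [Equiv.apply_symm_apply] at this
    rw [← this] at hi
    obtain ⟨w, hw, e⟩ := hi
    exact g.injective e ▸ hw
  · have h3 : P.B (x a + x b) (x a + x b) = 0 := by
      simp [hx1, X.orth a b hab _ (hx a) _ (hx b), X.orth b a hab.symm _ (hx b) _ (hx a)]
      linear_combination h2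
    obtain ⟨g, hg, e⟩ := has_qrefl_EG_of_sing (c := 1) (U.sing_iff.2 h3)
      (U.valid_iff.2 (by rw [h3, map_one]; linear_combination h2))
    simp only [PQ.qrefl_apply, one_mul, map_add, LinearMap.add_apply] at e
    have hv : ∀ v : V, v + v = 0 := fun v => by rw [← two_smul F, h2, zero_smul]
    have k2 : ∀ v, P.B v v ≠ 0 → (∃ i, v ∈ D i) → ∃ i, g v ∈ D i := by
      rintro v h ⟨i, hi⟩
      by_cases hia : i = a
      · subst hia
        rw [e, X.orth b i hab.symm _ (hx b) v hi, add_zero]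
        rcases k1 i v hi h with h | h
        · exact ⟨i, by simpa [h] using hi⟩
        · exact ⟨b, by rw [smul_add, ← h, ← add_assoc, hv, zero_add]; exact (D b).smul_mem _ (hx b)⟩
      by_cases hib : i = b
      · subst hib
        rw [e, X.orth a i hab _ (hx a) v hi, zero_add]
        rcases k1 i v hi h with h | h
        · exact ⟨i, by simpa [h] using hi⟩
        · exact ⟨a, by rw [smul_add, ← h, add_left_comm, hv, add_zero]; exact (D a).smul_mem _ (hx a)⟩
      · refine ⟨i, ?_⟩
        simpa [e, X.orth a i (Ne.symm hia) _ (hx a) v hi,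
          X.orth b i (Ne.symm hib) _ (hx b) v hi] using hi
    have k3 : ∀ v, g (g v) = v := fun v => by
      have : g (x a + x b) = x a + x b := by
        rw [e, ← LinearMap.add_apply, ← map_add, h3, zero_smul, add_zero]
      have h5 := congrArg g (e v)
      rw [map_add, map_smul, this] at h5
      rw [h5, e v, add_assoc, hv, add_zero]
    refine ⟨g, hg, fun h => ?_, fun v => propext ?_⟩
    · obtain ⟨z, hz, hxz, hz'⟩ := U.exists_nonsing_perp (X.nd U.nd a) (hx a)
        (Or.inr ⟨(hd a).ge, by simp [hx1]⟩)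
      have h4 : g (x a + z) = z + x b := by
        rw [e]
        simp only [map_add, hx1, hxz, X.orth b a hab.symm _ (hx b) _ (hx a),
          X.orth b a hab.symm _ (hx b) _ hz, add_zero, one_smul]
        linear_combination (norm := module) hv (x a)
      refine X.not_two_of_mem h ((D a).add_mem (hx a) hz) ⟨a, b, hab, ?_, ?_⟩
      · rw [h4, map_add, X.self a z hz, X.other a b hab _ (hx b), add_zero]
        rintro rfl; simp at hz'
      · rw [h4, map_add, X.self b _ (hx b), X.other b a hab.symm _ hz, zero_add]; exact hx0 b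
    · rw [(EG_le_isom hg).1]
      refine and_congr_right fun h => ⟨fun h' => ?_, k2 v h⟩
      simpa [k3] using k2 (g v) (by rwa [(EG_le_isom hg).1]) h'
  · obtain ⟨d, hdb, hd0, hd'⟩ := U.isoK (D b) (hd b).ge
    have h3 : X.Two (x a + d) := ⟨a, b, hab, by
      rw [map_add, X.self a _ (hx a), X.other a b hab _ hdb, add_zero]; exact hx0 a, by
      rwa [map_add, X.self b _ hdb, X.other b a hab.symm _ (hx a), zero_add]⟩
    obtain ⟨g, hg, e⟩ := U.isoK.exists_EG_apply_eq U.nd U.four (hx0 a)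
      (y := x a + d) (fun h => h3.notMem a (h ▸ (D a).zero_mem)) (by
        simpa using P.Λ.neg_mem (q_add_sing hd' (X.orth a b hab _ (hx a) _ hdb)))
    refine ⟨g, hg, x a, fun h => ?_⟩
    obtain ⟨-, i, hi⟩ := h.mpr ⟨by simp [hx1], a, hx a⟩
    exact h3.notMem i (e ▸ hi)

end General

section Matrix

variable {F : Type*} [Field F] [Fintype F]

theorem sl_decomp_not_maximal {n : ℕ} (hn : 5 ≤ n) {t : ℕ} (m : ℕ)
    (D : Fin t → Submodule F (Fin n → F)) (hD : Geo.IsMDecomposition m D)
    (h : (m = 1 ∧ Fintype.card F ≤ 4) ∨ (m = 2 ∧ Fintype.card F = 2)) :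
    ∃ K, Geo.decompositionStabilizer D ⊓ Geo.specialLinear (Fin n) F < K ∧
      K < Geo.specialLinear (Fin n) F := by
  rw [specialLinear_eq, decompositionStabilizer_eq, ← pull_inf]
  obtain ⟨X⟩ := nonempty_dec hD.indep hD.iSup_eq_top
  have h1 := X.finrank_eq hD.finrank_eq
  simp only [finrank_fintype_fun_eq_card, Fintype.card_fin] at h1
  choose x hx hx0 using fun i => exists_ne_zero_mem (X := D i) (hD.finrank_eq i ▸ hD.pos)
  refine exists_between_pull ?_
  rcases h with ⟨rfl, h⟩ | ⟨rfl, h⟩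
  · obtain ⟨b, -, e⟩ := exists_basis_of_lines hD.indep hD.iSup_eq_top hD.finrank_eq hx hx0
    rw [e]
    exact between_Mon b h (by simp; omega)
  · choose y hy hy' using fun i => exists_notMem_span (hD.finrank_eq i).ge (x i)
    choose η h2 h3 h4 using fun i => X.exists_on (hx i) (hy i) (hy' i) 1
    refine between_two X h hD.finrank_eq (by simp; omega) hx hy hx0 h2 h3 (by simp [h4]) fun I =>
      hasT_SLV ?_
    rw [map_sum]
    refine Finset.sum_eq_zero fun i _ => ?_
    rw [LinearMap.sum_apply]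
    refine Finset.sum_eq_zero fun j _ => ?_
    by_cases hij : i = j
    · rw [← hij, h3]
    · exact h2 j i hij _ (hx i)

theorem sp_decomp_not_maximal {m : ℕ} (hm : 3 ≤ m) (hq : Fintype.card F = 2) {t : ℕ}
    (D : Fin t → Submodule F (Fin m ⊕ Fin m → F))
    (hD : Geo.IsNondegenerateMDecomposition (sympForm m F) 2 D) :
    ∃ K, Geo.decompositionStabilizer D ⊓ spGL m F < K ∧ K < spGL m F := by
  rw [spGL_eq, decompositionStabilizer_eq, ← pull_inf]
  obtain ⟨X⟩ := nonempty_odec (P := spP m F) (fun _ _ h => h) hD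
  have h1 := X.toDec.finrank_eq hD.decomp.finrank_eq
  rw [finrank_sp, Fintype.card_fin] at h1
  choose x hx hx0 using fun i => exists_ne_zero_mem (X := D i) (by rw [hD.decomp.finrank_eq]; omega)
  choose y hy hy' using fun i => exists_B_ne_zero (X.nd (spP_nd m) i) (hx i) (hx0 i)
  refine exists_between_pull (between_two X.toDec hq hD.decomp.finrank_eq (by simp; omega) hx hy hx0
    (η := fun i => (spP m F).B (x i)) (fun i j hj v hv => X.orth i j hj.symm _ (hx i) v hv)
    (fun i => (spP m F).self_eq_zero trivial) (fun i => B_ne_zero_symm (hy' i)) fun I => ?_)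
  refine (has_qrefl_EG_of_sing (P := spP m F) (c := 1) (d := ∑ i ∈ I, x i) trivial trivial).congr
    fun v => ?_
  rw [PQ.qrefl_apply, one_mul, map_sum]

theorem su_decomp_not_maximal {n : ℕ} (hn : 4 ≤ n) (hF : Fintype.card F = 4) {t : ℕ}
    (D : Fin t → Submodule F (Fin n → F))
    (hD : Geo.IsNondegenerateMDecomposition (hermForm n F 2) 2 D) :
    ∃ K, Geo.decompositionStabilizer D ⊓ (GU n F 2 ⊓ Geo.specialLinear (Fin n) F) < K ∧
      K < GU n F 2 ⊓ Geo.specialLinear (Fin n) F := by
  haveI : H11.U.IsSq F 2 := ⟨hF⟩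
  rw [SU_eq hn, decompositionStabilizer_eq, ← pull_inf]
  obtain ⟨X⟩ := nonempty_odec (P := uP n F 2) (fun _ _ h => H11.U.form_eq_zero_comm.1 h) hD
  obtain ⟨a, b, hab⟩ := exists_ne_fin hD.decomp.two_le
  exact exists_between_pull ((uni_uP hn).between X hF hD.decomp.finrank_eq hab)

end Matrix

end H98
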