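import Mathlib
import Cfsg.Agent.Base
import Cfsg.Agent.Lib.Imprim.SU

/-!
Stabilisers of pairs of complementary totally singular subspaces in symplectic and unitary groups.
-/

set_option autoImplicit false
set_option linter.unusedSectionVars false

namespace H98

open Module Cfsg H28 H97

section General

variable {F V : Type*} [Field F] [AddCommGroup V] [Module F V] [FiniteDimensional F V]
  {σ : F →+* F} {P : PQ F V σ} {M : Subgroup (V ≃ₗ[F] V)}

variable (P) in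
/-- Two complementary totally singular subspaces. -/
structure SPair (U U' : Submodule F V) : Prop where
  nd : P.B.SeparatingLeft
  lmax : LMax P
  lam : ∃ l ∈ P.Λ, l ≠ 0
  sur : ∀ l ∈ P.Λ, ∃ a, l = a - P.ε * σ a
  ts : ∀ x ∈ U, ∀ y ∈ U, P.B x y = 0
  ts' : ∀ x ∈ U', ∀ y ∈ U', P.B x y = 0
  dec : ∀ v : V, ∃ x ∈ U, ∃ y ∈ U', v = x + y
  three : 3 ≤ finrank F U
  three' : 3 ≤ finrank F U'

theorem dep_or (p r : V) : (∀ s t : F, s • p = t • r → s = 0 ∧ t = 0) ∨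
    ∃ v : V, p ∈ F ∙ v ∧ r ∈ F ∙ v := by
  by_cases h : ∀ s t : F, s • p = t • r → s = 0 ∧ t = 0
  · exact Or.inl h
  right
  push Not at h
  obtain ⟨s, t, h1, h2⟩ := h
  by_cases hs : s = 0
  · refine ⟨p, Submodule.mem_span_singleton_self p, ?_⟩
    rw [hs, zero_smul] at h1
    rw [(smul_eq_zero.1 h1.symm).resolve_left (h2 hs)]
    exact Submodule.zero_mem _
  · refine ⟨r, Submodule.mem_span_singleton.2 ⟨s⁻¹ * t, ?_⟩, Submodule.mem_span_singleton_self r⟩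
    rw [mul_smul, ← h1, smul_smul, inv_mul_cancel₀ hs, one_smul]

theorem finrank_span_pair_le (x y : V) : finrank F (Submodule.span F ({x, y} : Set V)) ≤ 2 := by
  rw [Submodule.span_insert]
  have := finrank_sup_le' (F ∙ x) (F ∙ y)
  have := finrank_span_singleton_le (F := F) x
  have := finrank_span_singleton_le (F := F) y
  omega

/-- A Weyl element of a hyperbolic pair. -/
theorem exists_weyl (h : ∃ l ∈ P.Λ, l ≠ 0) {e f : V} (he : P.q e ∈ P.Λ) (hf : P.q f ∈ P.Λ)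
    (hef : P.B e f = 1) : ∃ n ∈ EG P, n e ∈ F ∙ f ∧ n f ∈ F ∙ e ∧
      ∀ z, P.B e z = 0 → P.B f z = 0 → n z = z := by
  obtain ⟨l, hl, hl0⟩ := h
  have hεε := P.εε
  have hfe : P.B f e = P.ε := by rw [P.symm, hef]; simp
  have v1 : P.ε * (P.ε * l) ∈ P.Λ := by rwa [← mul_assoc, hεε, one_mul]
  have v2 : P.ε * (-l⁻¹) ∈ P.Λ := by
    have h1 := P.norm_mem l⁻¹ l hl
    have h2 : σ l = -(P.ε * l) := by linear_combination P.ε * P.tr_mem l hl - σ l * hεε
    convert h1 using 1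
    rw [map_inv₀, h2]
    have := P.ε_ne_zero
    field_simp
    linear_combination -hεε
  obtain ⟨n, hn, en⟩ := (has_qrefl_EG_of_sing he (valid_of_sing he v1)).comp
    ((has_qrefl_EG_of_sing hf (valid_of_sing hf v2)).comp
      (has_qrefl_EG_of_sing he (valid_of_sing he v1)))
  refine ⟨n, hn, Submodule.mem_span_singleton.2 ⟨-(P.ε * l⁻¹), ?_⟩,
    Submodule.mem_span_singleton.2 ⟨P.ε * l, ?_⟩, fun z h1 h2 => ?_⟩
  · simp only [en, PQ.qrefl_apply, map_add, map_smul, P.self_eq_zero he, hef, hfe, smul_eq_mul]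
    match_scalars
    · ring
    · field_simp
      linear_combination hεε
  · simp only [en, PQ.qrefl_apply, map_add, map_smul, P.self_eq_zero he, P.self_eq_zero hf, hef, hfe,
      smul_eq_mul]
    match_scalars
    · field_simp
      linear_combination (P.ε * l) * hεε
    · field_simp
      linear_combination l * hεε
  · simp [en, PQ.qrefl_apply, h1, h2]

namespace SPair

variable {U U' : Submodule F V} (S : SPair P U U')
include S

theorem symm : SPair P U' U :=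
  ⟨S.nd, S.lmax, S.lam, S.sur, S.ts', S.ts, fun v => by
    obtain ⟨x, hx, y, hy, e⟩ := S.dec v
    exact ⟨y, hy, x, hx, by rw [e, add_comm]⟩, S.three', S.three⟩

theorem sing {x : V} (hx : x ∈ U) : P.q x ∈ P.Λ := S.lmax.sing (S.ts x hx x hx)

theorem valid {x : V} (hx : x ∈ U) : 0 - P.q x ∈ P.Λ := P.Λ.sub_mem P.Λ.zero_mem (S.sing hx)

theorem eq_zero {x : V} (hx : x ∈ U) (h : ∀ y ∈ U', P.B x y = 0) : x = 0 := S.nd x fun v => by
  obtain ⟨y, hy, z, hz, rfl⟩ := S.dec v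
  rw [map_add, S.ts x hx y hy, h z hz, add_zero]

theorem disj {x : V} (hx : x ∈ U) (hx' : x ∈ U') : x = 0 := S.eq_zero hx (S.ts' x hx')

theorem exists_ne {x : V} (hx : x ∈ U) (h0 : x ≠ 0) : ∃ y ∈ U', P.B x y ≠ 0 := by
  by_contra hc
  push Not at hc
  exact h0 (S.eq_zero hx hc)

theorem exists_orth (H : Submodule F V) (hH : H ≤ U') {y : V} (hy : y ∈ U') (hyH : y ∉ H) :
    ∃ z ∈ U, (∀ h ∈ H, P.B z h = 0) ∧ P.B z y = 1 := by
  obtain ⟨w, h1, h2⟩ := exists_orth_of_notMem P.σσ P.B S.nd H hyH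
  obtain ⟨z, hz, z', hz', rfl⟩ := S.dec w
  refine ⟨z, hz, fun h hh => ?_, ?_⟩
  · simpa [S.ts' z' hz' h (hH hh)] using h1 h hh
  · simpa [S.ts' z' hz' y hy] using h2

theorem has_L {d z : V} (hd : d ∈ U') (hz : z ∈ U) (h : P.B d z = 0) :
    Has (stab U ⊓ stab U' ⊓ EG P) (eu P d z 0) := by
  obtain ⟨g, hg, e⟩ := has_eu_EG (S.symm.sing hd) h (S.valid hz)
  refine ⟨g, ⟨⟨mem_stab_of_maps fun x hx => ?_, mem_stab_of_maps fun x hx => ?_⟩, hg⟩, e⟩
  · rw [e, eu_apply, S.ts z hz x hx]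
    simpa using U.sub_mem hx (U.smul_mem _ hz)
  · rw [e, eu_apply, S.ts' d hd x hx]
    simpa using U'.add_mem hx (U'.smul_mem _ hd)

theorem exists_move (H : Submodule F V) (hH : H ≤ U') {y d : V} (hy : y ∈ U') (hd : d ∈ H)
    (hyH : y ∉ H) : ∃ g ∈ stab U ⊓ stab U' ⊓ EG P, g y = y + d ∧ ∀ h ∈ H, g h = h := by
  obtain ⟨z, hz, h1, h2⟩ := S.exists_orth H hH hy hyH
  obtain ⟨g, hg, e⟩ := S.has_L (hH hd) hz (P.eq_zero_symm (h1 d hd))
  refine ⟨g, hg, ?_, fun h hh => ?_⟩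
  · rw [e, eu_apply, h2, S.ts' d (hH hd) y hy]; simp
  · rw [e, eu_fix _ (S.ts' d (hH hd) h (hH hh)) (h1 h hh)]

theorem xle_of_eu (hH : stab U ⊓ stab U' ⊓ EG P ≤ M) {w y : V} (hw : w ∈ U') (hy : y ∈ U')
    (hyw : y ∉ F ∙ w) {c : F} (h : Has M (eu P w y c)) : XLe P M w := by
  have hws := S.symm.sing hw
  have h1 : ∀ d ∈ U', d ∉ Submodule.span F {w, y} → Has M (eu P w d 0) := by
    intro d hd hd'
    obtain ⟨g, hg, e1, e2⟩ := S.exists_move (Submodule.span F {w, d}) (Submodule.span_le.2 (by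
      rintro _ (rfl | rfl) <;> assumption)) hy (d := d) (Submodule.subset_span (by simp)) (by
        intro hh
        obtain ⟨s, t, rfl⟩ := Submodule.mem_span_pair.1 hh
        have ht : t ≠ 0 := by rintro rfl; exact hyw (Submodule.mem_span_singleton.2 ⟨s, by simp⟩)
        refine hd' (Submodule.mem_span_pair.2 ⟨-(t⁻¹ * s), t⁻¹, ?_⟩)
        match_scalars <;> field_simp <;> ring)
    have h2 := has_eu_conj h (hH hg) (EG_le_isom hg.2)
    rw [e1, e2 w (Submodule.subset_span (by simp))] at h2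
    have h3 := has_eu_add hws (S.ts' w hw _ (U'.add_mem hy hd)) (S.ts' w hw _ (U'.neg_mem hy)) h2
      (has_eu_neg hws (S.ts' w hw y hy) h)
    rw [S.ts' y hy y hy, S.ts' _ (U'.add_mem hy hd) _ (U'.neg_mem hy)] at h3
    simpa using h3
  have h2 : ∀ d ∈ U', Has M (eu P w d 0) := by
    intro d hd
    by_cases hd' : d ∈ Submodule.span F {w, y}
    swap
    · exact h1 d hd hd'
    obtain ⟨d', hd1, hd2⟩ := exists_mem_notMem (X := U') (U := Submodule.span F {w, y})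
      (by have := finrank_span_pair_le (F := F) w y; have := S.three'; omega)
    have h3 := has_eu_add hws (S.ts' w hw _ hd1) (S.ts' w hw _ (U'.sub_mem hd hd1)) (h1 d' hd1 hd2)
      (h1 _ (U'.sub_mem hd hd1) fun h => hd2 (by simpa using Submodule.sub_mem _ hd' h))
    rw [S.ts' _ hd1 _ (U'.sub_mem hd hd1)] at h3
    simpa using h3
  have hr : Rt P M w := rt_of_eu hws fun l hl => by
    obtain ⟨a, rfl⟩ := S.sur l hl
    refine (h2 _ (U'.smul_mem a hw)).congr fun x => ?_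
    simpa using eu_add_smul (P := P) w 0 a 0 x
  refine xle_of_Sd (hd := hws) (h := hr) fun v hv => ?_
  obtain ⟨x, hx, x', hx', rfl⟩ := S.dec v
  have h3 := S.ts' w hw x' hx'
  have h4 : P.B w x = 0 := by simpa [h3] using hv
  exact (Sd hws hr).add_mem (mem_Sd h4 (S.valid hx) ((S.has_L hw hx h4).mono hH))
    (mem_Sd h3 (S.symm.valid hx') (h2 x' hx'))

theorem xle_of_moves (hH : stab U ⊓ stab U' ⊓ EG P ≤ M) {x : V ≃ₗ[F] V} (hx : x ∈ M)
    (hx' : x ∈ P.Isom) {w z : V} (hw : w ∈ U') (hw0 : w ≠ 0) (hz : z ∈ U) (hwz : P.B w z = 0)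
    (hxw : x w = w) (hxz : x z ∉ U) : ∃ w ∈ U', w ≠ 0 ∧ XLe P M w := by
  have hws := S.symm.sing hw
  obtain ⟨u, hu, u', hu', e⟩ := S.dec (x z)
  have hwu : P.B w u = 0 := by
    have := hx'.1 w z
    rw [hxw, e, hwz] at this
    simpa [S.ts' w hw u' hu'] using this
  have h1 : ∀ a : F, Has M (eu P w (a • u') (-P.B (a • u') (a • u))) := fun a => by
    have h2 := has_eu_conj ((S.has_L hw (U.smul_mem a hz) (by simp [hwz])).mono hH) hx hx'
    rw [hxw, map_smul, e] at h2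
    have h3 := has_eu_add hws (by simp [hwu, S.ts' w hw u' hu']) (w' := -(a • u)) (by simp [hwu]) h2
      ((S.has_L hw (U.neg_mem (U.smul_mem a hu)) (by simp [hwu])).mono hH)
    convert h3 using 3
    · module
    · simp [B_smul_left, S.ts u hu u hu]; ring
  by_cases h2 : u' ∈ F ∙ w
  swap
  · exact ⟨w, hw, hw0, S.xle_of_eu hH hw hu' h2 (by simpa using h1 1)⟩
  obtain ⟨t, rfl⟩ := Submodule.mem_span_singleton.1 h2
  have ht : t ≠ 0 := by rintro rfl; exact hxz (by simpa [e] using hu)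
  obtain ⟨l, hl, hl0⟩ := S.lam
  obtain ⟨a, ha⟩ := S.sur l hl
  have h3 : Has M (P.qrefl (-(P.ε * l)) w) := (h1 (a * t⁻¹)).congr fun v => by
    rw [← eu_eq_qrefl, smul_smul, inv_mul_cancel_right₀ ht, ha]
    simpa [B_smul_left, hwu] using eu_add_smul (P := P) w 0 a 0 v
  obtain ⟨d, hd, hd'⟩ := exists_mem_notMem (X := U') (U := F ∙ w)
    (by have := finrank_span_singleton_le (F := F) w; have := S.three'; omega)
  have hwd : w ∉ F ∙ d := fun h => by
    obtain ⟨s, rfl⟩ := Submodule.mem_span_singleton.1 h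
    have hs : s ≠ 0 := by rintro rfl; simp at hw0
    exact hd' (Submodule.mem_span_singleton.2 ⟨s⁻¹, by rw [smul_smul, inv_mul_cancel₀ hs, one_smul]⟩)
  obtain ⟨g, hg, e1, -⟩ := S.exists_move (F ∙ d) ((Submodule.span_singleton_le_iff_mem _ _).2 hd) hw
    (Submodule.mem_span_singleton_self d) hwd
  have h4 := (h3.conj (hH hg)).congr (qrefl_conj (EG_le_isom hg.2) _ w)
  rw [e1] at h4
  refine ⟨d, hd, by rintro rfl; simp at hd', S.xle_of_eu hH hd (U'.smul_mem _ hw) (fun h => hwd ?_)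
    (has_eu_of_qrefl (S.ts' d hd w hw) (qrefl_valid_of_sing hws hl) h3 h4)⟩
  exact (Submodule.smul_mem_iff _ (by simp [P.ε_ne_zero, hl0])).1 h

theorem exists_swap : ∃ s ∈ EG P, (∀ x ∈ U, s x ∈ U') ∧ ∀ x ∈ U', s x ∈ U := by
  classical
  let b := finBasis F U
  obtain ⟨g, hg⟩ := P.exists_dual_family S.nd (fun i => (b i : V))
    (b.linearIndependent.map' U.subtype (Submodule.ker_subtype U))
  choose g0 hg0 f hf eg using fun j => S.dec (g j)
  have hbf : ∀ i j, P.B (b i) (f j) = if i = j then 1 else 0 := fun i j => by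
    rw [← hg, eg, map_add, S.ts _ (b i).2 _ (hg0 j), zero_add]
  have key : ∀ J : Finset (Fin (finrank F U)), ∃ s ∈ EG P, (∀ i ∈ J, s (b i) ∈ U' ∧ s (f i) ∈ U) ∧
      ∀ i ∉ J, s (b i) = b i ∧ s (f i) = f i := by
    intro J
    induction J using Finset.induction_on with
    | empty => exact ⟨1, (EG P).one_mem, by simp, fun _ _ => ⟨rfl, rfl⟩⟩
    | insert j J hj ih =>
      obtain ⟨s, hs, h1, h2⟩ := ih
      obtain ⟨n, hn, e1, e2, e3⟩ := exists_weyl S.lam (S.sing (b j).2) (S.symm.sing (hf j))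
        (by rw [hbf, if_pos rfl])
      have h3 : ∀ i, i ≠ j → n (b i) = b i ∧ n (f i) = f i := fun i hi =>
        ⟨e3 _ (S.ts _ (b j).2 _ (b i).2) (P.eq_zero_symm (by rw [hbf, if_neg hi])),
          e3 _ (by rw [hbf, if_neg hi.symm]) (S.ts' _ (hf j) _ (hf i))⟩
      refine ⟨s * n, (EG P).mul_mem hs hn, fun i hi => ?_, fun i hi => ?_⟩
      · by_cases hij : i = j
        · subst hij
          obtain ⟨c, hc⟩ := Submodule.mem_span_singleton.1 e1
          obtain ⟨c', hc'⟩ := Submodule.mem_span_singleton.1 e2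
          rw [le_mul_apply, le_mul_apply, ← hc, ← hc', map_smul, map_smul, (h2 i hj).1, (h2 i hj).2]
          exact ⟨U'.smul_mem _ (hf i), U.smul_mem _ (b i).2⟩
        · rw [le_mul_apply, le_mul_apply, (h3 i hij).1, (h3 i hij).2]
          exact h1 i ((Finset.mem_insert.1 hi).resolve_left hij)
      · rw [Finset.mem_insert, not_or] at hi
        rw [le_mul_apply, le_mul_apply, (h3 i hi.1).1, (h3 i hi.1).2]
        exact h2 i hi.2
  obtain ⟨s, hs, h1, -⟩ := key Finset.univ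
  refine ⟨s, hs, fun x hx => ?_, fun y hy => ?_⟩
  · have := congrArg U.subtype (b.sum_repr ⟨x, hx⟩)
    simp only [map_sum, map_smul, Submodule.subtype_apply] at this
    rw [← this, map_sum]
    exact U'.sum_mem fun i _ => by rw [map_smul]; exact U'.smul_mem _ (h1 i (by simp)).1
  · have h2 : y - ∑ i, P.B (b i) y • f i = 0 := by
      refine S.symm.eq_zero (U'.sub_mem hy (U'.sum_mem fun i _ => U'.smul_mem _ (hf i))) fun x hx => ?_
      have h3 : (P.B (y - ∑ i, P.B (b i) y • f i)).comp U.subtype = 0 := b.ext fun i =>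
        P.eq_zero_symm (by simp [hbf])
      exact congrArg (fun φ : U →ₗ[F] F => φ ⟨x, hx⟩) h3
    rw [sub_eq_zero.1 h2, map_sum]
    exact U.sum_mem fun i _ => by rw [map_smul]; exact U.smul_mem _ (h1 i (by simp)).2

theorem EG_le_of_xle' (hH : stab U ⊓ stab U' ⊓ EG P ≤ M) {s : V ≃ₗ[F] V} (hs : s ∈ M)
    (hs' : s ∈ P.Isom) (h1 : ∀ x ∈ U', s x ∈ U) {w : V} (hw : w ∈ U') (hw0 : w ≠ 0)
    (hX : XLe P M w) : EG P ≤ M := by
  have hws := S.symm.sing hw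
  by_cases h2 : P.B (s w) w = 0
  swap
  · exact EG_le_of_xle S.nd (isom_q hs' hws) hws (hX.apply hs hs') hX h2
  obtain ⟨d, hd, hd'⟩ := S.exists_ne (h1 w hw) (by simpa using hw0)
  obtain ⟨g, hg, e1, -⟩ := S.exists_move (F ∙ d) ((Submodule.span_singleton_le_iff_mem _ _).2 hd) hw
    (Submodule.mem_span_singleton_self d) (fun h => by
      obtain ⟨t, rfl⟩ := Submodule.mem_span_singleton.1 h
      have ht : t ≠ 0 := by rintro rfl; simp at hw0
      rw [map_smul (P.B _), smul_eq_mul, mul_eq_zero] at h2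
      exact hd' (h2.resolve_left ht))
  exact EG_le_of_xle S.nd (isom_q hs' hws) (S.symm.sing (U'.add_mem hw hd)) (hX.apply hs hs')
    (e1 ▸ hX.apply (hH hg) (EG_le_isom hg.2)) (by simpa [h2] using hd')

theorem maps_of_bad {a b : V}
    (h : ∀ w ∈ U', w ≠ 0 → P.B a w = 0 → P.B b w = 0 → ∀ z ∈ U, P.B w z = 0 → eu P a b 0 z ∈ U)
    (h' : ∀ w ∈ U, w ≠ 0 → P.B a w = 0 → P.B b w = 0 → ∀ z ∈ U', P.B w z = 0 → eu P a b 0 z ∈ U') :
    ∀ z ∈ U, eu P a b 0 z ∈ U := by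
  have s1 : ∀ {U U' : Submodule F V}, (∀ w ∈ U', w ≠ 0 → P.B a w = 0 → P.B b w = 0 → ∀ z ∈ U,
      P.B w z = 0 → eu P a b 0 z ∈ U) → ∀ Y ≤ U', 2 ≤ finrank F Y →
      (∀ y ∈ Y, P.B a y = 0 ∧ P.B b y = 0) → ∀ z ∈ U, eu P a b 0 z ∈ U := by
    intro U U' h Y hY h2 h3 z hz
    have := finrank_inf_ker Y (P.B z)
    obtain ⟨w, hw, hw0⟩ := exists_ne_zero_mem (X := Y ⊓ LinearMap.ker (P.B z)) (by omega)
    exact h w (hY hw.1) hw0 (h3 w hw.1).1 (h3 w hw.1).2 z hz (P.eq_zero_symm hw.2)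
  have s2 : ∀ {U U' : Submodule F V}, SPair P U U' → ∀ a0 ∈ U, ∀ a1 ∈ U', ∀ b0 ∈ U, ∀ b1 ∈ U',
      a = a0 + a1 → b = b0 + b1 → (∃ v : V, a0 ∈ F ∙ v ∧ b0 ∈ F ∙ v) → ∃ Y ≤ U', 2 ≤ finrank F Y ∧
      ∀ y ∈ Y, P.B a y = 0 ∧ P.B b y = 0 := by
    rintro U U' S a0 - a1 ha1 b0 - b1 hb1 ea eb ⟨v, h1, h2⟩
    obtain ⟨s, rfl⟩ := Submodule.mem_span_singleton.1 h1
    obtain ⟨t, rfl⟩ := Submodule.mem_span_singleton.1 h2
    have := finrank_inf_ker U' (P.B v)
    have := S.three'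
    refine ⟨U' ⊓ LinearMap.ker (P.B v), inf_le_left, by omega, fun y hy => ?_⟩
    have h3 : P.B v y = 0 := hy.2
    simp [ea, eb, B_smul_left, h3, S.ts' _ ha1 y hy.1, S.ts' _ hb1 y hy.1]
  have s3 : ∀ {U U' : Submodule F V}, SPair P U U' → ∀ a0 ∈ U, ∀ a1 ∈ U', ∀ b0 ∈ U, ∀ b1 ∈ U',
      a = a0 + a1 → b = b0 + b1 → (∀ s t : F, s • a1 = t • b1 → s = 0 ∧ t = 0) → ∀ z ∈ U,
      eu P a b 0 z ∈ U → P.B a z = 0 ∧ P.B b z = 0 := by
    intro U U' S a0 ha0 a1 ha1 b0 hb0 b1 hb1 ea eb hi z hz h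
    have h1 : P.B b z • a1 - (P.ε * P.B a z) • b1 = 0 := by
      refine S.disj ?_ (U'.sub_mem (U'.smul_mem _ ha1) (U'.smul_mem _ hb1))
      have := U.add_mem (U.sub_mem (U.sub_mem h hz) (U.smul_mem (P.B b z) ha0))
        (U.smul_mem (P.ε * P.B a z) hb0)
      convert this using 1
      rw [eu_apply]
      generalize P.B b z = β
      generalize P.B a z = α
      rw [ea, eb]; module
    obtain ⟨h2, h3⟩ := hi _ _ (sub_eq_zero.1 h1)
    exact ⟨(mul_eq_zero.1 h3).resolve_left P.ε_ne_zero, h2⟩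
  obtain ⟨a0, ha0, a1, ha1, ea⟩ := S.dec a
  obtain ⟨b0, hb0, b1, hb1, eb⟩ := S.dec b
  rcases dep_or (F := F) a0 b0 with h0 | h0
  swap
  · obtain ⟨Y, h1, h2, h3⟩ := s2 S a0 ha0 a1 ha1 b0 hb0 b1 hb1 ea eb h0
    exact s1 h Y h1 h2 h3
  rcases dep_or (F := F) a1 b1 with h1 | h1
  swap
  · obtain ⟨Y, h2, h3, h4⟩ := s2 S.symm a1 ha1 a0 ha0 b1 hb1 b0 hb0 (by rw [ea, add_comm])
      (by rw [eb, add_comm]) h1
    exact s1 h U' le_rfl (by have := S.three'; omega) fun y hy => s3 S.symm a1 ha1 a0 ha0 b1 hb1 b0 hb0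
      (by rw [ea, add_comm]) (by rw [eb, add_comm]) h0 y hy (s1 h' Y h2 h3 h4 y hy)
  have h2 := finrank_inf_perp (P := P) U' (Submodule.span F {a, b})
  have h3 := finrank_span_pair_le (F := F) a b
  have h4 := S.three'
  obtain ⟨w, hw, hw0⟩ := exists_ne_zero_mem (X := U' ⊓ perp P (Submodule.span F {a, b})) (by omega)
  have h5 := mem_perp_span.1 hw.2 a (by simp)
  have h6 := mem_perp_span.1 hw.2 b (by simp)
  have h7 := s3 S a0 ha0 a1 ha1 b0 hb0 b1 hb1 ea eb h1 a0 ha0 (h w hw.1 hw0 h5 h6 a0 ha0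
    (P.eq_zero_symm (by simpa [ea, S.ts' a1 ha1 w hw.1] using h5)))
  have h8 := s3 S a0 ha0 a1 ha1 b0 hb0 b1 hb1 ea eb h1 b0 hb0 (h w hw.1 hw0 h5 h6 b0 hb0
    (P.eq_zero_symm (by simpa [eb, S.ts' b1 hb1 w hw.1] using h6)))
  simp only [ea, eb, map_add, LinearMap.add_apply, S.ts _ ha0 _ ha0, S.ts _ ha0 _ hb0,
    S.ts _ hb0 _ ha0, S.ts _ hb0 _ hb0, zero_add] at h7 h8
  refine s1 h (Submodule.span F (Set.range ![a1, b1])) (Submodule.span_le.2 ?_) ?_ fun y hy => ?_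
  · rw [Matrix.range_cons_cons_empty]
    rintro _ (rfl | rfl) <;> assumption
  · rw [finrank_span_eq_card (LinearIndependent.pair_iff.2 fun s t hst => ?_)]
    · simp
    · simpa using h1 s (-t) (by rw [neg_smul]; exact eq_neg_of_add_eq_zero_left hst)
  · rw [Matrix.range_cons_cons_empty] at hy
    obtain ⟨s, t, rfl⟩ := Submodule.mem_span_pair.1 hy
    simp [ea, eb, S.ts' _ ha1 _ ha1, S.ts' _ ha1 _ hb1, S.ts' _ hb1 _ ha1, S.ts' _ hb1 _ hb1,
      P.eq_zero_symm h7.1, P.eq_zero_symm h7.2, P.eq_zero_symm h8.1, P.eq_zero_symm h8.2]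

theorem mem_or_mem {W W' : Submodule F V} (T : SPair P W W') {g : V ≃ₗ[F] V} {d : V} (hd : d ∈ W)
    (h : ∀ z ∈ W', P.B d z = 0 → (∀ u ∈ U, eu P (g d) (g z) 0 u ∈ U) ∧
      ∀ u ∈ U', eu P (g d) (g z) 0 u ∈ U') : g d ∈ U ∨ g d ∈ U' := by
  have s1 : ∀ {U U' : Submodule F V}, SPair P U U' → ∀ a0 ∈ U, ∀ a1 ∈ U', ∀ b0 ∈ U, ∀ b1 ∈ U',
      a1 ≠ 0 → (∀ u ∈ U, eu P (a0 + a1) (b0 + b1) 0 u ∈ U) → b1 ∈ F ∙ a1 := by
    intro U U' S a0 ha0 a1 ha1 b0 hb0 b1 hb1 h0 h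
    obtain ⟨z, hz, hz'⟩ := S.symm.exists_ne ha1 h0
    have h1 : P.B b1 z • a1 - (P.ε * P.B a1 z) • b1 = 0 := by
      refine S.disj ?_ (U'.sub_mem (U'.smul_mem _ ha1) (U'.smul_mem _ hb1))
      have := U.add_mem (U.sub_mem (U.sub_mem (h z hz) hz) (U.smul_mem (P.B b1 z) ha0))
        (U.smul_mem (P.ε * P.B a1 z) hb0)
      convert this using 1
      simp only [eu_apply, map_add, LinearMap.add_apply, S.ts _ ha0 _ hz, S.ts _ hb0 _ hz]
      module
    refine (Submodule.smul_mem_iff _ (mul_ne_zero P.ε_ne_zero hz')).1 ?_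
    rw [← sub_eq_zero.1 h1]
    exact Submodule.smul_mem _ _ (Submodule.mem_span_singleton_self _)
  obtain ⟨a0, ha0, a1, ha1, ea⟩ := S.dec (g d)
  by_cases h1 : a1 = 0
  · left; simpa [ea, h1] using ha0
  by_cases h0 : a0 = 0
  · right; simpa [ea, h0] using ha1
  exfalso
  have h2 : (W' ⊓ LinearMap.ker (P.B d)).map (g : V →ₗ[F] V) ≤ Submodule.span F {a0, a1} := by
    rintro _ ⟨z, hz, rfl⟩
    obtain ⟨b0, hb0, b1, hb1, eb⟩ := S.dec (g z)
    obtain ⟨h3, h4⟩ := h z hz.1 hz.2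
    rw [ea, eb] at h3
    rw [ea, eb, add_comm a0, add_comm b0] at h4
    rw [LinearEquiv.coe_coe, eb, Submodule.span_insert]
    exact Submodule.add_mem_sup (s1 S.symm a1 ha1 a0 ha0 b1 hb1 b0 hb0 h0 h4)
      (s1 S a0 ha0 a1 ha1 b0 hb0 b1 hb1 h1 h3)
  have h3 := finrank_inf_ker W' (P.B d)
  have h4 := finrank_span_pair_le (F := F) a0 a1
  have h5 := T.three'
  have h6 := Submodule.eq_of_le_of_finrank_le h2 (by rw [LinearEquiv.finrank_map_eq]; omega)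
  have h7 : g d ∈ Submodule.span F {a0, a1} := Submodule.mem_span_pair.2 ⟨1, 1, by simp [ea]⟩
  rw [← h6, mem_map_le] at h7
  have h8 := T.disj hd h7.1
  rw [h8, map_zero] at ea
  exact h0 (S.disj ha0 (by rw [eq_neg_of_add_eq_zero_left ea.symm]; exact U'.neg_mem ha1))

end SPair

theorem isMaximalIn_pair {D : Fin 2 → Submodule F V} (X : Dec D) (S : SPair P (D 0) (D 1))
    (hd : finrank F (D 0) = finrank F (D 1)) : Geo.IsMaximalIn (EG P) (dstab D ⊓ EG P) := by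
  have hl : stab (D 0) ⊓ stab (D 1) ⊓ EG P ≤ dstab D ⊓ EG P :=
    fun g hg => ⟨mem_dstab_two.2 (Or.inl hg.1), hg.2⟩
  have hl' : stab (D 1) ⊓ stab (D 0) ⊓ EG P ≤ dstab D ⊓ EG P := by rwa [inf_comm (stab (D 1))]
  refine isMaximalIn_of inf_le_right (fun hle => ?_) fun M h1 h2 ⟨g, hg, hg'⟩ => ?_
  · obtain ⟨x, hx, hx0⟩ := exists_ne_zero_mem (X := D 0) (by have := S.three; omega)
    obtain ⟨e, he, hxe⟩ := S.exists_ne hx hx0
    obtain ⟨c, hc0, hc⟩ := exists_valid_ne_zero S.lam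
    obtain ⟨g, hg, eg⟩ := has_qrefl_EG_of_sing (S.symm.sing he) (valid_of_sing (S.symm.sing he) hc)
    refine X.not_two_of_mem (hle hg).1 hx ⟨0, 1, by decide, ?_, ?_⟩
    · rwa [eg, PQ.qrefl_apply, map_add, X.self 0 x hx, X.other 0 1 (by decide) _ ((D 1).smul_mem _ he),
        add_zero]
    · rw [eg, PQ.qrefl_apply, map_add, X.other 1 0 (by decide) x hx, X.self 1 _ ((D 1).smul_mem _ he),
        zero_add]
      exact smul_ne_zero (mul_ne_zero hc0 (B_ne_zero_symm hxe)) (by rintro rfl; simp at hxe)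
  have hgI := EG_le_isom (h2 hg)
  obtain ⟨s, hs, s1, s2⟩ := S.exists_swap
  have hsM : s ∈ M := h1 ⟨mem_dstab_two.2 (Or.inr ⟨map_eq_of_maps s1 hd.ge, map_eq_of_maps s2 hd.le⟩), hs⟩
  by_contra hE
  have key : ∀ a b, Has M (eu P a b 0) → Has P.Isom (eu P a b 0) →
      (∀ u ∈ D 0, eu P a b 0 u ∈ D 0) ∧ ∀ u ∈ D 1, eu P a b 0 u ∈ D 1 := by
    rintro a b ⟨x, hx, ex⟩ hI
    have b1 : ∀ w ∈ D 1, w ≠ 0 → P.B a w = 0 → P.B b w = 0 → ∀ z ∈ D 0, P.B w z = 0 →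
        eu P a b 0 z ∈ D 0 := fun w hw hw0 i1 i2 z hz hwz => by
      by_contra hc
      obtain ⟨w', hw', hw0', hX⟩ := S.xle_of_moves (hl.trans h1) hx (hI.mem ex) hw hw0 hz hwz
        (by rw [ex, eu_fix _ i1 i2]) (by rwa [ex])
      exact hE (S.EG_le_of_xle' (hl.trans h1) hsM (EG_le_isom hs) s2 hw' hw0' hX)
    have b2 : ∀ w ∈ D 0, w ≠ 0 → P.B a w = 0 → P.B b w = 0 → ∀ z ∈ D 1, P.B w z = 0 →
        eu P a b 0 z ∈ D 1 := fun w hw hw0 i1 i2 z hz hwz => by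
      by_contra hc
      obtain ⟨w', hw', hw0', hX⟩ := S.symm.xle_of_moves (hl'.trans h1) hx (hI.mem ex) hw hw0 hz hwz
        (by rw [ex, eu_fix _ i1 i2]) (by rwa [ex])
      exact hE (S.symm.EG_le_of_xle' (hl'.trans h1) hsM (EG_le_isom hs) s1 hw' hw0' hX)
    exact ⟨S.maps_of_bad b1 b2, S.symm.maps_of_bad b2 b1⟩
  have key2 : ∀ {W W' : Submodule F V}, SPair P W W' → stab W' ⊓ stab W ⊓ EG P ≤ M → ∀ d ∈ W,
      ¬ X.Two (g d) := fun T hT d hd ht =>
    (S.mem_or_mem T hd fun z hz hdz => key _ _ (has_eu_conj ((T.symm.has_L hd hz hdz).mono hT) hg hgI)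
      (has_eu_conj ((T.symm.has_L hd hz hdz).mono (inf_le_right.trans EG_le_isom)) hgI hgI)).elim
      (ht.notMem 0) (ht.notMem 1)
  obtain ⟨i, x, hx, ht⟩ := X.exists_two_of_notMem (Fin.forall_fin_two.2
    ⟨fun h => by have := S.three; rw [h, finrank_bot] at this; omega,
      fun h => by have := S.three'; rw [h, finrank_bot] at this; omega⟩)
    (Fin.forall_fin_two.2 ⟨Fin.forall_fin_two.2 ⟨rfl, hd⟩, Fin.forall_fin_two.2 ⟨hd.symm, rfl⟩⟩)
    fun h => hg' ⟨h, h2 hg⟩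
  revert hx
  revert i
  exact Fin.forall_fin_two.2 ⟨fun hx => key2 S (hl'.trans h1) x hx ht,
    fun hx => key2 S.symm (hl.trans h1) x hx ht⟩

theorem Dec.dec_two {D : Fin 2 → Submodule F V} (X : Dec D) (v : V) :
    ∃ x ∈ D 0, ∃ y ∈ D 1, v = x + y :=
  ⟨_, X.mem 0 v, _, X.mem 1 v, by rw [← Fin.sum_univ_two (fun i => X.π i v), X.sum]⟩

end General

section Matrix

variable {F : Type*} [Field F] [Fintype F]

/-- `GL_m(q).2` is maximal in `Sp_{2m}(q)`, `q` odd, `m ≥ 3`. -/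
theorem sp_singular_pair_maximal (m : ℕ) (hm : 3 ≤ m) (hodd : Odd (Fintype.card F))
    (D : Fin 2 → Submodule F (Fin m ⊕ Fin m → F)) (hD : Geo.IsMDecomposition m D)
    (hts : ∀ i, Geo.IsTotallySingularFor (sympForm m F) (D i)) :
    Geo.IsMaximalIn (spGL m F) (Geo.decompositionStabilizer D ⊓ spGL m F) := by
  rw [spGL_eq, decompositionStabilizer_eq, ← pull_inf]
  obtain ⟨X⟩ := nonempty_dec hD.indep hD.iSup_eq_top
  refine isMaximalIn_pull (isMaximalIn_pair X ⟨spP_nd m, lmax_of_top rfl, spP_lambda m, fun l _ => ?_,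
    hts 0, hts 1, X.dec_two, by rw [hD.finrank_eq]; exact hm, by rw [hD.finrank_eq]; exact hm⟩
    (by rw [hD.finrank_eq, hD.finrank_eq]))
  refine ⟨l * 2⁻¹, ?_⟩
  have := two_ne_zero_of_odd hodd
  change l = l * 2⁻¹ - (-1) * (l * 2⁻¹)
  field_simp; ring

/-- `GL_k(q²).2` in `SU_{2k}(q)`, `k ≥ 3`. -/
theorem su_singular_pair_maximal {n q : ℕ} [H11.U.IsSq F q] (k : ℕ) (hk : 3 ≤ k) (hn : 4 ≤ n)
    (D : Fin 2 → Submodule F (Fin n → F)) (hD : Geo.IsMDecomposition k D)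
    (hts : ∀ i, Geo.IsTotallySingularFor (hermForm n F q) (D i)) :
    Geo.IsMaximalIn (GU n F q ⊓ Geo.specialLinear (Fin n) F)
      (Geo.decompositionStabilizer D ⊓ (GU n F q ⊓ Geo.specialLinear (Fin n) F)) := by
  rw [SU_eq hn, decompositionStabilizer_eq, ← pull_inf]
  obtain ⟨X⟩ := nonempty_dec hD.indep hD.iSup_eq_top
  have U := uni_uP (F := F) (q := q) hn
  refine isMaximalIn_pull (isMaximalIn_pair X ⟨U.nd, U.lmax, U.lam, fun l hl => ?_,
    fun x hx y hy => hts 0 y hy x hx, fun x hx y hy => hts 1 y hy x hx, X.dec_two,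
    by rw [hD.finrank_eq]; exact hk, by rw [hD.finrank_eq]; exact hk⟩
    (by rw [hD.finrank_eq, hD.finrank_eq]))
  obtain ⟨c, hc⟩ := U.exists_tr
  refine ⟨c * l, ?_⟩
  rw [U.eps, map_mul]
  linear_combination (-l) * hc + H11.U.cj q c * U.mem_lam.1 hl

end Matrix

end H98
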